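import Mathlib

set_option autoImplicit false

namespace Cfsg.Agent.Lib.Helper17

open Polynomial

section QuadExt
variable {F K : Type*} [Field F] [Fintype F] [Field K] [Fintype K]

/-- A quadratic extension of finite fields realised concretely: an embedding of `F` in `K` and
the two distinct roots in `K` of an anisotropic quadratic over `F`. -/
theorem exists_quadratic_ext {q : ℕ} (hF : Fintype.card F = q) (hK : Fintype.card K = q ^ 2)
    (a c : F)
    (hac : ∀ z₁ z₂ : F, z₁ ^ 2 + a * z₁ * z₂ + c * z₂ ^ 2 = 0 → z₁ = 0 ∧ z₂ = 0) :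
    ∃ (j : F →+* K) (ρ ρ' : K), ρ + ρ' = - j a ∧ ρ * ρ' = j c ∧ ρ ≠ ρ' := by
  classical
  have hnoroot : ∀ r : F, r ^ 2 + a * r + c ≠ 0 := by
    intro r hr
    have := hac r 1 (by rw [← hr]; ring)
    exact one_ne_zero this.2
  set f : F[X] := X ^ 2 + C a * X + C c with hf
  have hdeg : f.natDegree = 2 := by
    rw [hf]; compute_degree!
  have hirr : Irreducible f := by
    apply irreducible_of_degree_le_three_of_not_isRoot
    · rw [hdeg]; decide
    · intro r hr
      apply hnoroot r
      have : f.eval r = 0 := hr
      rw [hf] at this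
      simpa using this
  have : Fact (Irreducible f) := ⟨hirr⟩
  have hf0 : f ≠ 0 := hirr.ne_zero
  have : Module.Finite F (AdjoinRoot f) := (AdjoinRoot.powerBasis hf0).finite
  have : Finite (AdjoinRoot f) := Module.finite_of_finite F
  let _ : Fintype (AdjoinRoot f) := Fintype.ofFinite _
  have hcard : Fintype.card K = Fintype.card (AdjoinRoot f) := by
    rw [Module.card_eq_pow_finrank (K := F) (V := AdjoinRoot f), (AdjoinRoot.powerBasis hf0).finrank,
      AdjoinRoot.powerBasis_dim, hdeg, hK, hF]
  let e : K ≃+* AdjoinRoot f := FiniteField.ringEquivOfCardEq hcard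
  let j : F →+* K := (e.symm : AdjoinRoot f →+* K).comp (AdjoinRoot.of f)
  let ρ : K := e.symm (AdjoinRoot.root f)
  have hroot : ρ ^ 2 + j a * ρ + j c = 0 := by
    have h1 := AdjoinRoot.eval₂_root f
    rw [hf] at h1
    simp only [eval₂_add, eval₂_mul, eval₂_pow, eval₂_X, eval₂_C] at h1
    have h2 := congrArg e.symm h1
    simp only [map_add, map_mul, map_pow, map_zero] at h2
    exact h2
  have hjinj : Function.Injective j := j.injective
  refine ⟨j, ρ, - j a - ρ, by ring, by linear_combination -hroot, ?_⟩
  intro heq
  have h2ρ : 2 * ρ = - j a := by linear_combination heq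
  by_cases h2 : (2 : F) = 0
  · have h2K : (2 : K) = 0 := by
      have := congrArg j h2
      rw [map_ofNat, map_zero] at this
      exact this
    have ha : a = 0 := by
      apply hjinj
      rw [map_zero]
      have : j a = -(2 * ρ) := by rw [h2ρ, neg_neg]
      rw [this, h2K, zero_mul, neg_zero]
    have : CharP F 2 := CharTwo.of_one_ne_zero_of_two_eq_zero one_ne_zero h2
    have hchar : ringChar F = 2 := ringChar.eq F 2
    obtain ⟨r, hr⟩ := FiniteField.isSquare_of_char_two hchar c
    apply hnoroot r
    rw [ha, hr]
    linear_combination (r * r) * h2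
  · apply hnoroot (-a / 2)
    apply hjinj
    have h2K : (2 : K) ≠ 0 := by
      intro h
      apply h2
      apply hjinj
      rw [map_zero, map_ofNat]; exact h
    have hjr : j (-a / 2) = ρ := by
      rw [map_div₀, map_neg, ← h2ρ, map_ofNat]
      field_simp
    rw [map_zero, map_add, map_add, map_mul, map_pow, hjr]
    exact hroot

end QuadExt

end Cfsg.Agent.Lib.Helper17
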