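import Mathlib
import Cfsg.Prelude.Def_Classical
import Cfsg.Agent.Lib.Helper17.QuadExt

set_option autoImplicit false

namespace Cfsg.Agent.Lib.Helper17

open Cfsg

section QF
variable {R : Type*} [CommRing R] {ι : Type*} [Fintype ι]

/-- the quadratic form `v ↦ vᵀ M v` -/
def qf (M : Matrix ι ι R) (v : ι → R) : R := dotProduct v (M.mulVec v)

theorem qf_mulVec (M g : Matrix ι ι R) (v : ι → R) :
    qf M (g.mulVec v) = qf (g.transpose * M * g) v := by
  unfold qf
  rw [← Matrix.mulVec_mulVec, ← Matrix.mulVec_mulVec, Matrix.dotProduct_mulVec v g.transpose,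
    Matrix.vecMul_transpose]

theorem qf_sub (M N : Matrix ι ι R) (v : ι → R) : qf (M - N) v = qf M v - qf N v := by
  unfold qf
  rw [Matrix.sub_mulVec, dotProduct_sub]

/-- alternating matrices -/
def IsAltM (N : Matrix ι ι R) : Prop := (∀ i, N i i = 0) ∧ ∀ i j, N i j + N j i = 0

theorem qf_eq_zero_of_isAltM (N : Matrix ι ι R) (h : IsAltM N) (v : ι → R) : qf N v = 0 := by
  unfold qf dotProduct Matrix.mulVec dotProduct
  simp_rw [Finset.mul_sum]
  rw [← Finset.sum_product']
  apply Finset.sum_involution (fun p _ => (p.2, p.1))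
  · rintro ⟨i, j⟩ _
    have := h.2 i j
    show v i * (N i j * v j) + v j * (N j i * v i) = 0
    linear_combination (v i * v j) * this
  · rintro ⟨i, j⟩ _ hne heq
    simp only [Prod.mk.injEq] at heq
    obtain ⟨rfl, -⟩ := heq
    apply hne
    show v j * (N j j * v j) = 0
    rw [h.1 j]; ring
  · intros; exact Finset.mem_univ _
  · intros; rfl

theorem isAltM_of_qf_eq_zero [DecidableEq ι] (N : Matrix ι ι R) (h : ∀ v, qf N v = 0) : IsAltM N := by
  have h1 : ∀ i, N i i = 0 := by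
    intro i
    have := h (Pi.single i 1)
    simpa [qf, Matrix.mulVec_single_one] using this
  refine ⟨h1, fun i j => ?_⟩
  by_cases hij : i = j
  · subst hij; rw [h1]; simp
  · have := h (Pi.single i 1 + Pi.single j 1)
    simp only [qf, Matrix.mulVec_add, Matrix.mulVec_single_one, add_dotProduct, dotProduct_add,
      single_one_dotProduct, Matrix.col_apply, h1, zero_add, add_zero] at this
    linear_combination this

theorem qf_map_invariant [DecidableEq ι] {S : Type*} [CommRing S] (j : R →+* S) (M g : Matrix ι ι R)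
    (h : ∀ v, qf M (g.mulVec v) = qf M v) (w : ι → S) :
    qf (M.map j) ((g.map j).mulVec w) = qf (M.map j) w := by
  have h1 : IsAltM (g.transpose * M * g - M) :=
    isAltM_of_qf_eq_zero _ (fun v => by rw [qf_sub, ← qf_mulVec, h, sub_self])
  have h2 : IsAltM ((g.map j).transpose * (M.map j) * (g.map j) - M.map j) := by
    have e : (g.map j).transpose * (M.map j) * (g.map j) - M.map j
        = (g.transpose * M * g - M).map j := by
      rw [Matrix.map_sub (⇑j) (map_sub j), Matrix.map_mul, Matrix.map_mul, Matrix.transpose_map]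
    rw [e]
    refine ⟨fun i => ?_, fun i k => ?_⟩
    · rw [Matrix.map_apply, h1.1 i, map_zero]
    · rw [Matrix.map_apply, Matrix.map_apply, ← map_add, h1.2 i k, map_zero]
  have := qf_eq_zero_of_isAltM _ h2 w
  rw [qf_sub, ← qf_mulVec] at this
  exact sub_eq_zero.mp this

end QF

section Minus

/-- Gram-type matrix of the elliptic form -/
def minusMat (n : ℕ) (R : Type*) [CommRing R] (a c : R) :
    Matrix ((Fin n ⊕ Fin n) ⊕ Fin 2) ((Fin n ⊕ Fin n) ⊕ Fin 2) R :=
  Matrix.fromBlocks (Matrix.fromBlocks 0 1 0 0) 0 0 !![1, a; 0, c]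

theorem quadFormMinus_eq_qf (n : ℕ) (F : Type*) [Field F] (a c : F)
    (v : (Fin n ⊕ Fin n) ⊕ Fin 2 → F) :
    Cfsg.quadFormMinus n F a c v = qf (minusMat n F a c) v := by
  unfold Cfsg.quadFormMinus qf minusMat
  simp [dotProduct, Matrix.mulVec, Fintype.sum_sum_type, Matrix.one_apply, Fin.sum_univ_two]
  ring

theorem minusMat_map (n : ℕ) {R S : Type*} [CommRing R] [CommRing S] (j : R →+* S) (a c : R) :
    (minusMat n R a c).map j = minusMat n S (j a) (j c) := by
  unfold minusMat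
  rw [Matrix.fromBlocks_map, Matrix.fromBlocks_map]
  congr 1
  · congr 1 <;> simp
  · simp
  · simp
  · ext i k
    fin_cases i <;> fin_cases k <;> simp

end Minus

section Embed
variable {K : Type*} [Field K] (n : ℕ) (ρ ρ' : K)

/-- change of variables taking the elliptic form over the extension to the hyperbolic form -/
def ellL : ((Fin n ⊕ Fin n) ⊕ Fin 2 → K) →ₗ[K] (Fin (n + 1) ⊕ Fin (n + 1) → K) where
  toFun v := Sum.elim
    (Fin.snoc (α := fun _ => K) (fun k : Fin n => v (Sum.inl (Sum.inl k)))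
      (v (Sum.inr 0) - ρ * v (Sum.inr 1)))
    (Fin.snoc (α := fun _ => K) (fun k : Fin n => v (Sum.inl (Sum.inr k)))
      (v (Sum.inr 0) - ρ' * v (Sum.inr 1)))
  map_add' u v := by
    funext i
    rcases i with i | i <;> refine Fin.lastCases ?_ (fun k => ?_) i <;>
      simp [Fin.snoc_last, Fin.snoc_castSucc] <;> ring
  map_smul' r v := by
    funext i
    rcases i with i | i <;> refine Fin.lastCases ?_ (fun k => ?_) i <;>
      simp [Fin.snoc_last, Fin.snoc_castSucc] <;> ring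

theorem ellL_inl_castSucc (v : (Fin n ⊕ Fin n) ⊕ Fin 2 → K) (k : Fin n) :
    ellL n ρ ρ' v (Sum.inl k.castSucc) = v (Sum.inl (Sum.inl k)) := by
  simp [ellL]

theorem ellL_inr_castSucc (v : (Fin n ⊕ Fin n) ⊕ Fin 2 → K) (k : Fin n) :
    ellL n ρ ρ' v (Sum.inr k.castSucc) = v (Sum.inl (Sum.inr k)) := by
  simp [ellL]

theorem ellL_inl_last (v : (Fin n ⊕ Fin n) ⊕ Fin 2 → K) :
    ellL n ρ ρ' v (Sum.inl (Fin.last n)) = v (Sum.inr 0) - ρ * v (Sum.inr 1) := by
  simp [ellL]

theorem ellL_inr_last (v : (Fin n ⊕ Fin n) ⊕ Fin 2 → K) :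
    ellL n ρ ρ' v (Sum.inr (Fin.last n)) = v (Sum.inr 0) - ρ' * v (Sum.inr 1) := by
  simp [ellL]

theorem ellL_injective (h : ρ ≠ ρ') : Function.Injective (ellL n ρ ρ') := by
  rw [← LinearMap.ker_eq_bot, LinearMap.ker_eq_bot']
  intro v hv
  have h1 : ∀ k : Fin n, v (Sum.inl (Sum.inl k)) = 0 := fun k => by
    rw [← ellL_inl_castSucc n ρ ρ' v k, hv]; rfl
  have h2 : ∀ k : Fin n, v (Sum.inl (Sum.inr k)) = 0 := fun k => by
    rw [← ellL_inr_castSucc n ρ ρ' v k, hv]; rfl
  have h3 : v (Sum.inr 0) - ρ * v (Sum.inr 1) = 0 := by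
    rw [← ellL_inl_last n ρ ρ' v, hv]; rfl
  have h4 : v (Sum.inr 0) - ρ' * v (Sum.inr 1) = 0 := by
    rw [← ellL_inr_last n ρ ρ' v, hv]; rfl
  have h5 : v (Sum.inr 1) = 0 := by
    have : (ρ' - ρ) * v (Sum.inr 1) = 0 := by linear_combination h3 - h4
    exact (mul_eq_zero.mp this).resolve_left (sub_ne_zero.mpr (Ne.symm h))
  have h6 : v (Sum.inr 0) = 0 := by
    rw [h5, mul_zero, sub_zero] at h3; exact h3
  funext i
  rcases i with (i | i) | i
  · exact h1 i
  · exact h2 i
  · fin_cases i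
    · exact h6
    · exact h5

theorem quadFormPlus_ellL (a c : K) (hs : ρ + ρ' = -a) (hp : ρ * ρ' = c)
    (v : (Fin n ⊕ Fin n) ⊕ Fin 2 → K) :
    Cfsg.quadFormPlus (n + 1) K (ellL n ρ ρ' v) = Cfsg.quadFormMinus n K a c v := by
  unfold Cfsg.quadFormPlus Cfsg.quadFormMinus
  rw [Fin.sum_univ_castSucc]
  simp only [ellL_inl_castSucc, ellL_inr_castSucc, ellL_inl_last, ellL_inr_last]
  linear_combination (-(v (Sum.inr 0) * v (Sum.inr 1))) * hs + (v (Sum.inr 1)) ^ 2 * hp

/-- the change of variables as a linear equivalence -/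
noncomputable def ellE (h : ρ ≠ ρ') :
    ((Fin n ⊕ Fin n) ⊕ Fin 2 → K) ≃ₗ[K] (Fin (n + 1) ⊕ Fin (n + 1) → K) :=
  LinearMap.linearEquivOfInjective (ellL n ρ ρ') (ellL_injective n ρ ρ' h) (by
    rw [Module.finrank_fintype_fun_eq_card, Module.finrank_fintype_fun_eq_card]
    simp only [Fintype.card_sum, Fintype.card_fin]
    omega)

theorem ellE_apply (h : ρ ≠ ρ') (v : (Fin n ⊕ Fin n) ⊕ Fin 2 → K) :
    ellE n ρ ρ' h v = ellL n ρ ρ' v :=
  LinearMap.linearEquivOfInjective_apply _ _ v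

end Embed

section Hom
variable {F K : Type*} [Field F] [Field K] {ι ι' : Type*} [Fintype ι] [DecidableEq ι]
  [Fintype ι'] [DecidableEq ι']

/-- base change followed by a change of basis, as a monoid hom on matrices -/
def embMat (j : F →+* K) (T : Matrix ι' ι K) (T' : Matrix ι ι' K) (h1 : T' * T = 1)
    (h2 : T * T' = 1) : Matrix ι ι F →* Matrix ι' ι' K where
  toFun A := T * A.map j * T'
  map_one' := by
    rw [Matrix.map_one _ (map_zero j) (map_one j), Matrix.mul_one, h2]
  map_mul' A B := by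
    rw [Matrix.map_mul]
    calc T * (A.map j * B.map j) * T' = T * A.map j * (1 : Matrix ι ι K) * (B.map j * T') := by
          simp only [Matrix.mul_one, Matrix.mul_assoc]
      _ = T * A.map j * T' * (T * B.map j * T') := by
          rw [← h1]; simp only [Matrix.mul_assoc]

theorem embMat_injective (j : F →+* K) (T : Matrix ι' ι K) (T' : Matrix ι ι' K)
    (h1 : T' * T = 1) (h2 : T * T' = 1) : Function.Injective (embMat j T T' h1 h2) := by
  intro A B hAB
  have h : T * A.map j * T' = T * B.map j * T' := hAB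
  have h3 : A.map j = B.map j := by
    calc A.map j = (T' * T) * A.map j * (T' * T) := by rw [h1, Matrix.one_mul, Matrix.mul_one]
      _ = T' * (T * A.map j * T') * T := by simp only [Matrix.mul_assoc]
      _ = T' * (T * B.map j * T') * T := by rw [h]
      _ = (T' * T) * B.map j * (T' * T) := by simp only [Matrix.mul_assoc]
      _ = B.map j := by rw [h1, Matrix.one_mul, Matrix.mul_one]
  exact Matrix.map_injective j.injective h3

end Hom

theorem elliptic_embed {F K : Type*} [Field F] [Fintype F] [Field K] [Fintype K] {q : ℕ}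
    (hF : Fintype.card F = q) (hK : Fintype.card K = q ^ 2) (n : ℕ) (a c : F)
    (hac : ∀ z₁ z₂ : F, z₁ ^ 2 + a * z₁ * z₂ + c * z₂ ^ 2 = 0 → z₁ = 0 ∧ z₂ = 0) :
    ∃ φ : ↥(Cfsg.isometryGroup F (Cfsg.quadFormMinus n F a c)) →*
      ↥(Cfsg.isometryGroup K (Cfsg.quadFormPlus (n + 1) K)), Function.Injective φ := by
  classical
  obtain ⟨j, ρ, ρ', hs, hp, hne⟩ := exists_quadratic_ext hF hK a c hac
  let E := ellE n ρ ρ' hne
  let T : Matrix (Fin (n + 1) ⊕ Fin (n + 1)) ((Fin n ⊕ Fin n) ⊕ Fin 2) K :=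
    LinearMap.toMatrix' (E : _ →ₗ[K] _)
  let T' : Matrix ((Fin n ⊕ Fin n) ⊕ Fin 2) (Fin (n + 1) ⊕ Fin (n + 1)) K :=
    LinearMap.toMatrix' (E.symm : _ →ₗ[K] _)
  have h1 : T' * T = 1 := by
    rw [← LinearMap.toMatrix'_comp, LinearEquiv.symm_comp, LinearMap.toMatrix'_id]
  have h2 : T * T' = 1 := by
    rw [← LinearMap.toMatrix'_comp, LinearEquiv.comp_symm, LinearMap.toMatrix'_id]
  have hT : ∀ w, T.mulVec w = ellL n ρ ρ' w := by
    intro w
    rw [LinearMap.toMatrix'_mulVec]
    exact ellE_apply n ρ ρ' hne w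
  have hT' : ∀ u, T.mulVec (T'.mulVec u) = u := by
    intro u
    rw [Matrix.mulVec_mulVec, h2, Matrix.one_mulVec]
  let μ := embMat j T T' h1 h2
  let φ₀ : Matrix.GeneralLinearGroup ((Fin n ⊕ Fin n) ⊕ Fin 2) F →*
      Matrix.GeneralLinearGroup (Fin (n + 1) ⊕ Fin (n + 1)) K := Units.map μ
  have hφ₀ : Function.Injective φ₀ := Units.map_injective (embMat_injective j T T' h1 h2)
  have hmem : ∀ g : ↥(Cfsg.isometryGroup F (Cfsg.quadFormMinus n F a c)),
      φ₀ (g : Matrix.GeneralLinearGroup ((Fin n ⊕ Fin n) ⊕ Fin 2) F)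
        ∈ Cfsg.isometryGroup K (Cfsg.quadFormPlus (n + 1) K) := by
    rintro ⟨g, hg⟩
    intro u _
    show Cfsg.quadFormPlus (n + 1) K ((T * (Units.val g).map j * T').mulVec u)
      = Cfsg.quadFormPlus (n + 1) K u
    have hg' : ∀ v, qf (minusMat n F a c) ((Units.val g).mulVec v)
        = qf (minusMat n F a c) v := by
      intro v
      rw [← quadFormMinus_eq_qf, ← quadFormMinus_eq_qf]
      exact hg v v
    have key := qf_map_invariant j (minusMat n F a c) (Units.val g) hg' (T'.mulVec u)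
    rw [minusMat_map, ← quadFormMinus_eq_qf, ← quadFormMinus_eq_qf] at key
    rw [← Matrix.mulVec_mulVec, ← Matrix.mulVec_mulVec, hT,
      quadFormPlus_ellL n ρ ρ' (j a) (j c) hs hp, key, ← quadFormPlus_ellL n ρ ρ' (j a) (j c) hs hp,
      ← hT, hT']
  refine ⟨(φ₀.comp (Subgroup.subtype _)).codRestrict _ hmem, ?_⟩
  intro x y hxy
  have h3 : φ₀ (x : Matrix.GeneralLinearGroup ((Fin n ⊕ Fin n) ⊕ Fin 2) F)
      = φ₀ (y : Matrix.GeneralLinearGroup ((Fin n ⊕ Fin n) ⊕ Fin 2) F) :=
    congrArg Subtype.val hxy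
  exact Subtype.ext (hφ₀ h3)

end Cfsg.Agent.Lib.Helper17
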