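import Mathlib

set_option autoImplicit false

namespace Cfsg.Agent.Lib.Helper17

section FixedField
variable {F : Type*} [Field F]

theorem mem_fixed_zpowers (σ : F ≃+* F) (x : F) (hx : σ x = x) (g : ↥(Subgroup.zpowers σ)) :
    g • x = x := by
  have h : Subgroup.zpowers σ ≤ MulAction.stabilizer (F ≃+* F) x := by
    rw [Subgroup.zpowers_le]
    exact MulAction.mem_stabilizer_iff.mpr hx
  exact MulAction.mem_stabilizer_iff.mp (h g.2)

theorem mem_fixed_subfield_iff (σ : F ≃+* F) (x : F) :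
    x ∈ FixedPoints.subfield ↥(Subgroup.zpowers σ) F ↔ σ x = x :=
  ⟨fun hx => hx ⟨σ, Subgroup.mem_zpowers σ⟩, fun hx g => mem_fixed_zpowers σ x hx g⟩

variable [Fintype F]

theorem card_fixed_subfield (σ : F ≃+* F) {q₀ r : ℕ} (hr : r ≠ 0) (hσ : orderOf σ = r)
    (hF : Fintype.card F = q₀ ^ r) :
    Nat.card ↥(FixedPoints.subfield ↥(Subgroup.zpowers σ) F) = q₀ := by
  classical
  have : Finite (F ≃+* F) := DFunLike.finite _
  have : Fintype ↥(Subgroup.zpowers σ) := Fintype.ofFinite _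
  have h1 := FixedPoints.finrank_eq_card ↥(Subgroup.zpowers σ) F
  rw [← Nat.card_eq_fintype_card, Nat.card_zpowers, hσ] at h1
  have : Fintype ↥(FixedPoints.subfield ↥(Subgroup.zpowers σ) F) := Fintype.ofFinite _
  have h2 := Module.card_eq_pow_finrank (K := ↥(FixedPoints.subfield ↥(Subgroup.zpowers σ) F))
    (V := F)
  rw [h1, hF] at h2
  rw [Nat.card_eq_fintype_card]
  exact (Nat.pow_left_injective hr h2).symm

theorem card_fixed_GL_aux (σ : F ≃+* F) (K₀ : Subfield F) (hK : ∀ x : F, x ∈ K₀ ↔ σ x = x)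
    {n : ℕ} (hn : 1 ≤ n) :
    (Nat.card ↥K₀ - 1) * Nat.card {g : GL (Fin n) F // ∃ c : F, c ≠ 0 ∧
        (g : Matrix (Fin n) (Fin n) F).map σ = c • (g : Matrix (Fin n) (Fin n) F)}
      = (Fintype.card F - 1) * ∏ i : Fin n, (Nat.card ↥K₀ ^ n - Nat.card ↥K₀ ^ (i : ℕ)) := by
  classical
  have hfix : ∀ x : ↥K₀, σ (x : F) = x := fun x => (hK _).mp x.2
  have : Fintype ↥K₀ := Fintype.ofFinite _
  let ι : GL (Fin n) ↥K₀ →* GL (Fin n) F := Matrix.GeneralLinearGroup.map (algebraMap ↥K₀ F)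
  let Z : Fˣ →* GL (Fin n) F := Matrix.GeneralLinearGroup.scalar (Fin n)
  let Φ : Fˣ × GL (Fin n) ↥K₀ →* GL (Fin n) F :=
    Z.noncommCoprod ι (fun d h => Matrix.GeneralLinearGroup.scalar_commute d (ι h))
  have hΦm : ∀ (d : Fˣ) (h : GL (Fin n) ↥K₀) (i j : Fin n),
      ((Φ (d, h) : GL (Fin n) F) : Matrix (Fin n) (Fin n) F) i j
        = (d : F) * (((h : Matrix (Fin n) (Fin n) ↥K₀) i j : ↥K₀) : F) := by
    intro d h i j
    show ((Z d * ι h : GL (Fin n) F) : Matrix (Fin n) (Fin n) F) i j = _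
    rw [Units.val_mul]
    show ((Matrix.scalar (Fin n) (d : F) * ((ι h : GL (Fin n) F) : Matrix (Fin n) (Fin n) F) :
      Matrix (Fin n) (Fin n) F)) i j = _
    rw [Matrix.scalar_apply, Matrix.diagonal_mul]
    rfl
  have hi0 : Nonempty (Fin n) := ⟨⟨0, hn⟩⟩
  have hrange : ∀ g : GL (Fin n) F, g ∈ Φ.range ↔ ∃ c : F, c ≠ 0 ∧
      (g : Matrix (Fin n) (Fin n) F).map σ = c • (g : Matrix (Fin n) (Fin n) F) := by
    intro g
    constructor
    · rintro ⟨⟨d, h⟩, rfl⟩
      refine ⟨σ d / d, div_ne_zero (by simp) d.ne_zero, ?_⟩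
      ext i j
      rw [Matrix.map_apply, Matrix.smul_apply, hΦm, map_mul, hfix, smul_eq_mul]
      have := d.ne_zero
      field_simp
    · rintro ⟨c, hc, hg⟩
      have hex : ∃ i j, (g : Matrix (Fin n) (Fin n) F) i j ≠ 0 := by
        by_contra hcon
        push Not at hcon
        have h0 : (g : Matrix (Fin n) (Fin n) F) = 0 := by
          ext i j
          exact hcon i j
        have h1 := Matrix.GeneralLinearGroup.det_ne_zero g
        have hz : (0 : Matrix (Fin n) (Fin n) F).det = 0 := by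
          exact Matrix.det_zero
        rw [h0] at h1
        exact h1 hz
      obtain ⟨i, j, hij⟩ := hex
      have hent : ∀ a b, σ ((g : Matrix (Fin n) (Fin n) F) a b)
          = c * (g : Matrix (Fin n) (Fin n) F) a b := by
        intro a b
        have := congrFun (congrFun hg a) b
        rwa [Matrix.map_apply, Matrix.smul_apply, smul_eq_mul] at this
      obtain ⟨d, hd⟩ : ∃ d : F, d = (g : Matrix (Fin n) (Fin n) F) i j := ⟨_, rfl⟩
      have hd0 : d ≠ 0 := by rw [hd]; exact hij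
      have hσd : σ d = c * d := by rw [hd]; exact hent i j
      let h₁ : Matrix (Fin n) (Fin n) ↥K₀ :=
        fun a b => ⟨d⁻¹ * (g : Matrix (Fin n) (Fin n) F) a b, (hK _).mpr (by
          rw [map_mul, map_inv₀, hσd, hent]
          field_simp)⟩
      have hh₁ : h₁.map (algebraMap ↥K₀ F) = d⁻¹ • (g : Matrix (Fin n) (Fin n) F) := by
        ext a b
        rfl
      have hdet : h₁.det ≠ 0 := by
        intro h0
        have h2 : (h₁.map (algebraMap ↥K₀ F)).det = algebraMap ↥K₀ F h₁.det :=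
          (RingHom.map_det _ _).symm
        rw [h0, map_zero, hh₁, Matrix.det_smul] at h2
        have h3 := Matrix.GeneralLinearGroup.det_ne_zero g
        exact mul_ne_zero (pow_ne_zero _ (inv_ne_zero hd0)) h3 h2
      refine ⟨(Units.mk0 d hd0, Matrix.GeneralLinearGroup.mkOfDetNeZero h₁ hdet), ?_⟩
      apply Units.ext
      ext a b
      rw [hΦm]
      show d * (d⁻¹ * (g : Matrix (Fin n) (Fin n) F) a b) = _
      rw [← mul_assoc, mul_inv_cancel₀ hd0, one_mul]
  have hcard : Nat.card {g : GL (Fin n) F // ∃ c : F, c ≠ 0 ∧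
        (g : Matrix (Fin n) (Fin n) F).map σ = c • (g : Matrix (Fin n) (Fin n) F)}
      = Nat.card Φ.range :=
    Nat.card_congr (Equiv.subtypeEquivRight (fun g => (hrange g).symm))
  -- the kernel
  let κ : (↥K₀)ˣ →* Fˣ × GL (Fin n) ↥K₀ :=
    (Units.map (algebraMap ↥K₀ F).toMonoidHom).prod
      ((Matrix.GeneralLinearGroup.scalar (Fin n)).comp invMonoidHom)
  have hκ1 : ∀ u : (↥K₀)ˣ, ((κ u).1 : F) = ((u : ↥K₀) : F) := fun u => rfl
  have hκ2 : ∀ (u : (↥K₀)ˣ) (a b : Fin n), ((κ u).2 : Matrix (Fin n) (Fin n) ↥K₀) a b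
      = if a = b then ((u⁻¹ : (↥K₀)ˣ) : ↥K₀) else 0 := by
    intro u a b
    show (Matrix.scalar (Fin n) _) a b = _
    rw [Matrix.scalar_apply, Matrix.diagonal_apply]
    rfl
  have hκinj : Function.Injective κ := by
    intro u v huv
    have h1 : ((κ u).1 : F) = ((κ v).1 : F) := by rw [huv]
    rw [hκ1, hκ1] at h1
    exact Units.ext (Subtype.ext h1)
  have hker : Φ.ker = κ.range := by
    ext x
    rw [MonoidHom.mem_ker]
    constructor
    · intro hx
      obtain ⟨d, h⟩ := x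
      obtain ⟨i₀⟩ := hi0
      have h1 : ∀ a b, (d : F) * (((h : Matrix (Fin n) (Fin n) ↥K₀) a b : ↥K₀) : F)
          = if a = b then 1 else 0 := by
        intro a b
        rw [← hΦm, hx, Units.val_one, Matrix.one_apply]
      have h00 := h1 i₀ i₀
      rw [if_pos rfl] at h00
      have hu0 : (h : Matrix (Fin n) (Fin n) ↥K₀) i₀ i₀ ≠ 0 := by
        intro h0
        rw [h0] at h00
        simp at h00
      refine ⟨(Units.mk0 _ hu0)⁻¹, ?_⟩
      apply Prod.ext
      · apply Units.ext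
        rw [hκ1]
        show ((((Units.mk0 _ hu0)⁻¹ : (↥K₀)ˣ) : ↥K₀) : F) = (d : F)
        rw [Units.val_inv_eq_inv_val, Units.val_mk0]
        show ((((h : Matrix (Fin n) (Fin n) ↥K₀) i₀ i₀ : ↥K₀) : F))⁻¹ = (d : F)
        exact (eq_inv_of_mul_eq_one_left h00).symm
      · apply Units.ext
        ext a b
        rw [hκ2, inv_inv, Units.val_mk0]
        have hab := h1 a b
        by_cases hab' : a = b
        · rw [if_pos hab'] at hab ⊢
          subst hab'
          have e1 : (((h : Matrix (Fin n) (Fin n) ↥K₀) i₀ i₀ : ↥K₀) : F) = (d : F)⁻¹ :=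
            eq_inv_of_mul_eq_one_right h00
          have e2 : (((h : Matrix (Fin n) (Fin n) ↥K₀) a a : ↥K₀) : F) = (d : F)⁻¹ :=
            eq_inv_of_mul_eq_one_right hab
          exact e1.trans e2.symm
        · rw [if_neg hab'] at hab ⊢
          rcases mul_eq_zero.mp hab with h | h
          · exact absurd h d.ne_zero
          · exact (ZeroMemClass.coe_zero K₀).trans h.symm
    · rintro ⟨u, rfl⟩
      apply Units.ext
      ext a b
      rw [hΦm, hκ1, hκ2, Units.val_one, Matrix.one_apply]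
      by_cases hab' : a = b
      · rw [if_pos hab', if_pos hab']
        have : (u : ↥K₀) * ((u⁻¹ : (↥K₀)ˣ) : ↥K₀) = 1 := u.mul_inv
        exact congrArg Subtype.val this
      · rw [if_neg hab', if_neg hab']
        show (u : F) * (0 : F) = 0
        rw [mul_zero]
  have hkercard : Nat.card Φ.ker = Nat.card ↥K₀ - 1 := by
    rw [hker, ← Nat.card_units]
    exact Nat.card_congr (Equiv.ofInjective κ hκinj).symm
  have h1 : Nat.card Φ.ker * Nat.card Φ.range = Nat.card (Fˣ × GL (Fin n) ↥K₀) := by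
    rw [← Subgroup.index_ker, Subgroup.card_mul_index]
  rw [hkercard, Nat.card_prod, Nat.card_units, Matrix.card_GL_field] at h1
  rw [hcard, h1]
  simp only [Nat.card_eq_fintype_card]

theorem card_fieldAut_fixed_GL (σ : F ≃+* F) {q₀ r n : ℕ} (hr : r ≠ 0) (hn : 1 ≤ n)
    (hF : Fintype.card F = q₀ ^ r) (hσ : orderOf σ = r) :
    Nat.card {g : GL (Fin n) F // ∃ c : F, c ≠ 0 ∧
        (g : Matrix (Fin n) (Fin n) F).map σ = c • (g : Matrix (Fin n) (Fin n) F)}
      = (q₀ ^ r - 1) / (q₀ - 1) * ∏ i : Fin n, (q₀ ^ n - q₀ ^ (i : ℕ)) := by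
  have h1 := card_fixed_GL_aux σ (FixedPoints.subfield ↥(Subgroup.zpowers σ) F)
    (mem_fixed_subfield_iff σ) hn
  rw [card_fixed_subfield σ hr hσ hF, hF] at h1
  have hq2 : 2 ≤ q₀ := by
    by_contra hlt
    have hle : q₀ ≤ 1 := by omega
    have h2 : q₀ ^ r ≤ 1 := Nat.pow_le_one_iff hr |>.mpr hle
    have h3 : 1 < Fintype.card F := Fintype.one_lt_card
    omega
  have hpos : 0 < q₀ - 1 := by omega
  obtain ⟨t, ht⟩ : (q₀ - 1) ∣ (q₀ ^ r - 1) := by
    simpa only [one_pow] using Nat.sub_dvd_pow_sub_pow q₀ 1 r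
  rw [ht, Nat.mul_div_cancel_left t hpos]
  rw [ht, mul_assoc] at h1
  exact Nat.eq_of_mul_eq_mul_left hpos h1

end FixedField

end Cfsg.Agent.Lib.Helper17
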