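import Mathlib
import Cfsg.Prelude.Def_LieClassical
import Cfsg.Agent.Lib.Helper17.FieldAutGL
import Cfsg.Agent.S0278

set_option autoImplicit false

namespace Cfsg.Agent.Lib.Helper17

open Cfsg Matrix

section GUcrit
variable {K : Type*} [Field K]

theorem herm_eq_dot (φ : K →+* K) {q : ℕ} (hφ : ∀ a, φ a = a ^ q) (n : ℕ) (x y : Fin n → K) :
    Cfsg.hermForm n K q x y = x ⬝ᵥ (φ ∘ y) := by
  unfold Cfsg.hermForm dotProduct
  apply Finset.sum_congr rfl
  intro i _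
  rw [Function.comp_apply, hφ]

theorem herm_mulVec (φ : K →+* K) {q : ℕ} (hφ : ∀ a, φ a = a ^ q) (n : ℕ)
    (M : Matrix (Fin n) (Fin n) K) (u v : Fin n → K) :
    Cfsg.hermForm n K q (M *ᵥ u) (M *ᵥ v) = u ⬝ᵥ ((Mᵀ * M.map φ) *ᵥ (φ ∘ v)) := by
  rw [herm_eq_dot φ hφ]
  have h1 : φ ∘ (M *ᵥ v) = M.map φ *ᵥ (φ ∘ v) := by
    funext i
    exact RingHom.map_mulVec φ M v i
  rw [h1, ← Matrix.mulVec_mulVec, Matrix.dotProduct_mulVec u Mᵀ, Matrix.vecMul_transpose]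

theorem mem_GU_iff_mat (φ : K →+* K) {q : ℕ} (hφ : ∀ a, φ a = a ^ q) (n : ℕ)
    (A : GL (Fin n) K) :
    A ∈ Cfsg.GU n K q ↔
      (A : Matrix (Fin n) (Fin n) K)ᵀ * (A : Matrix (Fin n) (Fin n) K).map φ = 1 := by
  constructor
  · intro hA
    have hA' : ∀ u v : Fin n → K,
        Cfsg.hermForm n K q ((A : Matrix (Fin n) (Fin n) K) *ᵥ u)
          ((A : Matrix (Fin n) (Fin n) K) *ᵥ v) = Cfsg.hermForm n K q u v := hA
    ext i j
    have h := hA' (Pi.single i 1) (Pi.single j 1)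
    rw [herm_mulVec φ hφ, herm_eq_dot φ hφ] at h
    have h2 : φ ∘ (Pi.single j (1 : K) : Fin n → K) = Pi.single j 1 := by
      funext k
      by_cases hk : k = j
      · subst hk
        simp
      · simp [Pi.single_eq_of_ne hk]
    rw [h2, Matrix.mulVec_single_one, single_one_dotProduct,
      single_one_dotProduct] at h
    rw [Matrix.one_apply]
    rw [Pi.single_apply] at h
    exact h
  · intro h u v
    show Cfsg.hermForm n K q ((A : Matrix (Fin n) (Fin n) K) *ᵥ u)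
      ((A : Matrix (Fin n) (Fin n) K) *ᵥ v) = Cfsg.hermForm n K q u v
    rw [herm_mulVec φ hφ, h, Matrix.one_mulVec, herm_eq_dot φ hφ]

theorem smul_unitary_expr (φ : K →+* K) (n : ℕ) (d : K) (M : Matrix (Fin n) (Fin n) K) :
    (d • M)ᵀ * (d • M).map φ = (d * φ d) • (Mᵀ * M.map φ) := by
  have hm : (d • M).map φ = φ d • M.map φ := by
    ext i j
    simp [Matrix.map_apply, Matrix.smul_apply, map_mul]
  rw [hm, Matrix.transpose_smul, Matrix.smul_mul, Matrix.mul_smul, smul_smul]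

theorem scalar_mem_GU (φ : K →+* K) {q : ℕ} (hφ : ∀ a, φ a = a ^ q) (n : ℕ) (d : Kˣ)
    (hd : (d : K) ^ (q + 1) = 1) :
    Matrix.GeneralLinearGroup.scalar (Fin n) d ∈ Cfsg.GU n K q := by
  rw [mem_GU_iff_mat φ hφ, Matrix.GeneralLinearGroup.coe_scalar, Matrix.scalar_apply,
    ← Matrix.smul_one_eq_diagonal, smul_unitary_expr, Matrix.transpose_one,
    Matrix.map_one φ (map_zero φ) (map_one φ), Matrix.mul_one, hφ, ← pow_succ', hd, one_smul]

theorem exists_frob (K : Type*) [Field K] [Fintype K] {q : ℕ} (hK : Fintype.card K = q ^ 2) :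
    ∃ φ : K →+* K, ∀ a, φ a = a ^ q := by
  obtain ⟨p, hp⟩ := CharP.exists K
  obtain ⟨e, hpp, hcard⟩ := FiniteField.card K p
  have hdvd : q ∣ p ^ (e : ℕ) := ⟨q, by rw [← hcard, hK, sq]⟩
  obtain ⟨m, -, rfl⟩ := (Nat.dvd_prime_pow hpp).mp hdvd
  have := Fact.mk hpp
  exact ⟨iterateFrobenius K p m, fun a => iterateFrobenius_def p m a⟩

end GUcrit

section Main
variable {K : Type*} [Field K] [Fintype K]

omit [Fintype K] in
theorem subfield_unitary_expr (K₀ : Subfield K) (φ : K →+* K) (φ₀ : ↥K₀ →+* ↥K₀)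
    (hc : ∀ x : ↥K₀, φ (x : K) = ((φ₀ x : ↥K₀) : K)) (n : ℕ) (H : Matrix (Fin n) (Fin n) ↥K₀) :
    (H.map (algebraMap ↥K₀ K))ᵀ * (H.map (algebraMap ↥K₀ K)).map φ
      = (Hᵀ * H.map φ₀).map (algebraMap ↥K₀ K) := by
  have h1 : (H.map (algebraMap ↥K₀ K)).map φ = (H.map φ₀).map (algebraMap ↥K₀ K) := by
    ext i j
    exact hc (H i j)
  rw [h1, Matrix.map_mul, Matrix.transpose_map]

set_option maxHeartbeats 2000000 in
theorem card_fixed_GU_aux (σ : K ≃+* K) (K₀ : Subfield K) (hK₀ : ∀ x : K, x ∈ K₀ ↔ σ x = x)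
    {q q₀ n : ℕ} (hn : 1 ≤ n) (hK : Fintype.card K = q ^ 2) [Fintype ↥K₀]
    (hK₀c : Fintype.card ↥K₀ = q₀ ^ 2) (hcompat : ∀ x : ↥K₀, (x : K) ^ q = (x : K) ^ q₀) :
    (q₀ + 1) * Nat.card {g : ↥(Cfsg.GU n K q) // ∃ c : K, c ≠ 0 ∧
        ((g : GL (Fin n) K) : Matrix (Fin n) (Fin n) K).map σ
          = c • ((g : GL (Fin n) K) : Matrix (Fin n) (Fin n) K)}
      = (q + 1) * Nat.card ↥(Cfsg.GU n ↥K₀ q₀) := by
  classical
  obtain ⟨φ, hφ⟩ := exists_frob K hK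
  obtain ⟨φ₀, hφ₀⟩ := exists_frob ↥K₀ hK₀c
  have hfix : ∀ x : ↥K₀, σ (x : K) = x := fun x => (hK₀ _).mp x.2
  have hσφ : ∀ a, σ (φ a) = φ (σ a) := by
    intro a
    rw [hφ, hφ, map_pow]
  have hφc : ∀ x : ↥K₀, φ (x : K) = ((φ₀ x : ↥K₀) : K) := by
    intro x
    rw [hφ, hφ₀, hcompat]
    rfl
  have hφφ : ∀ a : K, φ (φ a) = a := by
    intro a
    rw [hφ, hφ, ← pow_mul, ← sq, ← hK, FiniteField.pow_card]
  have hi0 : Nonempty (Fin n) := ⟨⟨0, hn⟩⟩
  -- norm one scalars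
  let U : Subgroup Kˣ := (powMonoidHom (q + 1) : Kˣ →* Kˣ).ker
  have hU : ∀ d : Kˣ, d ∈ U ↔ (d : K) ^ (q + 1) = 1 := by
    intro d
    show (powMonoidHom (q + 1) : Kˣ →* Kˣ) d = 1 ↔ _
    rw [powMonoidHom_apply, Units.ext_iff, Units.val_pow_eq_pow_val, Units.val_one]
  let U₀ : Subgroup (↥K₀)ˣ := (powMonoidHom (q₀ + 1) : (↥K₀)ˣ →* (↥K₀)ˣ).ker
  have hU₀ : ∀ d : (↥K₀)ˣ, d ∈ U₀ ↔ (d : ↥K₀) ^ (q₀ + 1) = 1 := by
    intro d
    show (powMonoidHom (q₀ + 1) : (↥K₀)ˣ →* (↥K₀)ˣ) d = 1 ↔ _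
    rw [powMonoidHom_apply, Units.ext_iff, Units.val_pow_eq_pow_val, Units.val_one]
  have hUcard : Nat.card ↥U = q + 1 := by
    rw [← Cfsg.Agent.S0278.card_norm_one hK]
    apply Nat.card_congr
    apply Equiv.subtypeEquivRight
    intro d
    show (powMonoidHom (q + 1) : Kˣ →* Kˣ) d = 1 ↔ _
    rw [powMonoidHom_apply]
  have hU₀card : Nat.card ↥U₀ = q₀ + 1 := by
    rw [← Cfsg.Agent.S0278.card_norm_one hK₀c]
    apply Nat.card_congr
    apply Equiv.subtypeEquivRight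
    intro d
    show (powMonoidHom (q₀ + 1) : (↥K₀)ˣ →* (↥K₀)ˣ) d = 1 ↔ _
    rw [powMonoidHom_apply]
  -- the two homs
  let Zu : ↥U →* ↥(Cfsg.GU n K q) :=
    ((Matrix.GeneralLinearGroup.scalar (Fin n)).comp U.subtype).codRestrict (Cfsg.GU n K q)
      (fun d => scalar_mem_GU φ hφ n d ((hU d).mp d.2))
  have hιmem : ∀ h : ↥(Cfsg.GU n ↥K₀ q₀),
      Matrix.GeneralLinearGroup.map (algebraMap ↥K₀ K) (h : GL (Fin n) ↥K₀) ∈ Cfsg.GU n K q := by
    intro h
    rw [mem_GU_iff_mat φ hφ]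
    show (((h : GL (Fin n) ↥K₀) : Matrix (Fin n) (Fin n) ↥K₀).map (algebraMap ↥K₀ K))ᵀ
      * (((h : GL (Fin n) ↥K₀) : Matrix (Fin n) (Fin n) ↥K₀).map (algebraMap ↥K₀ K)).map φ = 1
    rw [subfield_unitary_expr K₀ φ φ₀ hφc, (mem_GU_iff_mat φ₀ hφ₀ n _).mp h.2,
      Matrix.map_one _ (map_zero _) (map_one _)]
  let ιu : ↥(Cfsg.GU n ↥K₀ q₀) →* ↥(Cfsg.GU n K q) :=
    ((Matrix.GeneralLinearGroup.map (algebraMap ↥K₀ K)).comp
      (Cfsg.GU n ↥K₀ q₀).subtype).codRestrict (Cfsg.GU n K q) hιmem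
  let Φ : ↥U × ↥(Cfsg.GU n ↥K₀ q₀) →* ↥(Cfsg.GU n K q) :=
    Zu.noncommCoprod ιu (fun d h => Subtype.ext
      (Matrix.GeneralLinearGroup.scalar_commute (d : Kˣ) _))
  have hΦm : ∀ (d : ↥U) (h : ↥(Cfsg.GU n ↥K₀ q₀)) (i j : Fin n),
      (((Φ (d, h) : ↥(Cfsg.GU n K q)) : GL (Fin n) K) : Matrix (Fin n) (Fin n) K) i j
        = ((d : Kˣ) : K) * ((((h : GL (Fin n) ↥K₀) : Matrix (Fin n) (Fin n) ↥K₀) i j : ↥K₀) : K) := by
    intro d h i j
    show ((Matrix.scalar (Fin n) ((d : Kˣ) : K)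
      * (((h : GL (Fin n) ↥K₀) : Matrix (Fin n) (Fin n) ↥K₀).map (algebraMap ↥K₀ K)) :
      Matrix (Fin n) (Fin n) K)) i j = _
    rw [Matrix.scalar_apply, Matrix.diagonal_mul]
    rfl
  have hrange : ∀ g : ↥(Cfsg.GU n K q), g ∈ Φ.range ↔ ∃ c : K, c ≠ 0 ∧
      ((g : GL (Fin n) K) : Matrix (Fin n) (Fin n) K).map σ
        = c • ((g : GL (Fin n) K) : Matrix (Fin n) (Fin n) K) := by
    intro g
    constructor
    · rintro ⟨⟨d, h⟩, rfl⟩
      refine ⟨σ ((d : Kˣ) : K) / ((d : Kˣ) : K), div_ne_zero (by simp) (d : Kˣ).ne_zero, ?_⟩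
      ext i j
      rw [Matrix.map_apply, Matrix.smul_apply, hΦm, map_mul, hfix, smul_eq_mul]
      have := (d : Kˣ).ne_zero
      field_simp
    · rintro ⟨c, hc, hg⟩
      obtain ⟨G, hG⟩ : ∃ G : Matrix (Fin n) (Fin n) K,
          G = ((g : GL (Fin n) K) : Matrix (Fin n) (Fin n) K) := ⟨_, rfl⟩
      have hgU : Gᵀ * G.map φ = 1 := by
        rw [hG]
        exact (mem_GU_iff_mat φ hφ n _).mp g.2
      have hGdet : G.det ≠ 0 := by
        rw [hG]
        exact Matrix.GeneralLinearGroup.det_ne_zero _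
      rw [← hG] at hg
      have hex : ∃ i j, G i j ≠ 0 := by
        by_contra hcon
        push Not at hcon
        have h0 : G = 0 := by
          ext i j
          exact hcon i j
        rw [h0] at hGdet
        exact hGdet Matrix.det_zero
      obtain ⟨i, j, hij⟩ := hex
      have hent : ∀ a b, σ (G a b) = c * G a b := by
        intro a b
        have := congrFun (congrFun hg a) b
        rwa [Matrix.map_apply, Matrix.smul_apply, smul_eq_mul] at this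
      -- c has norm one
      obtain ⟨i₀⟩ := hi0
      have hsum : ∑ k, G k i₀ * φ (G k i₀) = 1 := by
        have := congrFun (congrFun hgU i₀) i₀
        rw [Matrix.mul_apply, Matrix.one_apply, if_pos rfl] at this
        exact this
      have hcn : c * φ c = 1 := by
        have hsum' := congrArg σ hsum
        rw [map_sum, map_one] at hsum'
        have hk : ∀ k, σ (G k i₀ * φ (G k i₀)) = (c * φ c) * (G k i₀ * φ (G k i₀)) := by
          intro k
          rw [map_mul, hσφ, hent, map_mul]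
          ring
        rw [Finset.sum_congr rfl (fun k _ => hk k), ← Finset.mul_sum, hsum, mul_one] at hsum'
        exact hsum'
      obtain ⟨e, he⟩ : ∃ e : K, e = G i j := ⟨_, rfl⟩
      have he0 : e ≠ 0 := by rw [he]; exact hij
      have hσe : σ e = c * e := by rw [he]; exact hent i j
      have hφe0 : φ e ≠ 0 := by
        rw [hφ]
        exact pow_ne_zero _ he0
      have hσw : σ (e * φ e) = e * φ e := by
        rw [map_mul, hσφ, hσe, map_mul]
        linear_combination (e * φ e) * hcn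
      have hw0 : e * φ e ≠ 0 := mul_ne_zero he0 hφe0
      have hφw : φ (e * φ e) = e * φ e := by
        rw [map_mul, hφφ, mul_comm]
      obtain ⟨w₀, hw₀⟩ : ∃ w₀ : ↥K₀, (w₀ : K) = e * φ e := ⟨⟨e * φ e, (hK₀ _).mpr hσw⟩, rfl⟩
      have hw₀ne : w₀ ≠ 0 := by
        intro h0
        rw [h0] at hw₀
        exact hw0 hw₀.symm
      have hw₀q : w₀ ^ q₀ = w₀ := by
        apply Subtype.ext
        show (w₀ : K) ^ q₀ = (w₀ : K)
        rw [← hcompat, ← hφ, hw₀, hφw]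
      have hne : Nonempty {x : ↥K₀ // x ^ (q₀ + 1) = w₀} := by
        have h1 := Cfsg.Agent.S0754.result hK₀c w₀ hw₀ne hw₀q
        exact (Nat.card_pos_iff.mp (by rw [h1]; omega)).1
      obtain ⟨f₀, hf₀⟩ := hne
      obtain ⟨f, hf⟩ : ∃ f : K, f = (f₀ : K) := ⟨_, rfl⟩
      have hσf : σ f = f := by rw [hf]; exact hfix f₀
      have hfφ : f * φ f = e * φ e := by
        rw [hφ, hf, hcompat, ← pow_succ', ← hw₀, ← hf₀]
        rfl
      have hf0 : f ≠ 0 := by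
        intro h0
        rw [h0, zero_mul] at hfφ
        exact hw0 hfφ.symm
      have hφf0 : φ f ≠ 0 := by
        rw [hφ]
        exact pow_ne_zero _ hf0
      obtain ⟨d, hd⟩ : ∃ d : K, d = e / f := ⟨_, rfl⟩
      have hd0 : d ≠ 0 := by rw [hd]; exact div_ne_zero he0 hf0
      have hσd : σ d = c * d := by
        rw [hd, map_div₀, hσe, hσf, mul_div_assoc]
      have hdn : d * φ d = 1 := by
        rw [hd, map_div₀, div_mul_div_comm, hfφ, div_self hw0]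
      have hdU : Units.mk0 d hd0 ∈ U := by
        rw [hU, Units.val_mk0, pow_succ', ← hφ]
        exact hdn
      let h₁ : Matrix (Fin n) (Fin n) ↥K₀ :=
        fun a b => ⟨d⁻¹ * G a b, (hK₀ _).mpr (by
          rw [map_mul, map_inv₀, hσd, hent]
          field_simp)⟩
      have hh₁ : h₁.map (algebraMap ↥K₀ K) = d⁻¹ • G := by
        ext a b
        rfl
      have hdet : h₁.det ≠ 0 := by
        intro h0
        have h2 : (h₁.map (algebraMap ↥K₀ K)).det = algebraMap ↥K₀ K h₁.det :=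
          (RingHom.map_det _ _).symm
        rw [h0, map_zero, hh₁, Matrix.det_smul] at h2
        exact mul_ne_zero (pow_ne_zero _ (inv_ne_zero hd0)) hGdet h2
      have hh₁U : Matrix.GeneralLinearGroup.mkOfDetNeZero h₁ hdet ∈ Cfsg.GU n ↥K₀ q₀ := by
        rw [mem_GU_iff_mat φ₀ hφ₀]
        show h₁ᵀ * h₁.map φ₀ = 1
        apply Matrix.map_injective (algebraMap ↥K₀ K).injective
        show (h₁ᵀ * h₁.map φ₀).map (algebraMap ↥K₀ K)
          = (1 : Matrix (Fin n) (Fin n) ↥K₀).map (algebraMap ↥K₀ K)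
        rw [← subfield_unitary_expr K₀ φ φ₀ hφc, hh₁, smul_unitary_expr, hgU,
          Matrix.map_one _ (map_zero _) (map_one _)]
        have : d⁻¹ * φ d⁻¹ = 1 := by
          rw [map_inv₀, ← mul_inv, hdn, inv_one]
        rw [this, one_smul]
      refine ⟨(⟨Units.mk0 d hd0, hdU⟩, ⟨Matrix.GeneralLinearGroup.mkOfDetNeZero h₁ hdet, hh₁U⟩),
        ?_⟩
      apply Subtype.ext
      apply Units.ext
      ext a b
      rw [hΦm, ← hG]
      show d * (d⁻¹ * G a b) = _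
      rw [← mul_assoc, mul_inv_cancel₀ hd0, one_mul]
  have hcard : Nat.card {g : ↥(Cfsg.GU n K q) // ∃ c : K, c ≠ 0 ∧
        ((g : GL (Fin n) K) : Matrix (Fin n) (Fin n) K).map σ
          = c • ((g : GL (Fin n) K) : Matrix (Fin n) (Fin n) K)}
      = Nat.card Φ.range :=
    Nat.card_congr (Equiv.subtypeEquivRight (fun g => (hrange g).symm))
  -- the kernel
  have hκ1mem : ∀ u : ↥U₀, Units.map (algebraMap ↥K₀ K).toMonoidHom (u : (↥K₀)ˣ) ∈ U := by
    intro u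
    rw [hU]
    show ((((u : (↥K₀)ˣ) : ↥K₀) : K)) ^ (q + 1) = 1
    rw [pow_succ', hcompat, ← pow_succ']
    have := (hU₀ u).mp u.2
    exact congrArg Subtype.val this
  have hκ2mem : ∀ u : ↥U₀, Matrix.GeneralLinearGroup.scalar (Fin n) ((u : (↥K₀)ˣ)⁻¹)
      ∈ Cfsg.GU n ↥K₀ q₀ := by
    intro u
    apply scalar_mem_GU φ₀ hφ₀
    rw [Units.val_inv_eq_inv_val, inv_pow, (hU₀ u).mp u.2, inv_one]
  let κ₁ : ↥U₀ →* ↥U :=
    ((Units.map (algebraMap ↥K₀ K).toMonoidHom).comp U₀.subtype).codRestrict U hκ1mem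
  let κ₂ : ↥U₀ →* ↥(Cfsg.GU n ↥K₀ q₀) :=
    { toFun := fun u => ⟨Matrix.GeneralLinearGroup.scalar (Fin n) ((u : (↥K₀)ˣ)⁻¹), hκ2mem u⟩
      map_one' := by
        apply Subtype.ext
        show Matrix.GeneralLinearGroup.scalar (Fin n) (((1 : ↥U₀) : (↥K₀)ˣ)⁻¹) = 1
        rw [Subgroup.coe_one, inv_one, map_one]
      map_mul' := by
        intro u v
        apply Subtype.ext
        show Matrix.GeneralLinearGroup.scalar (Fin n) (((u * v : ↥U₀) : (↥K₀)ˣ)⁻¹)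
          = Matrix.GeneralLinearGroup.scalar (Fin n) ((u : (↥K₀)ˣ)⁻¹)
            * Matrix.GeneralLinearGroup.scalar (Fin n) ((v : (↥K₀)ˣ)⁻¹)
        rw [Subgroup.coe_mul, mul_inv, map_mul] }
  let κ : ↥U₀ →* ↥U × ↥(Cfsg.GU n ↥K₀ q₀) := κ₁.prod κ₂
  have hκ1 : ∀ u : ↥U₀, ((((κ u).1 : ↥U) : Kˣ) : K) = (((u : (↥K₀)ˣ) : ↥K₀) : K) := fun u => rfl
  have hκ2 : ∀ (u : ↥U₀) (a b : Fin n),
      ((((κ u).2 : ↥(Cfsg.GU n ↥K₀ q₀)) : GL (Fin n) ↥K₀) : Matrix (Fin n) (Fin n) ↥K₀) a b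
      = if a = b then ((((u : (↥K₀)ˣ)⁻¹ : (↥K₀)ˣ)) : ↥K₀) else 0 := by
    intro u a b
    show (Matrix.scalar (Fin n) _) a b = _
    rw [Matrix.scalar_apply, Matrix.diagonal_apply]
  have hκinj : Function.Injective κ := by
    intro u v huv
    have h1 : ((((κ u).1 : ↥U) : Kˣ) : K) = ((((κ v).1 : ↥U) : Kˣ) : K) := by rw [huv]
    rw [hκ1, hκ1] at h1
    exact Subtype.ext (Units.ext (Subtype.ext h1))
  have hker : Φ.ker = κ.range := by
    ext x
    rw [MonoidHom.mem_ker]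
    constructor
    · intro hx
      obtain ⟨d, h⟩ := x
      obtain ⟨i₀⟩ := hi0
      have h1 : ∀ a b, ((d : Kˣ) : K)
          * ((((h : GL (Fin n) ↥K₀) : Matrix (Fin n) (Fin n) ↥K₀) a b : ↥K₀) : K)
          = if a = b then 1 else 0 := by
        intro a b
        rw [← hΦm, hx]
        show (1 : Matrix (Fin n) (Fin n) K) a b = _
        rw [Matrix.one_apply]
      have h00 := h1 i₀ i₀
      rw [if_pos rfl] at h00
      have hu0 : ((h : GL (Fin n) ↥K₀) : Matrix (Fin n) (Fin n) ↥K₀) i₀ i₀ ≠ 0 := by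
        intro h0
        rw [h0] at h00
        simp at h00
      have hval : ((((Units.mk0 _ hu0)⁻¹ : (↥K₀)ˣ) : ↥K₀) : K) = ((d : Kˣ) : K) := by
        rw [Units.val_inv_eq_inv_val, Units.val_mk0]
        show (((((h : GL (Fin n) ↥K₀) : Matrix (Fin n) (Fin n) ↥K₀) i₀ i₀ : ↥K₀) : K))⁻¹ = _
        exact (eq_inv_of_mul_eq_one_left h00).symm
      have hmemU₀ : (Units.mk0 _ hu0)⁻¹ ∈ U₀ := by
        rw [hU₀]
        apply Subtype.ext
        show ((((Units.mk0 _ hu0)⁻¹ : (↥K₀)ˣ) : ↥K₀) : K) ^ (q₀ + 1) = 1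
        rw [pow_succ', ← hcompat, ← pow_succ', hval]
        exact (hU (d : Kˣ)).mp d.2
      refine ⟨⟨(Units.mk0 _ hu0)⁻¹, hmemU₀⟩, ?_⟩
      apply Prod.ext
      · apply Subtype.ext
        apply Units.ext
        rw [hκ1]
        exact hval
      · apply Subtype.ext
        apply Units.ext
        ext a b
        rw [hκ2, inv_inv, Units.val_mk0]
        have hab := h1 a b
        by_cases hab' : a = b
        · rw [if_pos hab'] at hab ⊢
          subst hab'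
          have e1 : (((((h : GL (Fin n) ↥K₀) : Matrix (Fin n) (Fin n) ↥K₀) i₀ i₀ : ↥K₀) : K))
              = (((d : Kˣ) : K))⁻¹ := eq_inv_of_mul_eq_one_right h00
          have e2 : (((((h : GL (Fin n) ↥K₀) : Matrix (Fin n) (Fin n) ↥K₀) a a : ↥K₀) : K))
              = (((d : Kˣ) : K))⁻¹ := eq_inv_of_mul_eq_one_right hab
          exact e1.trans e2.symm
        · rw [if_neg hab'] at hab ⊢
          rcases mul_eq_zero.mp hab with h | h
          · exact absurd h (d : Kˣ).ne_zero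
          · exact (ZeroMemClass.coe_zero K₀).trans h.symm
    · rintro ⟨u, rfl⟩
      apply Subtype.ext
      apply Units.ext
      ext a b
      rw [hΦm, hκ1, hκ2]
      show _ = (1 : Matrix (Fin n) (Fin n) K) a b
      rw [Matrix.one_apply]
      by_cases hab' : a = b
      · rw [if_pos hab', if_pos hab']
        have : ((u : (↥K₀)ˣ) : ↥K₀) * ((((u : (↥K₀)ˣ)⁻¹ : (↥K₀)ˣ)) : ↥K₀) = 1 :=
          (u : (↥K₀)ˣ).mul_inv
        exact congrArg Subtype.val this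
      · rw [if_neg hab', if_neg hab']
        show (((u : (↥K₀)ˣ) : ↥K₀) : K) * (0 : K) = 0
        rw [mul_zero]
  have hkercard : Nat.card Φ.ker = q₀ + 1 := by
    rw [hker, ← hU₀card]
    exact Nat.card_congr (Equiv.ofInjective κ hκinj).symm
  have h1 : Nat.card Φ.ker * Nat.card Φ.range = Nat.card (↥U × ↥(Cfsg.GU n ↥K₀ q₀)) := by
    rw [← Subgroup.index_ker, Subgroup.card_mul_index]
  rw [hkercard, Nat.card_prod, hUcard] at h1
  rw [hcard, h1]

theorem gu_order_cast (q₀ n : ℕ) (hq₀ : 1 ≤ q₀) :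
    ((q₀ ^ (n * (n - 1) / 2) * ∏ i ∈ Finset.range n,
        (if Even i then q₀ ^ (i + 1) + 1 else q₀ ^ (i + 1) - 1) : ℕ) : ℤ)
      = (q₀ : ℤ) ^ (n * (n - 1) / 2)
        * ∏ i : Fin n, ((q₀ : ℤ) ^ ((i : ℕ) + 1) - (-1) ^ ((i : ℕ) + 1)) := by
  rw [Nat.cast_mul, Nat.cast_pow, Nat.cast_prod,
    Fin.prod_univ_eq_prod_range (fun i => (q₀ : ℤ) ^ (i + 1) - (-1) ^ (i + 1)) n]
  congr 1
  apply Finset.prod_congr rfl
  intro i _
  split_ifs with h
  · rw [Odd.neg_one_pow h.add_one]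
    push_cast
    ring
  · have h' : Odd i := Nat.not_even_iff_odd.mp h
    rw [Even.neg_one_pow h'.add_one, Nat.cast_sub (Nat.one_le_pow _ _ hq₀)]
    push_cast
    ring

theorem card_fieldAut_fixed_GU {q₀ q r n : ℕ} (hr : r.Prime) (hr2 : r ≠ 2) (hn : 1 ≤ n)
    (hq : q = q₀ ^ r) (hK : Fintype.card K = q ^ 2) (σ : K ≃+* K) (hσ : orderOf σ = r) :
    (Nat.card {g : ↥(Cfsg.GU n K q) // ∃ c : K, c ≠ 0 ∧
        ((g : GL (Fin n) K) : Matrix (Fin n) (Fin n) K).map σ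
          = c • ((g : GL (Fin n) K) : Matrix (Fin n) (Fin n) K)} : ℤ)
      = ((q + 1) / (q₀ + 1) : ℕ) * ((q₀ : ℤ) ^ (n * (n - 1) / 2)
        * ∏ i : Fin n, ((q₀ : ℤ) ^ ((i : ℕ) + 1) - (-1) ^ ((i : ℕ) + 1))) := by
  classical
  have hodd : Odd r := hr.odd_of_ne_two hr2
  have hK' : Fintype.card K = (q₀ ^ 2) ^ r := by
    rw [hK, hq, ← pow_mul, ← pow_mul, mul_comm]
  have hc0 : Nat.card ↥(FixedPoints.subfield ↥(Subgroup.zpowers σ) K) = q₀ ^ 2 :=
    card_fixed_subfield σ hr.ne_zero hσ hK'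
  have : Fintype ↥(FixedPoints.subfield ↥(Subgroup.zpowers σ) K) := Fintype.ofFinite _
  have hc0' : Fintype.card ↥(FixedPoints.subfield ↥(Subgroup.zpowers σ) K) = q₀ ^ 2 := by
    rw [← Nat.card_eq_fintype_card]
    exact hc0
  have hq₀ : 2 ≤ q₀ := by
    by_contra hlt
    have hle : q₀ ≤ 1 := by omega
    have h2 : q₀ ^ 2 ≤ 1 := Nat.pow_le_one_iff (by norm_num) |>.mpr hle
    have h3 : 1 < Fintype.card ↥(FixedPoints.subfield ↥(Subgroup.zpowers σ) K) :=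
      Fintype.one_lt_card
    omega
  have hcompat : ∀ x : ↥(FixedPoints.subfield ↥(Subgroup.zpowers σ) K),
      (x : K) ^ q = (x : K) ^ q₀ := by
    intro x
    have hx : (x : K) ^ (q₀ ^ 2) = (x : K) := by
      have h := FiniteField.pow_card x
      rw [hc0'] at h
      exact congrArg Subtype.val h
    obtain ⟨k, rfl⟩ := hodd
    rw [hq]
    clear hr hr2 hσ hK' hq hK
    induction k with
    | zero => simp
    | succ k ih =>
      have e : q₀ ^ (2 * (k + 1) + 1) = q₀ ^ 2 * q₀ ^ (2 * k + 1) := by ring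
      rw [e, pow_mul, hx, ih]
  have h1 := card_fixed_GU_aux σ (FixedPoints.subfield ↥(Subgroup.zpowers σ) K)
    (mem_fixed_subfield_iff σ) hn hK hc0' hcompat
  rw [Cfsg.Agent.S0277.result hc0' n] at h1
  obtain ⟨t, ht⟩ : (q₀ + 1) ∣ (q + 1) := by
    rw [hq]
    simpa only [one_pow] using Odd.nat_add_dvd_pow_add_pow q₀ 1 hodd
  rw [ht, Nat.mul_div_cancel_left t (by omega : 0 < q₀ + 1)]
  rw [ht, mul_assoc] at h1
  have h2 := Nat.eq_of_mul_eq_mul_left (by omega : 0 < q₀ + 1) h1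
  rw [h2, Nat.cast_mul, gu_order_cast q₀ n (by omega)]

end Main

end Cfsg.Agent.Lib.Helper17
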