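import Mathlib
import Cfsg.Prelude.Def_LocalEven
import Cfsg.Agent.Lib.Helper21.Dihedral

set_option autoImplicit false

namespace Cfsg.Agent.Lib.Helper17

open Cfsg

theorem inverted_of_normalizer {G : Type*} [Group G] [Finite G] {p : ℕ} [Fact p.Prime]
    (x : G) (P : Subgroup G) (hx : ∃ k : ℕ, orderOf x = 2 ^ k) (hP : IsPGroup p P)
    (hxN : x ∈ Subgroup.normalizer (P : Set G)) (hxC : x ∉ Subgroup.centralizer (P : Set G)) :
    ∃ x y : G, (∃ k : ℕ, orderOf x = 2 ^ k) ∧ (∃ k : ℕ, orderOf y = p ^ k) ∧ y ≠ 1 ∧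
      x * y * x⁻¹ = y⁻¹ := by
  classical
  obtain ⟨k, hk⟩ := hx
  have hex : ∃ j, x ^ (2 ^ j) ∈ Subgroup.centralizer (P : Set G) :=
    ⟨k, by rw [← hk, pow_orderOf_eq_one]; exact Subgroup.one_mem _⟩
  have hj1 : x ^ (2 ^ Nat.find hex) ∈ Subgroup.centralizer (P : Set G) := Nat.find_spec hex
  have hj0 : Nat.find hex ≠ 0 := by
    intro h
    rw [h, pow_zero, pow_one] at hj1
    exact hxC hj1
  obtain ⟨i, hi⟩ := Nat.exists_eq_succ_of_ne_zero hj0
  have hz : x ^ (2 ^ i) ∉ Subgroup.centralizer (P : Set G) :=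
    Nat.find_min hex (by rw [hi]; exact Nat.lt_succ_self i)
  set z := x ^ (2 ^ i) with hzdef
  have hz2 : z * z ∈ Subgroup.centralizer (P : Set G) := by
    have : z * z = x ^ (2 ^ Nat.find hex) := by
      rw [hzdef, ← pow_add, hi, pow_succ, mul_two]
    rw [this]; exact hj1
  have hzN : z ∈ Subgroup.normalizer (P : Set G) := Subgroup.pow_mem _ hxN _
  have hzo : ∃ k', orderOf z = 2 ^ k' := by
    have : orderOf z ∣ 2 ^ k := by rw [← hk]; exact orderOf_pow_dvd _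
    obtain ⟨k', _, h⟩ := (Nat.dvd_prime_pow Nat.prime_two).mp this
    exact ⟨k', h⟩
  have hexu : ∃ u ∈ P, z * u * z⁻¹ ≠ u := by
    by_contra h
    push Not at h
    apply hz
    intro u hu
    have := h u hu
    calc u * z = z * u * z⁻¹ * z := by rw [this]
      _ = z * u := by group
  obtain ⟨u, hu, hne⟩ := hexu
  have hzu : z * u * z⁻¹ ∈ P := (Subgroup.mem_normalizer_iff.mp hzN u).mp hu
  refine ⟨z, u⁻¹ * (z * u * z⁻¹), hzo, ?_, ?_, ?_⟩
  · have hmem : u⁻¹ * (z * u * z⁻¹) ∈ P := P.mul_mem (P.inv_mem hu) hzu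
    obtain ⟨k', hk'⟩ := (IsPGroup.iff_orderOf.mp hP) ⟨_, hmem⟩
    exact ⟨k', by rw [← hk', Subgroup.orderOf_mk]⟩
  · intro h
    apply hne
    exact (inv_mul_eq_one.mp h).symm
  · have hcomm : u * (z * z) = (z * z) * u := hz2 u hu
    have h2 : (z * z) * u * (z * z)⁻¹ = u := by rw [← hcomm]; group
    calc z * (u⁻¹ * (z * u * z⁻¹)) * z⁻¹ = z * u⁻¹ * z⁻¹ * ((z * z) * u * (z * z)⁻¹) := by group
      _ = z * u⁻¹ * z⁻¹ * u := by rw [h2]
      _ = (u⁻¹ * (z * u * z⁻¹))⁻¹ := by group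

theorem involves_dihedral_of_inverted_prime {G : Type*} [Group G] [Finite G] {p : ℕ}
    [Fact p.Prime] (hp : p ≠ 2) (x y : G) (hx : ∃ k : ℕ, orderOf x = 2 ^ k)
    (hy : orderOf y = p) (hxy : x * y * x⁻¹ = y⁻¹) : Cfsg.Involves (DihedralGroup p) G := by
  classical
  have hpprime : p.Prime := Fact.out
  have hy1 : y ≠ 1 := by
    rintro rfl
    rw [orderOf_one] at hy
    exact hpprime.ne_one hy.symm
  -- y does not commute with x
  have hncomm : ∀ n : ℤ, x * y ^ n * x⁻¹ = y ^ n → y ^ n = 1 := by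
    intro n h
    have h1 : x * y ^ n * x⁻¹ = (y ^ n)⁻¹ := by
      rw [← conj_zpow, hxy, inv_zpow]
    have h2 : y ^ n * y ^ n = 1 := by
      have : y ^ n = (y ^ n)⁻¹ := by rw [← h1, h]
      calc y ^ n * y ^ n = y ^ n * (y ^ n)⁻¹ := by rw [← this]
        _ = 1 := mul_inv_cancel _
    have h3 : y ^ (2 * n) = 1 := by rw [two_mul, zpow_add, h2]
    have h4 : (orderOf y : ℤ) ∣ 2 * n := orderOf_dvd_iff_zpow_eq_one.mpr h3
    rw [hy] at h4
    have h5 : (p : ℤ) ∣ n := by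
      have hp' : Prime (p : ℤ) := Nat.prime_iff_prime_int.mp hpprime
      rcases hp'.dvd_or_dvd h4 with h6 | h6
      · exfalso
        have : p ∣ 2 := by exact_mod_cast h6
        exact hp ((Nat.prime_dvd_prime_iff_eq hpprime Nat.prime_two).mp this)
      · exact h6
    rw [← hy] at h5
    exact orderOf_dvd_iff_zpow_eq_one.mp h5
  have hx1 : x ≠ 1 := by
    rintro rfl
    apply hy1
    have := hncomm 1 (by simp)
    simpa using this
  have hxsq : x ∉ Subgroup.zpowers (x ^ 2) := by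
    rintro ⟨m, hm⟩
    have hm' : x ^ (2 * m - 1) = 1 := by
      have h1 : x ^ (2 * m) = x := by
        rw [zpow_mul]; exact_mod_cast hm
      rw [zpow_sub, zpow_one, h1, mul_inv_cancel]
    have h2 : (orderOf x : ℤ) ∣ 2 * m - 1 := orderOf_dvd_iff_zpow_eq_one.mpr hm'
    obtain ⟨k, hk⟩ := hx
    rw [hk] at h2
    rcases Nat.eq_zero_or_pos k with rfl | hkpos
    · rw [pow_zero, orderOf_eq_one_iff] at hk
      exact hx1 hk
    · have h3 : (2 : ℤ) ∣ 2 * m - 1 := by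
        refine dvd_trans ?_ h2
        have : (2 : ℤ) ∣ ((2 ^ k : ℕ) : ℤ) := by
          exact_mod_cast dvd_pow_self 2 hkpos.ne'
        exact this
      omega
  set K : Subgroup G := Subgroup.closure {x, y} with hK
  set H : Subgroup G := Subgroup.zpowers (x ^ 2) with hH
  have hxK : x ∈ K := Subgroup.subset_closure (by simp)
  have hyK : y ∈ K := Subgroup.subset_closure (by simp)
  have hHK : H ≤ K := Subgroup.zpowers_le.mpr (K.pow_mem hxK 2)
  have hcx : Commute x (x ^ 2) := (Commute.refl x).pow_right 2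
  have hcy : Commute y (x ^ 2) := by
    have h1 : x ^ 2 * y * (x ^ 2)⁻¹ = y := by
      calc x ^ 2 * y * (x ^ 2)⁻¹ = x * (x * y * x⁻¹) * x⁻¹ := by rw [pow_two]; group
        _ = x * y⁻¹ * x⁻¹ := by rw [hxy]
        _ = (x * y * x⁻¹)⁻¹ := by group
        _ = y := by rw [hxy, inv_inv]
    have h2 : x ^ 2 * y = y * x ^ 2 := by
      calc x ^ 2 * y = x ^ 2 * y * (x ^ 2)⁻¹ * x ^ 2 := by group
        _ = y * x ^ 2 := by rw [h1]
    exact h2.symm
  have hcentH : ∀ g : G, Commute g (x ^ 2) → g ∈ Subgroup.normalizer (H : Set G) := by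
    intro g hg
    apply Subgroup.centralizer_le_normalizer
    rintro h ⟨n, rfl⟩
    exact ((hg.zpow_right n).eq).symm
  have hKN : K ≤ Subgroup.normalizer (H : Set G) := by
    rw [hK, Subgroup.closure_le]
    rintro g (rfl | rfl)
    · exact hcentH _ hcx
    · exact hcentH _ hcy
  have hnorm : (H.subgroupOf K).Normal := (Subgroup.normal_subgroupOf_iff_le_normalizer hHK).mpr hKN
  refine ⟨K, H, hnorm, ?_⟩
  let s : K ⧸ H.subgroupOf K := QuotientGroup.mk (⟨x, hxK⟩ : K)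
  let ρ : K ⧸ H.subgroupOf K := QuotientGroup.mk (⟨y, hyK⟩ : K)
  have hmk1 : ∀ g : K, (QuotientGroup.mk g : K ⧸ H.subgroupOf K) = 1 ↔ (g : G) ∈ H := by
    intro g
    rw [QuotientGroup.eq_one_iff]; rfl
  have hs : s * s = 1 := by
    show (QuotientGroup.mk ((⟨x, hxK⟩ : K) * ⟨x, hxK⟩) : K ⧸ H.subgroupOf K) = 1
    rw [hmk1]
    show x * x ∈ H
    rw [← pow_two]
    exact Subgroup.mem_zpowers _
  have hyH : ∀ n : ℤ, y ^ n ∈ H → y ^ n = 1 := by
    rintro n ⟨m, hm⟩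
    apply hncomm
    have : Commute x (y ^ n) := by
      rw [← hm]; exact hcx.zpow_right m
    rw [this.eq, mul_inv_cancel_right]
  have hρ1 : ρ ≠ 1 := by
    intro h
    rw [hmk1] at h
    have := hyH 1 (by simpa using h)
    exact hy1 (by simpa using this)
  have hρp : ρ ^ p = 1 := by
    show (QuotientGroup.mk ((⟨y, hyK⟩ : K) ^ p) : K ⧸ H.subgroupOf K) = 1
    rw [hmk1]
    show y ^ p ∈ H
    rw [← hy, pow_orderOf_eq_one]
    exact H.one_mem
  have hρo : orderOf ρ = p := orderOf_eq_prime hρp hρ1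
  have hsρ : s * ρ * s⁻¹ = ρ⁻¹ := by
    show (QuotientGroup.mk ((⟨x, hxK⟩ : K) * ⟨y, hyK⟩ * (⟨x, hxK⟩ : K)⁻¹) : K ⧸ H.subgroupOf K)
      = QuotientGroup.mk ((⟨y, hyK⟩ : K)⁻¹)
    congr 1
    exact Subtype.ext hxy
  have hgen : Subgroup.closure ({s, ρ} : Set (K ⧸ H.subgroupOf K)) = ⊤ := by
    have h1 : Subgroup.closure ({⟨x, hxK⟩, ⟨y, hyK⟩} : Set K) = ⊤ := by
      have h2 := Subgroup.closure_closure_coe_preimage (k := ({x, y} : Set G))
      have h3 : ((↑) ⁻¹' ({x, y} : Set G) : Set K) = {⟨x, hxK⟩, ⟨y, hyK⟩} := by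
        ext ⟨g, hg⟩
        simp [Subtype.ext_iff]
      rw [← h3]
      exact h2
    have h4 := congrArg (Subgroup.map (QuotientGroup.mk' (H.subgroupOf K))) h1
    rw [MonoidHom.map_closure, Set.image_pair,
      Subgroup.map_top_of_surjective _ (QuotientGroup.mk'_surjective _)] at h4
    exact h4
  have hs' : s ∉ Subgroup.zpowers ρ := by
    rintro ⟨n, hn⟩
    have h1 : (QuotientGroup.mk ((⟨y, hyK⟩ : K) ^ n) : K ⧸ H.subgroupOf K)
        = QuotientGroup.mk (⟨x, hxK⟩ : K) := hn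
    rw [QuotientGroup.eq] at h1
    have h2 : (y ^ n)⁻¹ * x ∈ H := h1
    obtain ⟨m, hm0⟩ := h2
    have hm : (x ^ 2) ^ m = (y ^ n)⁻¹ * x := hm0
    have h3 : y ^ n = x * ((x ^ 2) ^ m)⁻¹ := by
      rw [hm]; group
    have h4 : Commute x (y ^ n) := by
      rw [h3]
      exact (Commute.refl x).mul_right (hcx.zpow_right m).inv_right
    have h5 : y ^ n = 1 := hncomm n (by rw [h4.eq, mul_inv_cancel_right])
    apply hxsq
    refine ⟨m, ?_⟩
    show (x ^ 2) ^ m = x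
    rw [hm, h5]; group
  exact ⟨(Cfsg.Agent.Lib.Helper21.nonempty_dihedral_mulEquiv s ρ p hs hρo hpprime.ne_zero hsρ hgen
    hs').some.symm⟩

theorem involves_dihedral_of_inverted {G : Type*} [Group G] [Finite G] {p : ℕ}
    [Fact p.Prime] (hp : p ≠ 2) (x y : G) (hx : ∃ k : ℕ, orderOf x = 2 ^ k)
    (hy : ∃ k : ℕ, orderOf y = p ^ k) (hy1 : y ≠ 1) (hxy : x * y * x⁻¹ = y⁻¹) :
    Cfsg.Involves (DihedralGroup p) G := by
  have hpprime : p.Prime := Fact.out
  obtain ⟨k, hk⟩ := hy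
  have hk0 : k ≠ 0 := by
    rintro rfl
    rw [pow_zero, orderOf_eq_one_iff] at hk
    exact hy1 hk
  obtain ⟨i, rfl⟩ : ∃ i, k = i + 1 := ⟨k - 1, by omega⟩
  have hy'p : (y ^ (p ^ i)) ^ p = 1 := by
    rw [← pow_mul, ← pow_succ, ← hk, pow_orderOf_eq_one]
  have hy'1 : y ^ (p ^ i) ≠ 1 := by
    intro h
    have h1 : orderOf y ∣ p ^ i := orderOf_dvd_of_pow_eq_one h
    rw [hk] at h1
    have h2 := Nat.le_of_dvd (pow_pos hpprime.pos i) h1
    have h3 : p ^ i < p ^ (i + 1) := Nat.pow_lt_pow_right hpprime.one_lt (Nat.lt_succ_self i)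
    omega
  have hy'o : orderOf (y ^ (p ^ i)) = p := orderOf_eq_prime hy'p hy'1
  have hxy' : x * y ^ (p ^ i) * x⁻¹ = (y ^ (p ^ i))⁻¹ := by
    rw [← conj_pow, hxy, inv_pow]
  exact involves_dihedral_of_inverted_prime hp x (y ^ (p ^ i)) hx hy'o hxy'

theorem dihedral_quot_aux {K : Type*} [Group K] [Finite K] {p : ℕ} [Fact p.Prime] (hp : p ≠ 2)
    (φ : K →* DihedralGroup p) (hφ : Function.Surjective φ) :
    ∃ (x : K) (P : Subgroup K), (∃ k : ℕ, orderOf x = 2 ^ k) ∧ IsPGroup p ↥P ∧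
      x ∈ Subgroup.normalizer (P : Set K) ∧ x ∉ Subgroup.centralizer (P : Set K) := by
  classical
  have hpprime : p.Prime := Fact.out
  let C : Subgroup (DihedralGroup p) := Subgroup.zpowers (DihedralGroup.r 1)
  have hCmem : ∀ g : DihedralGroup p, g ∈ C ↔ ∃ i, g = DihedralGroup.r i := by
    intro g
    constructor
    · rintro ⟨n, rfl⟩
      exact ⟨_, DihedralGroup.r_one_zpow n⟩
    · rintro ⟨i, rfl⟩
      refine ⟨(i.val : ℤ), ?_⟩
      show DihedralGroup.r 1 ^ (i.val : ℤ) = DihedralGroup.r i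
      rw [DihedralGroup.r_one_zpow]
      congr 1
      simp
  have hCn : C.Normal := by
    constructor
    intro g hg h
    rw [hCmem] at hg ⊢
    obtain ⟨i, rfl⟩ := hg
    cases h with
    | r j => exact ⟨j + i - j, by rw [DihedralGroup.r_mul_r, DihedralGroup.inv_r,
        DihedralGroup.r_mul_r, sub_eq_add_neg]⟩
    | sr j => exact ⟨j - (j + i), by rw [DihedralGroup.sr_mul_r, DihedralGroup.inv_sr,
        DihedralGroup.sr_mul_sr]⟩
  let M : Subgroup K := C.comap φ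
  have hMn : M.Normal := hCn.comap φ
  obtain ⟨u, hu⟩ := hφ (DihedralGroup.r 1)
  obtain ⟨b, m, hm, hum⟩ :=
    Nat.exists_eq_pow_mul_and_not_dvd (orderOf_pos u).ne' p hpprime.ne_one
  have hy₀φ : φ (u ^ m) = DihedralGroup.r (m : ZMod p) := by
    rw [map_pow, hu, DihedralGroup.r_one_pow]
  have hm0 : (m : ZMod p) ≠ 0 := by
    rwa [Ne, ZMod.natCast_eq_zero_iff]
  have hy₀M : u ^ m ∈ M := by
    show φ (u ^ m) ∈ C
    rw [hCmem]; exact ⟨_, hy₀φ⟩
  have hy₀p : (u ^ m) ^ (p ^ b) = 1 := by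
    rw [← pow_mul, mul_comm, ← hum, pow_orderOf_eq_one]
  have hZ : IsPGroup p (Subgroup.zpowers (⟨u ^ m, hy₀M⟩ : M)) := by
    rintro ⟨h, n, rfl⟩
    refine ⟨b, ?_⟩
    apply Subtype.ext
    apply Subtype.ext
    show ((u ^ m) ^ n) ^ (p ^ b) = 1
    rw [← zpow_natCast, ← zpow_mul, mul_comm, zpow_mul, zpow_natCast, hy₀p, one_zpow]
  obtain ⟨P, hP⟩ := hZ.exists_le_sylow
  have hy₀P : (⟨u ^ m, hy₀M⟩ : M) ∈ (P : Subgroup M) := hP (Subgroup.mem_zpowers _)
  have hFr := Sylow.normalizer_sup_eq_top P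
  set P' : Subgroup K := (P : Subgroup M).map M.subtype with hP'
  have hy₀P' : u ^ m ∈ P' := ⟨⟨u ^ m, hy₀M⟩, hy₀P, rfl⟩
  have hex : ∃ x' ∈ Subgroup.normalizer (P' : Set K), φ x' ∉ C := by
    by_contra h
    push Not at h
    have hle : Subgroup.normalizer (P' : Set K) ≤ M := fun x' hx' => h x' hx'
    rw [sup_of_le_right hle] at hFr
    obtain ⟨w, hw⟩ := hφ (DihedralGroup.sr 0)
    have : w ∈ M := by rw [hFr]; exact Subgroup.mem_top w
    have h2 : φ w ∈ C := this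
    rw [hw, hCmem] at h2
    obtain ⟨i, hi⟩ := h2
    cases hi
  obtain ⟨x', hx'N, hx'C⟩ := hex
  have hx'sr : ∃ i, φ x' = DihedralGroup.sr i := by
    rw [hCmem] at hx'C
    push Not at hx'C
    cases h : φ x' with
    | r j => exact absurd h (hx'C j)
    | sr j => exact ⟨j, rfl⟩
  obtain ⟨i, hi⟩ := hx'sr
  obtain ⟨a, t, ht, hat⟩ := Nat.exists_eq_two_pow_mul_odd (orderOf_pos x').ne'
  have hxo : ∃ k, orderOf (x' ^ t) = 2 ^ k := by
    have h1 : (x' ^ t) ^ (2 ^ a) = 1 := by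
      rw [← pow_mul, mul_comm, ← hat, pow_orderOf_eq_one]
    have h2 : orderOf (x' ^ t) ∣ 2 ^ a := orderOf_dvd_of_pow_eq_one h1
    obtain ⟨k, _, hk⟩ := (Nat.dvd_prime_pow Nat.prime_two).mp h2
    exact ⟨k, hk⟩
  have hφx : φ (x' ^ t) = DihedralGroup.sr i := by
    rw [map_pow, hi]
    obtain ⟨c, rfl⟩ := ht
    rw [pow_succ, pow_mul, pow_two, DihedralGroup.sr_mul_self, one_pow, one_mul]
  refine ⟨x' ^ t, P', hxo, ?_, Subgroup.pow_mem _ hx'N t, ?_⟩
  · exact P.isPGroup'.map M.subtype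
  · intro hc
    have h1 : u ^ m * x' ^ t = x' ^ t * u ^ m := hc (u ^ m) hy₀P'
    have h2 := congrArg φ h1
    rw [map_mul, map_mul, hφx, hy₀φ, DihedralGroup.r_mul_sr, DihedralGroup.sr_mul_r] at h2
    have h3 : i - (m : ZMod p) = i + (m : ZMod p) := by
      injection h2
    have h4 : (2 : ZMod p) * (m : ZMod p) = 0 := by linear_combination -h3
    have h5 : (2 : ZMod p) ≠ 0 := by
      intro h
      have : ((2 : ℕ) : ZMod p) = 0 := by exact_mod_cast h
      rw [ZMod.natCast_eq_zero_iff] at this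
      exact hp ((Nat.prime_dvd_prime_iff_eq hpprime Nat.prime_two).mp this)
    rcases mul_eq_zero.mp h4 with h | h
    · exact h5 h
    · exact hm0 h

theorem normalizer_of_involves_dihedral {G : Type*} [Group G] [Finite G] {p : ℕ} [Fact p.Prime]
    (hp : p ≠ 2) (h : Cfsg.Involves (DihedralGroup p) G) :
    ∃ (x : G) (P : Subgroup G), (∃ k : ℕ, orderOf x = 2 ^ k) ∧ IsPGroup p ↥P ∧
      x ∈ Subgroup.normalizer (P : Set G) ∧ x ∉ Subgroup.centralizer (P : Set G) := by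
  obtain ⟨K, R, hRn, ⟨e⟩⟩ := h
  let φ : K →* DihedralGroup p := e.toMonoidHom.comp (QuotientGroup.mk' (R.subgroupOf K))
  have hφ : Function.Surjective φ := e.surjective.comp (QuotientGroup.mk'_surjective _)
  obtain ⟨x, P, ⟨k, hk⟩, hP, hxN, hxC⟩ := dihedral_quot_aux hp φ hφ
  refine ⟨(x : G), P.map K.subtype, ⟨k, by rw [← hk, Subgroup.orderOf_coe]⟩, hP.map _, ?_, ?_⟩
  · exact Subgroup.le_normalizer_map K.subtype ⟨x, hxN, rfl⟩
  · intro hc
    apply hxC
    intro u hu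
    have := hc (u : G) ⟨u, hu, rfl⟩
    exact Subtype.ext this

end Cfsg.Agent.Lib.Helper17
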