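import Mathlib
import Cfsg.Agent.Lib.Helper17.S4Rec
import Cfsg.Agent.Lib.Helper17.InvolvesDih
import Cfsg.Agent.Lib.Helper21.Dihedral
import Cfsg.Agent.Lib.Helper1.S4SecA
import Cfsg.Agent.S2759
import Cfsg.Agent.S0199

set_option autoImplicit false
set_option linter.unusedSimpArgs false

/-!
Transvections on a normal abelian `2`-subgroup of a group not involving the symmetric group of
degree four lie in a normal subgroup acting as a `2`-group.
-/

namespace Cfsg.Agent.Lib.Helper17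

universe u

theorem dihedral_three_iso : Nonempty (DihedralGroup 3 ≃* Equiv.Perm (Fin 3)) := by
  have : Fact (Nat.Prime 3) := ⟨Nat.prime_three⟩
  have : Fact (Nat.Prime 2) := ⟨Nat.prime_two⟩
  obtain ⟨s, hsdef⟩ : ∃ s : Equiv.Perm (Fin 3), s = Equiv.swap 0 1 := ⟨_, rfl⟩
  obtain ⟨ρ, hρdef⟩ : ∃ ρ : Equiv.Perm (Fin 3), ρ = finRotate 3 := ⟨_, rfl⟩
  have hs : s * s = 1 := by subst hsdef; decide
  have hs1 : s ≠ 1 := by subst hsdef; decide
  have hρ3 : ρ ^ 3 = 1 := by subst hρdef; decide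
  have hρ1 : ρ ≠ 1 := by subst hρdef; decide
  have hρ : orderOf ρ = 3 := orderOf_eq_prime hρ3 hρ1
  have hso : orderOf s = 2 := orderOf_eq_prime (by rw [pow_two]; exact hs) hs1
  have hsρ : s * ρ * s⁻¹ = ρ⁻¹ := by subst hsdef; subst hρdef; decide
  have hsgnρ : Equiv.Perm.sign ρ = 1 := by subst hρdef; decide
  have hsgns : Equiv.Perm.sign s = -1 := by subst hsdef; decide
  have hs' : s ∉ Subgroup.zpowers ρ := by
    intro h
    obtain ⟨k, hk⟩ := Subgroup.mem_zpowers_iff.mp h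
    have h1 : Equiv.Perm.sign (ρ ^ k) = 1 := by rw [map_zpow, hsgnρ, one_zpow]
    rw [hk, hsgns] at h1
    revert h1
    decide
  have hgen : Subgroup.closure ({s, ρ} : Set (Equiv.Perm (Fin 3))) = ⊤ := by
    apply Subgroup.eq_top_of_card_eq
    have h2 : 2 ∣ Nat.card ↥(Subgroup.closure ({s, ρ} : Set (Equiv.Perm (Fin 3)))) := by
      have h := Subgroup.orderOf_dvd_natCard (Subgroup.closure ({s, ρ} : Set (Equiv.Perm (Fin 3))))
        (x := s) (Subgroup.subset_closure (by simp))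
      rw [hso] at h
      exact h
    have h3 : 3 ∣ Nat.card ↥(Subgroup.closure ({s, ρ} : Set (Equiv.Perm (Fin 3)))) := by
      have h := Subgroup.orderOf_dvd_natCard (Subgroup.closure ({s, ρ} : Set (Equiv.Perm (Fin 3))))
        (x := ρ) (Subgroup.subset_closure (by simp))
      rw [hρ] at h
      exact h
    have h6 : 6 ∣ Nat.card ↥(Subgroup.closure ({s, ρ} : Set (Equiv.Perm (Fin 3)))) :=
      Nat.Coprime.mul_dvd_of_dvd_of_dvd (by norm_num) h2 h3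
    have hc : Nat.card (Equiv.Perm (Fin 3)) = 6 := by
      rw [Nat.card_eq_fintype_card, Fintype.card_perm, Fintype.card_fin]
      rfl
    have hd := Subgroup.card_subgroup_dvd_card (Subgroup.closure ({s, ρ} : Set (Equiv.Perm (Fin 3))))
    rw [hc] at hd ⊢
    exact Nat.dvd_antisymm hd h6
  exact Cfsg.Agent.Lib.Helper21.nonempty_dihedral_mulEquiv s ρ 3 hs hρ (by norm_num) hsρ hgen hs'

theorem involves_congr_left {A B : Type*} [Group A] [Group B] {G : Type*} [Group G]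
    (h : Cfsg.Involves A G) (f : A ≃* B) : Cfsg.Involves B G := by
  obtain ⟨K, R, hn, ⟨e⟩⟩ := h
  exact ⟨K, R, hn, ⟨e.trans f⟩⟩

set_option maxHeartbeats 1600000 in
theorem involves_s4_of_klein {X : Type u} [Group X] [Finite X] (e1 e2 a1 a2 : X)
    (h1 : e1 * e1 = 1) (h2 : e2 * e2 = 1) (h12 : e1 * e2 = e2 * e1) (hne1 : e1 ≠ 1)
    (hne2 : e2 ≠ 1)
    (ha1e1 : a1 * e1 * a1⁻¹ = e1) (ha1e2 : a1 * e2 * a1⁻¹ = e2 * e1)
    (ha2e2 : a2 * e2 * a2⁻¹ = e2) (ha2e1 : a2 * e1 * a2⁻¹ = e1 * e2)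
    (ha1 : ∃ k : ℕ, a1 ^ (2 ^ k) = 1) : Cfsg.Involves (Equiv.Perm (Fin 4)) X := by
  have : Fact (Nat.Prime 2) := ⟨Nat.prime_two⟩
  have : Fact (Nat.Prime 3) := ⟨Nat.prime_three⟩
  have hne : e1 ≠ e2 := by
    intro h
    subst h
    rw [ha1e1, h1] at ha1e2
    exact hne1 ha1e2
  have c : ∀ x, e1 * (e2 * x) = e2 * (e1 * x) := fun x => by rw [← mul_assoc, h12, mul_assoc]
  have i1 : ∀ x, e1 * (e1 * x) = x := fun x => by rw [← mul_assoc, h1, one_mul]
  have i2 : ∀ x, e2 * (e2 * x) = x := fun x => by rw [← mul_assoc, h2, one_mul]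
  obtain ⟨E, hEmem, hE4⟩ := Cfsg.Agent.Lib.Helper1.S4Sec.four_subgroup e1 e2 (e1 * e2) h1 h2
    (by simp only [mul_assoc, c, h12, i1, i2, h1, h2, mul_one]) rfl h12.symm
    (by simp only [mul_assoc, c, h12, i1, i2, h1, h2, mul_one])
    (by simp only [mul_assoc, c, h12, i1, i2, h1, h2, mul_one])
    (by simp only [mul_assoc, c, h12, i1, i2, h1, h2, mul_one])
    (by simp only [mul_assoc, c, h12, i1, i2, h1, h2, mul_one]) hne1 hne2
    (by
      intro h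
      apply hne
      calc e1 = e1 * (e2 * e2) := by rw [h2, mul_one]
        _ = e1 * e2 * e2 := by rw [mul_assoc]
        _ = e2 := by rw [h, one_mul])
    hne
    (by
      intro h
      apply hne2
      calc e2 = e1 * (e1 * e2) := (i1 e2).symm
        _ = e1 * e1 := by rw [← h]
        _ = 1 := h1)
    (by
      intro h
      apply hne1
      calc e1 = e1 * e2 * e2 := by rw [mul_assoc, h2, mul_one]
        _ = e2 * e2 := by rw [← h]
        _ = 1 := h2)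
  have hE2 : IsPGroup 2 E := IsPGroup.of_card (n := 2) (by rw [hE4]; rfl)
  have he1E : e1 ∈ E := (hEmem _).mpr (Or.inr (Or.inl rfl))
  have he2E : e2 ∈ E := (hEmem _).mpr (Or.inr (Or.inr (Or.inl rfl)))
  have he3E : e1 * e2 ∈ E := (hEmem _).mpr (Or.inr (Or.inr (Or.inr rfl)))
  have he3E' : e2 * e1 ∈ E := h12 ▸ he3E
  -- conjugation formulas
  have ha1e3 : a1 * (e2 * e1) * a1⁻¹ = e2 := by
    rw [← conj_mul, ha1e1, ha1e2]
    simp only [mul_assoc, h1, mul_one]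
  have ha2e3 : a2 * (e1 * e2) * a2⁻¹ = e1 := by
    rw [← conj_mul, ha2e1, ha2e2]
    simp only [mul_assoc, h2, mul_one]
  have ha1N : a1 ∈ Subgroup.normalizer (E : Set X) := by
    apply Cfsg.Agent.Lib.Helper1.S4Sec.mem_normalizer_of_conj
    intro u hu
    rcases (hEmem u).mp hu with rfl | rfl | rfl | rfl
    · simp
    · rw [ha1e1]; exact he1E
    · rw [ha1e2]; exact he3E'
    · rw [h12, ha1e3]; exact he2E
  have ha2N : a2 ∈ Subgroup.normalizer (E : Set X) := by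
    apply Cfsg.Agent.Lib.Helper1.S4Sec.mem_normalizer_of_conj
    intro u hu
    rcases (hEmem u).mp hu with rfl | rfl | rfl | rfl
    · simp
    · rw [ha2e1]; exact he3E
    · rw [ha2e2]; exact he2E
    · rw [ha2e3]; exact he1E
  obtain ⟨ρ, hρdef⟩ : ∃ ρ : X, ρ = a1 * a2 := ⟨_, rfl⟩
  have hρN : ρ ∈ Subgroup.normalizer (E : Set X) := by
    rw [hρdef]
    exact Subgroup.mul_mem _ ha1N ha2N
  have hc1 : ρ * e1 * ρ⁻¹ = e2 := by
    have e : ρ * e1 * ρ⁻¹ = a1 * (a2 * e1 * a2⁻¹) * a1⁻¹ := by rw [hρdef]; group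
    rw [e, ha2e1, ← conj_mul, ha1e1, ha1e2, ← h12, i1]
  have hc2 : ρ * e2 * ρ⁻¹ = e2 * e1 := by
    have e : ρ * e2 * ρ⁻¹ = a1 * (a2 * e2 * a2⁻¹) * a1⁻¹ := by rw [hρdef]; group
    rw [e, ha2e2, ha1e2]
  have hc3 : ρ * (e2 * e1) * ρ⁻¹ = e1 := by
    rw [← conj_mul, hc1, hc2, mul_assoc, h12, i2]
  have hcent : ∀ g : X, g * e1 * g⁻¹ = e1 → g * e2 * g⁻¹ = e2 →
      g ∈ Subgroup.centralizer (E : Set X) := by
    intro g hg1 hg2
    have k1 : e1 * g = g * e1 := by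
      calc e1 * g = (g * e1 * g⁻¹) * g := by rw [hg1]
        _ = g * e1 := by group
    have k2 : e2 * g = g * e2 := by
      calc e2 * g = (g * e2 * g⁻¹) * g := by rw [hg2]
        _ = g * e2 := by group
    rw [Subgroup.mem_centralizer_iff]
    intro u hu
    rcases (hEmem u).mp hu with rfl | rfl | rfl | rfl
    · simp
    · exact k1
    · exact k2
    · rw [mul_assoc, k2, ← mul_assoc, k1, mul_assoc]
  -- the quotient
  obtain ⟨s, hsdef⟩ : ∃ s : ↥(Subgroup.normalizer (E : Set X)) ⧸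
      (Subgroup.centralizer (E : Set X)).subgroupOf (Subgroup.normalizer (E : Set X)),
      s = QuotientGroup.mk ⟨a1, ha1N⟩ := ⟨_, rfl⟩
  obtain ⟨r, hrdef⟩ : ∃ r : ↥(Subgroup.normalizer (E : Set X)) ⧸
      (Subgroup.centralizer (E : Set X)).subgroupOf (Subgroup.normalizer (E : Set X)),
      r = QuotientGroup.mk ⟨ρ, hρN⟩ := ⟨_, rfl⟩
  have hs2 : ∃ k : ℕ, orderOf s = 2 ^ k := by
    obtain ⟨k, hk⟩ := ha1
    have h : s ^ (2 ^ k) = 1 := by
      rw [hsdef, ← QuotientGroup.mk_pow]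
      have : (⟨a1, ha1N⟩ : ↥(Subgroup.normalizer (E : Set X))) ^ (2 ^ k) = 1 := by
        apply Subtype.ext
        rw [Subgroup.coe_pow]
        exact hk
      rw [this]
      rfl
    obtain ⟨j, -, hj⟩ := (Nat.dvd_prime_pow Nat.prime_two).mp (orderOf_dvd_of_pow_eq_one h)
    exact ⟨j, hj⟩
  have p3 : ρ ^ 3 = ρ * ρ * ρ := by rw [pow_succ, pow_two]
  have hr3 : r ^ 3 = 1 := by
    rw [hrdef, ← QuotientGroup.mk_pow, QuotientGroup.eq_one_iff, Subgroup.mem_subgroupOf]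
    rw [Subgroup.coe_pow]
    apply hcent
    · have e : ρ ^ 3 * e1 * (ρ ^ 3)⁻¹ = ρ * (ρ * (ρ * e1 * ρ⁻¹) * ρ⁻¹) * ρ⁻¹ := by
        rw [p3]; group
      rw [e, hc1, hc2, hc3]
    · have e : ρ ^ 3 * e2 * (ρ ^ 3)⁻¹ = ρ * (ρ * (ρ * e2 * ρ⁻¹) * ρ⁻¹) * ρ⁻¹ := by
        rw [p3]; group
      rw [e, hc2, hc3, hc1]
  have hr1 : r ≠ 1 := by
    intro h
    rw [hrdef, QuotientGroup.eq_one_iff, Subgroup.mem_subgroupOf] at h
    have h3 := Subgroup.mem_centralizer_iff.mp h e1 he1E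
    have h4 : (ρ : X) * e1 * ρ⁻¹ = e1 := by
      show ρ * e1 * ρ⁻¹ = e1
      have h3' : e1 * ρ = ρ * e1 := h3
      rw [← h3']
      group
    rw [hc1] at h4
    exact hne h4.symm
  have hro : orderOf r = 3 := orderOf_eq_prime hr3 hr1
  have hinv1 : a1⁻¹ * e2 * a1 = e2 * e1 := by
    have h : a1⁻¹ * (a1 * (e2 * e1) * a1⁻¹) * a1 = e2 * e1 := by group
    rw [ha1e3] at h
    exact h
  have hinv2 : a1⁻¹ * (e2 * e1) * a1 = e2 := by
    have h : a1⁻¹ * (a1 * e2 * a1⁻¹) * a1 = e2 := by group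
    rw [ha1e2] at h
    exact h
  have hsr : s * r * s⁻¹ = r⁻¹ := by
    rw [eq_inv_iff_mul_eq_one, hsdef, hrdef, ← QuotientGroup.mk_inv, ← QuotientGroup.mk_mul,
      ← QuotientGroup.mk_mul, ← QuotientGroup.mk_mul, QuotientGroup.eq_one_iff,
      Subgroup.mem_subgroupOf]
    show a1 * ρ * a1⁻¹ * ρ ∈ Subgroup.centralizer (E : Set X)
    apply hcent
    · have e : a1 * ρ * a1⁻¹ * ρ * e1 * (a1 * ρ * a1⁻¹ * ρ)⁻¹ =
          a1 * (ρ * (a1⁻¹ * (ρ * e1 * ρ⁻¹) * a1) * ρ⁻¹) * a1⁻¹ := by group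
      rw [e, hc1, hinv1, hc3, ha1e1]
    · have e : a1 * ρ * a1⁻¹ * ρ * e2 * (a1 * ρ * a1⁻¹ * ρ)⁻¹ =
          a1 * (ρ * (a1⁻¹ * (ρ * e2 * ρ⁻¹) * a1) * ρ⁻¹) * a1⁻¹ := by group
      rw [e, hc2, hinv2, hc2, ha1e3]
  have hD := involves_dihedral_of_inverted_prime (p := 3) (by norm_num) s r hs2 hro hsr
  obtain ⟨f⟩ := dihedral_three_iso
  exact Cfsg.Agent.S2759.backward E hE2 (involves_congr_left hD f)

end Cfsg.Agent.Lib.Helper17
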