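import Mathlib
import Cfsg.Agent.Lib.Helper17.TransS4

set_option autoImplicit false

/-!
Transvections on a normal abelian `2`-subgroup: pairs, and the Baer–Suzuki consequence.
-/

namespace Cfsg.Agent.Lib.Helper17

universe u

variable {X : Type u} [Group X]

/-- `a` acts on `V` as a transvection with centre `e`. -/
def IsTV (V : Subgroup X) (a e : X) : Prop :=
  e ∈ V ∧ e * e = 1 ∧ a * e * a⁻¹ = e ∧ ∀ v ∈ V, a * v * a⁻¹ = v ∨ a * v * a⁻¹ = v * e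

theorem IsTV.conj {V : Subgroup X} [hV : V.Normal] {a e : X} (h : IsTV V a e) (g : X) :
    IsTV V (g * a * g⁻¹) (g * e * g⁻¹) := by
  obtain ⟨heV, he2, hae, hav⟩ := h
  refine ⟨hV.conj_mem e heV g, ?_, ?_, ?_⟩
  · calc g * e * g⁻¹ * (g * e * g⁻¹) = g * (e * e) * g⁻¹ := by group
      _ = 1 := by rw [he2]; group
  · calc g * a * g⁻¹ * (g * e * g⁻¹) * (g * a * g⁻¹)⁻¹ = g * (a * e * a⁻¹) * g⁻¹ := by group
      _ = g * e * g⁻¹ := by rw [hae]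
  · intro v hv
    have hv' : g⁻¹ * v * g ∈ V := by
      have := hV.conj_mem v hv g⁻¹
      rwa [inv_inv] at this
    have e0 : g * a * g⁻¹ * v * (g * a * g⁻¹)⁻¹ = g * (a * (g⁻¹ * v * g) * a⁻¹) * g⁻¹ := by
      group
    rcases hav _ hv' with h | h
    · left
      rw [e0, h]
      group
    · right
      rw [e0, h]
      group

theorem IsTV.sq_mem {V : Subgroup X} {a e : X} (h : IsTV V a e) :
    a * a ∈ Subgroup.centralizer (V : Set X) := by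
  obtain ⟨heV, he2, hae, hav⟩ := h
  rw [Subgroup.mem_centralizer_iff]
  intro v hv
  have key : a * a * v * (a * a)⁻¹ = v := by
    have e0 : a * a * v * (a * a)⁻¹ = a * (a * v * a⁻¹) * a⁻¹ := by group
    rcases hav v hv with h | h
    · rw [e0, h, h]
    · rw [e0, h, ← conj_mul, h, hae, mul_assoc, he2, mul_one]
  calc v * (a * a) = (a * a * v * (a * a)⁻¹) * (a * a) := by rw [key]
    _ = a * a * v := by group

set_option maxHeartbeats 1600000 in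
theorem tv_pair_pow_four [Finite X] (hS4 : ¬ Cfsg.Involves (Equiv.Perm (Fin 4)) X)
    (V : Subgroup X) (hVc : ∀ a ∈ V, ∀ b ∈ V, a * b = b * a)
    (a1 e1 a2 e2 : X) (t1 : IsTV V a1 e1) (t2 : IsTV V a2 e2) (ha1 : ∃ k : ℕ, a1 ^ (2 ^ k) = 1) :
    (a1 * a2) ^ 4 ∈ Subgroup.centralizer (V : Set X) := by
  obtain ⟨he1V, he1sq, ha1e1, hav1⟩ := t1
  obtain ⟨he2V, he2sq, ha2e2, hav2⟩ := t2
  have h12 : e1 * e2 = e2 * e1 := hVc e1 he1V e2 he2V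
  obtain ⟨ρ, hρdef⟩ : ∃ ρ : X, ρ = a1 * a2 := ⟨_, rfl⟩
  rw [← hρdef]
  obtain ⟨E, hEdef⟩ : ∃ E : Subgroup X, E = Subgroup.closure {e1, e2} := ⟨_, rfl⟩
  have he1E : e1 ∈ E := hEdef ▸ Subgroup.subset_closure (by simp)
  have he2E : e2 ∈ E := hEdef ▸ Subgroup.subset_closure (by simp)
  have hEV : E ≤ V := by
    rw [hEdef, Subgroup.closure_le]
    intro u hu
    rcases hu with rfl | rfl
    · exact he1V
    · exact he2V
  have hEsq : ∀ u ∈ E, u * u = 1 := by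
    intro u hu
    have key : ∀ w ∈ Subgroup.closure ({e1, e2} : Set X), w ∈ V ∧ w * w = 1 := by
      intro w hw
      induction hw using Subgroup.closure_induction with
      | mem x hx =>
        rcases hx with rfl | rfl
        · exact ⟨he1V, he1sq⟩
        · exact ⟨he2V, he2sq⟩
      | one => exact ⟨V.one_mem, by simp⟩
      | mul x y _ _ ihx ihy =>
        refine ⟨V.mul_mem ihx.1 ihy.1, ?_⟩
        calc x * y * (x * y) = x * (y * x) * y := by group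
          _ = x * (x * y) * y := by rw [hVc y ihy.1 x ihx.1]
          _ = (x * x) * (y * y) := by group
          _ = 1 := by rw [ihx.2, ihy.2, one_mul]
      | inv x _ ih =>
        refine ⟨V.inv_mem ih.1, ?_⟩
        calc x⁻¹ * x⁻¹ = (x * x)⁻¹ := by group
          _ = 1 := by rw [ih.2, inv_one]
    exact (key u (hEdef ▸ hu)).2
  have hnormE : ∀ g : X, g * e1 * g⁻¹ ∈ E → g * e2 * g⁻¹ ∈ E → ∀ u ∈ E, g * u * g⁻¹ ∈ E := by
    intro g hg1 hg2 u hu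
    have hle : E ≤ E.comap (MulAut.conj g).toMonoidHom := by
      conv_lhs => rw [hEdef]
      rw [Subgroup.closure_le]
      intro w hw
      rcases hw with rfl | rfl
      · exact hg1
      · exact hg2
    exact hle hu
  have h1n : ∀ u ∈ E, a1 * u * a1⁻¹ ∈ E := by
    apply hnormE
    · rw [ha1e1]; exact he1E
    · rcases hav1 e2 he2V with h | h
      · rw [h]; exact he2E
      · rw [h]; exact E.mul_mem he2E he1E
  have h2n : ∀ u ∈ E, a2 * u * a2⁻¹ ∈ E := by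
    apply hnormE
    · rcases hav2 e1 he1V with h | h
      · rw [h]; exact he1E
      · rw [h]; exact E.mul_mem he1E he2E
    · rw [ha2e2]; exact he2E
  have hρn : ∀ u ∈ E, ρ * u * ρ⁻¹ ∈ E := by
    intro u hu
    have e0 : ρ * u * ρ⁻¹ = a1 * (a2 * u * a2⁻¹) * a1⁻¹ := by rw [hρdef]; group
    rw [e0]
    exact h1n _ (h2n u hu)
  have hd1 : ∀ v ∈ V, a1 * v * a1⁻¹ * v⁻¹ ∈ E := by
    intro v hv
    rcases hav1 v hv with h | h
    · rw [h, mul_inv_cancel]; exact E.one_mem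
    · rw [h, hVc v hv e1 he1V, mul_inv_cancel_right]; exact he1E
  have hd2 : ∀ v ∈ V, a2 * v * a2⁻¹ * v⁻¹ ∈ E := by
    intro v hv
    rcases hav2 v hv with h | h
    · rw [h, mul_inv_cancel]; exact E.one_mem
    · rw [h, hVc v hv e2 he2V, mul_inv_cancel_right]; exact he2E
  have hdρ : ∀ v ∈ V, ρ * v * ρ⁻¹ * v⁻¹ ∈ E := by
    intro v hv
    have e0 : ρ * v * ρ⁻¹ * v⁻¹ =
        a1 * (a2 * v * a2⁻¹ * v⁻¹) * a1⁻¹ * (a1 * v * a1⁻¹ * v⁻¹) := by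
      rw [hρdef]; group
    rw [e0]
    exact E.mul_mem (h1n _ (hd2 v hv)) (hd1 v hv)
  have hρe1 : ρ * e1 * ρ⁻¹ = a1 * (a2 * e1 * a2⁻¹) * a1⁻¹ := by rw [hρdef]; group
  have hρe2 : ρ * e2 * ρ⁻¹ = a1 * (a2 * e2 * a2⁻¹) * a1⁻¹ := by rw [hρdef]; group
  have hfix : (ρ * ρ) * e1 * (ρ * ρ)⁻¹ = e1 ∧ (ρ * ρ) * e2 * (ρ * ρ)⁻¹ = e2 := by
    have sq : ∀ w, (ρ * ρ) * w * (ρ * ρ)⁻¹ = ρ * (ρ * w * ρ⁻¹) * ρ⁻¹ := fun w => by group
    have hA : a2 * e1 * a2⁻¹ = e1 ∨ (a2 * e1 * a2⁻¹ = e1 * e2 ∧ e2 ≠ 1) := by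
      rcases hav2 e1 he1V with h | h
      · exact Or.inl h
      · by_cases he : e2 = 1
        · left; rw [h, he, mul_one]
        · exact Or.inr ⟨h, he⟩
    have hB : a1 * e2 * a1⁻¹ = e2 ∨ (a1 * e2 * a1⁻¹ = e2 * e1 ∧ e1 ≠ 1) := by
      rcases hav1 e2 he2V with h | h
      · exact Or.inl h
      · by_cases he : e1 = 1
        · left; rw [h, he, mul_one]
        · exact Or.inr ⟨h, he⟩
    rcases hA with h21 | ⟨h21, hne2⟩ <;> rcases hB with h12' | ⟨h12', hne1⟩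
    · have r1 : ρ * e1 * ρ⁻¹ = e1 := by rw [hρe1, h21, ha1e1]
      have r2 : ρ * e2 * ρ⁻¹ = e2 := by rw [hρe2, ha2e2, h12']
      exact ⟨by rw [sq, r1, r1], by rw [sq, r2, r2]⟩
    · have r1 : ρ * e1 * ρ⁻¹ = e1 := by rw [hρe1, h21, ha1e1]
      have r2 : ρ * e2 * ρ⁻¹ = e2 * e1 := by rw [hρe2, ha2e2, h12']
      refine ⟨by rw [sq, r1, r1], ?_⟩
      rw [sq, r2, ← conj_mul, r2, r1, mul_assoc, he1sq, mul_one]
    · have r2 : ρ * e2 * ρ⁻¹ = e2 := by rw [hρe2, ha2e2, h12']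
      have r1 : ρ * e1 * ρ⁻¹ = e1 * e2 := by rw [hρe1, h21, ← conj_mul, ha1e1, h12']
      refine ⟨?_, by rw [sq, r2, r2]⟩
      rw [sq, r1, ← conj_mul, r1, r2, mul_assoc, he2sq, mul_one]
    · exact absurd (involves_s4_of_klein e1 e2 a1 a2 he1sq he2sq h12 hne1 hne2 ha1e1 h12'
        ha2e2 h21 ha1) hS4
  have hfixE : ∀ w ∈ E, (ρ * ρ) * w * (ρ * ρ)⁻¹ = w := by
    intro w hw
    have hle : E ≤ Subgroup.centralizer {ρ * ρ} := by
      conv_lhs => rw [hEdef]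
      rw [Subgroup.closure_le]
      intro z hz
      rw [SetLike.mem_coe, Subgroup.mem_centralizer_iff]
      intro h hh
      rw [Set.mem_singleton_iff] at hh
      subst hh
      rcases hz with rfl | rfl
      · calc ρ * ρ * z = (ρ * ρ * z * (ρ * ρ)⁻¹) * (ρ * ρ) := by group
          _ = z * (ρ * ρ) := by rw [hfix.1]
      · calc ρ * ρ * z = (ρ * ρ * z * (ρ * ρ)⁻¹) * (ρ * ρ) := by group
          _ = z * (ρ * ρ) := by rw [hfix.2]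
    have h1 := Subgroup.mem_centralizer_iff.mp (hle hw) (ρ * ρ) rfl
    rw [h1]
    group
  rw [Subgroup.mem_centralizer_iff]
  intro v hv
  obtain ⟨u, hudef⟩ : ∃ u, u = ρ * v * ρ⁻¹ * v⁻¹ := ⟨_, rfl⟩
  have huE : u ∈ E := hudef ▸ hdρ v hv
  have hu'E : ρ * u * ρ⁻¹ ∈ E := hρn u huE
  have f1 : ρ * v * ρ⁻¹ = u * v := by rw [hudef]; group
  have f2 : ρ * ρ * v * (ρ * ρ)⁻¹ = (ρ * u * ρ⁻¹) * (u * v) := by
    calc ρ * ρ * v * (ρ * ρ)⁻¹ = ρ * (ρ * v * ρ⁻¹) * ρ⁻¹ := by group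
      _ = ρ * (u * v) * ρ⁻¹ := by rw [f1]
      _ = (ρ * u * ρ⁻¹) * (ρ * v * ρ⁻¹) := by group
      _ = (ρ * u * ρ⁻¹) * (u * v) := by rw [f1]
  have p4 : ρ ^ 4 = (ρ * ρ) * (ρ * ρ) := by simp [pow_succ, mul_assoc]
  have f4 : ρ ^ 4 * v * (ρ ^ 4)⁻¹ = v := by
    calc ρ ^ 4 * v * (ρ ^ 4)⁻¹
        = (ρ * ρ) * ((ρ * ρ) * v * (ρ * ρ)⁻¹) * (ρ * ρ)⁻¹ := by rw [p4]; group
      _ = (ρ * ρ) * ((ρ * u * ρ⁻¹) * (u * v)) * (ρ * ρ)⁻¹ := by rw [f2]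
      _ = ((ρ * ρ) * (ρ * u * ρ⁻¹) * (ρ * ρ)⁻¹) *
          (((ρ * ρ) * u * (ρ * ρ)⁻¹) * ((ρ * ρ) * v * (ρ * ρ)⁻¹)) := by group
      _ = (ρ * u * ρ⁻¹) * (u * ((ρ * u * ρ⁻¹) * (u * v))) := by
          rw [hfixE _ hu'E, hfixE _ huE, f2]
      _ = ((ρ * u * ρ⁻¹) * u) * ((ρ * u * ρ⁻¹) * u) * v := by simp only [mul_assoc]
      _ = v := by rw [hEsq _ (E.mul_mem hu'E huE), one_mul]
  calc v * ρ ^ 4 = (ρ ^ 4 * v * (ρ ^ 4)⁻¹) * ρ ^ 4 := by rw [f4]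
    _ = ρ ^ 4 * v := by group

theorem isPGroup_two_closure_pair {Y : Type*} [Group Y] (s1 s2 : Y) (h1 : s1 * s1 = 1)
    (h2 : s2 * s2 = 1) (h4 : (s1 * s2) ^ 4 = 1) :
    IsPGroup 2 (Subgroup.closure ({s1, s2} : Set Y)) := by
  obtain ⟨ρ, hρ⟩ : ∃ ρ, ρ = s1 * s2 := ⟨_, rfl⟩
  have hρ4 : ρ ^ 4 = 1 := hρ ▸ h4
  have hs1inv : s1⁻¹ = s1 := inv_eq_of_mul_eq_one_left h1
  have hs2inv : s2⁻¹ = s2 := inv_eq_of_mul_eq_one_left h2
  have hconj : s1 * ρ * s1⁻¹ = ρ⁻¹ := by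
    rw [hρ, hs1inv, mul_inv_rev, hs1inv, hs2inv, ← mul_assoc, h1, one_mul]
  have hz : ∀ i : ℤ, s1 * ρ ^ i = ρ ^ (-i) * s1 := by
    intro i
    have h : s1 * ρ ^ i * s1⁻¹ = ρ ^ (-i) := by
      rw [← conj_zpow, hconj, inv_zpow, zpow_neg]
    calc s1 * ρ ^ i = (s1 * ρ ^ i * s1⁻¹) * s1 := by group
      _ = ρ ^ (-i) * s1 := by rw [h]
  have hrefl : ∀ i j : ℤ, ρ ^ i * s1 * (ρ ^ j * s1) = ρ ^ (i + -j) := by
    intro i j
    calc ρ ^ i * s1 * (ρ ^ j * s1) = ρ ^ i * (s1 * ρ ^ j) * s1 := by simp only [mul_assoc]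
      _ = ρ ^ i * (ρ ^ (-j) * s1) * s1 := by rw [hz]
      _ = ρ ^ i * ρ ^ (-j) * (s1 * s1) := by simp only [mul_assoc]
      _ = ρ ^ (i + -j) := by rw [h1, mul_one, zpow_add]
  have key : ∀ g ∈ Subgroup.closure ({s1, s2} : Set Y), ∃ i : ℤ, g = ρ ^ i ∨ g = ρ ^ i * s1 := by
    intro g hg
    induction hg using Subgroup.closure_induction with
    | mem x hx =>
      rcases hx with rfl | hx
      · exact ⟨0, Or.inr (by simp)⟩
      · rw [Set.mem_singleton_iff] at hx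
        refine ⟨-1, Or.inr ?_⟩
        have h := hz 1
        rw [zpow_one] at h
        rw [← h, hx, hρ, ← mul_assoc, h1, one_mul]
    | one => exact ⟨0, Or.inl (by simp)⟩
    | mul x y _ _ ihx ihy =>
      obtain ⟨i, hi | hi⟩ := ihx <;> obtain ⟨j, hj | hj⟩ := ihy
      · exact ⟨i + j, Or.inl (by rw [hi, hj, zpow_add])⟩
      · exact ⟨i + j, Or.inr (by rw [hi, hj, zpow_add, mul_assoc])⟩
      · refine ⟨i + -j, Or.inr ?_⟩
        calc x * y = ρ ^ i * (s1 * ρ ^ j) := by rw [hi, hj, mul_assoc]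
          _ = ρ ^ i * (ρ ^ (-j) * s1) := by rw [hz]
          _ = ρ ^ (i + -j) * s1 := by rw [← mul_assoc, zpow_add]
      · exact ⟨i + -j, Or.inl (by rw [hi, hj, hrefl])⟩
    | inv x _ ih =>
      obtain ⟨i, hi | hi⟩ := ih
      · exact ⟨-i, Or.inl (by rw [hi, zpow_neg])⟩
      · refine ⟨i, Or.inr ?_⟩
        calc x⁻¹ = s1⁻¹ * (ρ ^ i)⁻¹ := by rw [hi, mul_inv_rev]
          _ = s1 * ρ ^ (-i) := by rw [hs1inv, zpow_neg]
          _ = ρ ^ (- -i) * s1 := hz (-i)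
          _ = ρ ^ i * s1 := by rw [neg_neg]
  rintro ⟨g, hg⟩
  obtain ⟨i, hi | hi⟩ := key g hg
  · refine ⟨2, Subtype.ext ?_⟩
    have e4 : (2 : ℕ) ^ 2 = 4 := by norm_num
    have h : (ρ ^ i) ^ (4 : ℕ) = 1 := by
      rw [← zpow_natCast, ← zpow_mul, mul_comm, zpow_mul, zpow_natCast, hρ4, one_zpow]
    rw [e4, Subgroup.coe_pow, Subgroup.coe_one]
    show g ^ 4 = 1
    rw [hi, h]
  · refine ⟨1, Subtype.ext ?_⟩
    rw [Subgroup.coe_pow, Subgroup.coe_one, pow_one, pow_two]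
    show g * g = 1
    rw [hi, hrefl, add_neg_cancel, zpow_zero]

theorem tv_normal_two [Finite X] (hS4 : ¬ Cfsg.Involves (Equiv.Perm (Fin 4)) X)
    (V : Subgroup X) [hV : V.Normal] (hVc : ∀ a ∈ V, ∀ b ∈ V, a * b = b * a)
    (a e : X) (hTV : IsTV V a e) (ha : ∃ k : ℕ, a ^ (2 ^ k) = 1) (S : Sylow 2 X) :
    ∃ N : Subgroup X, N.Normal ∧ a ∈ N ∧
      ∀ n ∈ N, ∃ s ∈ (S : Subgroup X), ∃ c ∈ Subgroup.centralizer (V : Set X), n = s * c := by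
  have : Fact (Nat.Prime 2) := ⟨Nat.prime_two⟩
  obtain ⟨π, hπdef⟩ : ∃ π : X →* X ⧸ Subgroup.centralizer (V : Set X),
      π = QuotientGroup.mk' _ := ⟨_, rfl⟩
  have hπs : Function.Surjective π := hπdef ▸ QuotientGroup.mk'_surjective _
  have hπker : ∀ g : X, π g = 1 ↔ g ∈ Subgroup.centralizer (V : Set X) := by
    intro g
    rw [hπdef]
    exact QuotientGroup.eq_one_iff g
  obtain ⟨K, hK⟩ : ∃ K : Set (X ⧸ Subgroup.centralizer (V : Set X)),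
      K = {w | ∃ h : X, w = π (h * a * h⁻¹)} := ⟨_, rfl⟩
  have hconj : ∀ g, ∀ w ∈ K, g * w * g⁻¹ ∈ K := by
    intro g w hw
    rw [hK] at hw ⊢
    obtain ⟨h, rfl⟩ := hw
    obtain ⟨g₀, rfl⟩ := hπs g
    refine ⟨g₀ * h, ?_⟩
    rw [← map_inv, ← map_mul, ← map_mul]
    congr 1
    group
  have hpair : ∀ w₁ ∈ K, ∀ w₂ ∈ K,
      IsPGroup 2 (Subgroup.closure ({w₁, w₂} : Set (X ⧸ Subgroup.centralizer (V : Set X)))) := by
    intro w₁ hw₁ w₂ hw₂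
    rw [hK] at hw₁ hw₂
    obtain ⟨g₁, rfl⟩ := hw₁
    obtain ⟨g₂, rfl⟩ := hw₂
    have t1 := hTV.conj g₁
    have t2 := hTV.conj g₂
    have hk1 : ∃ k : ℕ, (g₁ * a * g₁⁻¹) ^ (2 ^ k) = 1 := by
      obtain ⟨k, hk⟩ := ha
      exact ⟨k, by rw [conj_pow, hk]; group⟩
    apply isPGroup_two_closure_pair
    · rw [← map_mul, hπker]
      exact t1.sq_mem
    · rw [← map_mul, hπker]
      exact t2.sq_mem
    · rw [← map_mul, ← map_pow, hπker]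
      exact tv_pair_pow_four hS4 V hVc _ _ _ _ t1 t2 hk1
  obtain ⟨N₀, hN₀n, hN₀p, hKN⟩ := Cfsg.Agent.S0199.baer_suzuki_set (p := 2) K hconj hpair
  refine ⟨N₀.comap π, hN₀n.comap π, ?_, ?_⟩
  · rw [Subgroup.mem_comap]
    apply hKN
    rw [hK]
    exact ⟨1, by simp⟩
  · intro n hn
    have hle : N₀ ≤ ((S.mapSurjective hπs : Sylow 2 _) : Subgroup _) := by
      have := hN₀n
      exact hN₀p.le_sylow_of_normal _
    have h1 := hle (Subgroup.mem_comap.mp hn)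
    rw [Sylow.coe_mapSurjective] at h1
    obtain ⟨s, hs, hsn⟩ := Subgroup.mem_map.mp h1
    refine ⟨s, hs, s⁻¹ * n, ?_, by group⟩
    rw [← hπker, map_mul, map_inv, hsn, inv_mul_cancel]

end Cfsg.Agent.Lib.Helper17
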