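import Mathlib
import Cfsg.Agent.Lib.Helper17.TransS4b
import Cfsg.Agent.Lib.Helper17.ThA1
import Cfsg.Agent.Lib.Helper14.WClosure6
import Cfsg.Agent.Lib.Helper5.OrbFam

set_option autoImplicit false

/-!
Glauberman's weak closure theorem for `p = 2` in groups not involving the symmetric group of
degree four: the local statement.
-/

namespace Cfsg.Agent.Lib.Helper17

open Cfsg

universe u

variable {X : Type u} [Group X]

/-- Two abelian subgroups that commute elementwise generate an abelian subgroup. -/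
theorem comm_sup (H K : Subgroup X) (hH : ∀ a ∈ H, ∀ b ∈ H, a * b = b * a)
    (hK : ∀ a ∈ K, ∀ b ∈ K, a * b = b * a) (hHK : ∀ a ∈ H, ∀ b ∈ K, a * b = b * a) :
    ∀ a ∈ H ⊔ K, ∀ b ∈ H ⊔ K, a * b = b * a := by
  have hcH : H ⊔ K ≤ Subgroup.centralizer (H : Set X) := by
    refine sup_le ?_ ?_
    · intro a ha
      rw [Subgroup.mem_centralizer_iff]
      intro b hb
      exact hH b hb a ha
    · intro a ha
      rw [Subgroup.mem_centralizer_iff]
      intro b hb
      exact hHK b hb a ha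
  have hcK : H ⊔ K ≤ Subgroup.centralizer (K : Set X) := by
    refine sup_le ?_ ?_
    · intro a ha
      rw [Subgroup.mem_centralizer_iff]
      intro b hb
      exact (hHK a ha b hb).symm
    · intro a ha
      rw [Subgroup.mem_centralizer_iff]
      intro b hb
      exact hK b hb a ha
  have h1 : H ⊔ K ≤ Subgroup.centralizer ((H ⊔ K : Subgroup X) : Set X) := by
    refine sup_le ?_ ?_
    · intro a ha
      rw [Subgroup.mem_centralizer_iff]
      intro b hb
      exact (Subgroup.mem_centralizer_iff.mp (hcH hb) a ha).symm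
    · intro a ha
      rw [Subgroup.mem_centralizer_iff]
      intro b hb
      exact (Subgroup.mem_centralizer_iff.mp (hcK hb) a ha).symm
  intro a ha b hb
  exact (Subgroup.mem_centralizer_iff.mp (h1 ha) b hb).symm

/-- If `A` is an abelian subgroup of largest order of `T`, normalized by the normal abelian
subgroup `V ≤ T`, with `|A ∩ V|` largest among such subgroups not centralizing `V`, and some
`w ∈ V` has `|A : C_A(w)| = 2`, then the elements of `A` outside `C_A(w)` are transvections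
on `V`. -/
theorem tv_of_orbit_two [Finite X] (T V A : Subgroup X) [hVn : V.Normal]
    (hVc : ∀ a ∈ V, ∀ b ∈ V, a * b = b * a) (hVT : V ≤ T) (hA : A ∈ maxAb T)
    (hAV : V ≤ Subgroup.normalizer (A : Set X))
    (hmaxA : ∀ B ∈ maxAb T, ¬ B ≤ Subgroup.centralizer (V : Set X) →
      V ≤ Subgroup.normalizer (B : Set X) → Nat.card ↥(B ⊓ V) ≤ Nat.card ↥(A ⊓ V))
    (w : X) (hwV : w ∈ V) (a : X) (haA : a ∈ A) (haw : a * w ≠ w * a)
    (horb : ∀ b ∈ A, b * w = w * b ∨ (a⁻¹ * b) * w = w * (a⁻¹ * b)) :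
    ∃ e, IsTV V a e := by
  obtain ⟨hAT, hAc, hAmax⟩ := hA
  obtain ⟨A1, hA1def⟩ : ∃ A1 : Subgroup X, A1 = A ⊓ Subgroup.centralizer ({w} : Set X) :=
    ⟨_, rfl⟩
  have hA1A : A1 ≤ A := by
    rw [hA1def]
    exact inf_le_left
  have hA1w : ∀ b ∈ A1, b * w = w * b := by
    intro b hb
    rw [hA1def] at hb
    exact (Subgroup.mem_centralizer_iff.mp (Subgroup.mem_inf.mp hb).2 w
      (Set.mem_singleton w)).symm
  have hmemA1 : ∀ b ∈ A, b * w = w * b → b ∈ A1 := by
    intro b hb hbw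
    rw [hA1def]
    refine Subgroup.mem_inf.mpr ⟨hb, ?_⟩
    rw [Subgroup.mem_centralizer_iff]
    intro h hh
    rw [Set.mem_singleton_iff] at hh
    rw [hh]
    exact hbw.symm
  have hwA : w ∉ A := fun hw => haw (hAc a haA w hw)
  have hwA1 : w ∉ A1 := fun hw => hwA (hA1A hw)
  have hcard1 : Nat.card A ≤ 2 * Nat.card A1 := by
    have hsub : (A : Set X) ⊆ (A1 : Set X) ∪ (fun b => a * b) '' (A1 : Set X) := by
      intro b hb
      rcases horb b hb with h | h
      · exact Or.inl (hmemA1 b hb h)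
      · refine Or.inr ⟨a⁻¹ * b, hmemA1 _ (A.mul_mem (A.inv_mem haA) hb) h, ?_⟩
        show a * (a⁻¹ * b) = b
        group
    have h1 := Set.ncard_le_ncard hsub (Set.toFinite _)
    have h2 := Set.ncard_union_le (A1 : Set X) ((fun b => a * b) '' (A1 : Set X))
    have h3 := Set.ncard_image_le (f := fun b => a * b) (Set.toFinite (A1 : Set X))
    have e1 : Nat.card A = (A : Set X).ncard := Nat.card_coe_set_eq (A : Set X)
    have e2 : Nat.card A1 = (A1 : Set X).ncard := Nat.card_coe_set_eq (A1 : Set X)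
    omega
  obtain ⟨Ab, hAbdef⟩ : ∃ Ab : Subgroup X, Ab = A1 ⊔ Subgroup.zpowers w := ⟨_, rfl⟩
  have hA1c : ∀ a ∈ A1, ∀ b ∈ A1, a * b = b * a :=
    fun a ha b hb => hAc a (hA1A ha) b (hA1A hb)
  have hzV : Subgroup.zpowers w ≤ V := (Subgroup.zpowers_le).mpr hwV
  have hzc : ∀ a ∈ Subgroup.zpowers w, ∀ b ∈ Subgroup.zpowers w, a * b = b * a :=
    fun a ha b hb => hVc a (hzV ha) b (hzV hb)
  have hA1z : ∀ a ∈ A1, ∀ b ∈ Subgroup.zpowers w, a * b = b * a := by
    intro b hb c hc
    have hle : Subgroup.zpowers w ≤ Subgroup.centralizer ({b} : Set X) := by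
      rw [Subgroup.zpowers_le, Subgroup.mem_centralizer_iff]
      intro h hh
      rw [Set.mem_singleton_iff] at hh
      rw [hh]
      exact hA1w b hb
    exact Subgroup.mem_centralizer_iff.mp (hle hc) b (Set.mem_singleton b)
  have hAbc : ∀ a ∈ Ab, ∀ b ∈ Ab, a * b = b * a := by
    rw [hAbdef]
    exact comm_sup A1 (Subgroup.zpowers w) hA1c hzc hA1z
  have hAbT : Ab ≤ T := by
    rw [hAbdef]
    exact sup_le (hA1A.trans hAT) (hzV.trans hVT)
  have hA1Ab : A1 ≤ Ab := by
    rw [hAbdef]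
    exact le_sup_left
  have hwAb : w ∈ Ab := by
    rw [hAbdef]
    exact (le_sup_right : Subgroup.zpowers w ≤ _) (Subgroup.mem_zpowers w)
  have hlt : A1 < Ab := by
    refine lt_of_le_of_ne hA1Ab ?_
    intro h
    apply hwA1
    rw [h]
    exact hwAb
  have hcardlt : 2 * Nat.card A1 ≤ Nat.card Ab := by
    have hdvd : Nat.card A1 ∣ Nat.card Ab := Subgroup.card_dvd_of_le hA1Ab
    have hl := card_lt_of_lt' hlt
    obtain ⟨k, hk⟩ := hdvd
    have h2k : 2 ≤ k := by
      by_contra hk2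
      have hk01 : k = 0 ∨ k = 1 := by omega
      rcases hk01 with rfl | rfl
      · rw [Nat.mul_zero] at hk
        omega
      · rw [Nat.mul_one] at hk
        omega
    calc 2 * Nat.card A1 = Nat.card A1 * 2 := by ring
      _ ≤ Nat.card A1 * k := Nat.mul_le_mul_left _ h2k
      _ = Nat.card Ab := hk.symm
  have hAbcard : Nat.card Ab = Nat.card A := le_antisymm (hAmax Ab hAbT hAbc) (by omega)
  have hAbmax : Ab ∈ maxAb T :=
    ⟨hAbT, hAbc, fun B hB hBc => by rw [hAbcard]; exact hAmax B hB hBc⟩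
  have hVA1 : ∀ v ∈ V, ∀ b ∈ A1, v * b * v⁻¹ ∈ A1 := by
    intro v hv b hb
    have h1 : v * b * v⁻¹ ∈ A := (Subgroup.mem_normalizer_iff.mp (hAV hv) b).mp (hA1A hb)
    refine hmemA1 _ h1 ?_
    have hvw : v * w = w * v := hVc v hv w hwV
    have hvw' : v⁻¹ * w = w * v⁻¹ := hVc _ (V.inv_mem hv) w hwV
    calc v * b * v⁻¹ * w = v * b * (v⁻¹ * w) := by group
      _ = v * (b * w) * v⁻¹ := by rw [hvw']; group
      _ = v * w * b * v⁻¹ := by rw [hA1w b hb]; group
      _ = w * (v * b * v⁻¹) := by rw [hvw]; group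
  have hVAb : V ≤ Subgroup.normalizer (Ab : Set X) := by
    intro v hv
    apply Cfsg.Agent.Lib.Helper19.mem_normalizer_of_forall_conj_mem
    have hle : A1 ⊔ Subgroup.zpowers w ≤ Ab.comap (MulAut.conj v).toMonoidHom := by
      refine sup_le ?_ ?_
      · intro b hb
        rw [Subgroup.mem_comap]
        show v * b * v⁻¹ ∈ Ab
        exact hA1Ab (hVA1 v hv b hb)
      · intro c hc
        rw [Subgroup.mem_comap]
        show v * c * v⁻¹ ∈ Ab
        have hcV := hzV hc
        have e : v * c * v⁻¹ = c := by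
          rw [hVc v hv c hcV]
          group
        rw [e, hAbdef]
        exact (le_sup_right : Subgroup.zpowers w ≤ _) hc
    intro h hh
    rw [hAbdef] at hh
    exact hle hh
  have hlt2 : A ⊓ V < Ab ⊓ V := by
    refine lt_of_le_of_ne ?_ ?_
    · intro c hc
      obtain ⟨hcA, hcV⟩ := Subgroup.mem_inf.mp hc
      exact Subgroup.mem_inf.mpr ⟨hA1Ab (hmemA1 c hcA (hVc c hcV w hwV)), hcV⟩
    · intro h
      have hw2 : w ∈ A ⊓ V := by
        rw [h]
        exact Subgroup.mem_inf.mpr ⟨hwAb, hwV⟩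
      exact hwA (Subgroup.mem_inf.mp hw2).1
  have hAbC : Ab ≤ Subgroup.centralizer (V : Set X) := by
    by_contra hcon
    have h1 := hmaxA Ab hAbmax hcon hVAb
    have h2 := card_lt_of_lt' hlt2
    omega
  have hA1C : ∀ b ∈ A1, ∀ v ∈ V, b * v = v * b := by
    intro b hb v hv
    exact (Subgroup.mem_centralizer_iff.mp (hAbC (hA1Ab hb)) v hv).symm
  obtain ⟨B, hBdef⟩ : ∃ B : Subgroup X, B = A1 ⊔ V := ⟨_, rfl⟩
  have hBc : ∀ a ∈ B, ∀ b ∈ B, a * b = b * a := by
    rw [hBdef]
    exact comm_sup A1 V hA1c hVc hA1C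
  have hBT : B ≤ T := by
    rw [hBdef]
    exact sup_le (hA1A.trans hAT) hVT
  have hBcard : Nat.card B ≤ 2 * Nat.card A1 := le_trans (hAmax B hBT hBc) hcard1
  have hA1B : A1 ≤ B := by
    rw [hBdef]
    exact le_sup_left
  have hVB : V ≤ B := by
    rw [hBdef]
    exact le_sup_right
  have hidx : (A1.subgroupOf B).index = 2 := by
    have h1 : Nat.card (A1.subgroupOf B) * (A1.subgroupOf B).index = Nat.card B :=
      Subgroup.card_mul_index _
    have h2 : Nat.card (A1.subgroupOf B) = Nat.card A1 :=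
      Nat.card_congr (Subgroup.subgroupOfEquivOfLe hA1B).toEquiv
    rw [h2] at h1
    have hpos : 0 < Nat.card A1 := Nat.card_pos
    have hposB : 0 < Nat.card B := Nat.card_pos
    have hne1 : (A1.subgroupOf B).index ≠ 1 := by
      intro h
      rw [Subgroup.index_eq_one, Subgroup.subgroupOf_eq_top] at h
      exact hwA1 (h (hVB hwV))
    have hne0 : (A1.subgroupOf B).index ≠ 0 := by
      intro h
      rw [h, Nat.mul_zero] at h1
      omega
    have hle2 : (A1.subgroupOf B).index ≤ 2 := by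
      by_contra hcon
      have h3 : 3 ≤ (A1.subgroupOf B).index := by omega
      have h4 : Nat.card A1 * 3 ≤ Nat.card A1 * (A1.subgroupOf B).index :=
        Nat.mul_le_mul_left _ h3
      omega
    omega
  have hdich : ∀ v ∈ V, v ∈ A1 ∨ w⁻¹ * v ∈ A1 := by
    intro v hv
    by_cases hvA1 : v ∈ A1
    · exact Or.inl hvA1
    · right
      have hwi : w⁻¹ ∉ A1 := fun h => hwA1 (by simpa using A1.inv_mem h)
      have key := Subgroup.mul_mem_iff_of_index_two hidx
        (a := (⟨w⁻¹, hVB (V.inv_mem hwV)⟩ : ↥B)) (b := (⟨v, hVB hv⟩ : ↥B))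
      have h1 : (⟨w⁻¹, hVB (V.inv_mem hwV)⟩ : ↥B) * ⟨v, hVB hv⟩ ∈ A1.subgroupOf B := by
        rw [key]
        constructor
        · intro h
          exact absurd (Subgroup.mem_subgroupOf.mp h) hwi
        · intro h
          exact absurd (Subgroup.mem_subgroupOf.mp h) hvA1
      exact Subgroup.mem_subgroupOf.mp h1
  obtain ⟨e, hedef⟩ : ∃ e : X, e = a * w * a⁻¹ * w⁻¹ := ⟨_, rfl⟩
  have heV : e ∈ V := by
    rw [hedef]
    exact V.mul_mem (hVn.conj_mem w hwV a) (V.inv_mem hwV)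
  have heA : e ∈ A := by
    have h1 : w * a⁻¹ * w⁻¹ ∈ A :=
      (Subgroup.mem_normalizer_iff.mp (hAV hwV) a⁻¹).mp (A.inv_mem haA)
    have e1 : e = a * (w * a⁻¹ * w⁻¹) := by
      rw [hedef]
      group
    rw [e1]
    exact A.mul_mem haA h1
  have hae : a * e * a⁻¹ = e := by
    rw [hAc a haA e heA]
    group
  have hawe : a * w * a⁻¹ = w * e := by
    have h1 : a * w * a⁻¹ = e * w := by
      rw [hedef]
      group
    rw [h1]
    exact hVc e heV w hwV
  have haa : (a * a) * w = w * (a * a) := by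
    rcases horb (a * a) (A.mul_mem haA haA) with h | h
    · exact h
    · exfalso
      apply haw
      have e1 : a⁻¹ * (a * a) = a := by group
      rw [e1] at h
      exact h
  have hee : e * e = 1 := by
    have h1 : a * (a * w * a⁻¹) * a⁻¹ = w := by
      calc a * (a * w * a⁻¹) * a⁻¹ = (a * a) * w * (a * a)⁻¹ := by group
        _ = w := by rw [haa]; group
    have h2 : a * (a * w * a⁻¹) * a⁻¹ = w * (e * e) := by
      rw [hawe]
      calc a * (w * e) * a⁻¹ = (a * w * a⁻¹) * (a * e * a⁻¹) := by group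
        _ = w * (e * e) := by rw [hawe, hae]; group
    have h3 : w * (e * e) = w * 1 := by rw [← h2, h1, mul_one]
    exact mul_left_cancel h3
  refine ⟨e, heV, hee, hae, ?_⟩
  intro v hv
  rcases hdich v hv with h | h
  · left
    rw [hAc a haA v (hA1A h)]
    group
  · right
    have h1 : a * (w⁻¹ * v) * a⁻¹ = w⁻¹ * v := by
      rw [hAc a haA _ (hA1A h)]
      group
    have h2 : e * (w⁻¹ * v) = (w⁻¹ * v) * e :=
      hVc e heV _ (V.mul_mem (V.inv_mem hwV) hv)
    calc a * v * a⁻¹ = (a * w * a⁻¹) * (a * (w⁻¹ * v) * a⁻¹) := by group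
      _ = w * e * (w⁻¹ * v) := by rw [hawe, h1]
      _ = w * (e * (w⁻¹ * v)) := by group
      _ = w * ((w⁻¹ * v) * e) := by rw [h2]
      _ = v * e := by group

/-- The local statement: in a finite group `X` not involving the symmetric group of degree four,
with `x ∈ O_2(X)` central in a Sylow `2`-subgroup `T`, centralized by `N_X(J(T))` and by every
proper subgroup containing `T`, the element `x` is central. -/
theorem glauberman_local_two [Finite X] (hS4 : ¬ Cfsg.Involves (Equiv.Perm (Fin 4)) X)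
    (T : Sylow 2 X) (x : X) (hxQ : x ∈ pCore 2 X)
    (hxS : ∀ s ∈ (T : Subgroup X), s * x = x * s)
    (hxN : ∀ m ∈ Subgroup.normalizer
      ((thompsonSubgroupAOf (T : Subgroup X) : Subgroup X) : Set X), m * x = x * m)
    (hmax : ∀ K : Subgroup X, (T : Subgroup X) ≤ K → K ≠ ⊤ → ∀ k ∈ K, k * x = x * k) :
    ∀ y : X, y * x = x * y := by
  have hp2 : Fact (Nat.Prime 2) := ⟨Nat.prime_two⟩
  by_contra hnot
  have hQT : pCore 2 X ≤ (T : Subgroup X) :=
    (Cfsg.Agent.Lib.Helper14.pCore_isPGroup 2).le_sylow_of_normal T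
  have hxT : x ∈ (T : Subgroup X) := hQT hxQ
  obtain ⟨V, hVdef⟩ : ∃ V : Subgroup X, V = Subgroup.normalClosure ({x} : Set X) := ⟨_, rfl⟩
  have hVn : V.Normal := by
    rw [hVdef]
    exact Subgroup.normalClosure_normal
  have hxV : x ∈ V := by
    rw [hVdef]
    exact Subgroup.subset_normalClosure (Set.mem_singleton x)
  have hVQ : V ≤ pCore 2 X := by
    rw [hVdef]
    apply Subgroup.normalClosure_le_normal
    intro b hb
    rw [Set.mem_singleton_iff] at hb
    rw [hb]
    exact hxQ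
  have hVT : V ≤ (T : Subgroup X) := hVQ.trans hQT
  have hVCQ : V ≤ Subgroup.centralizer ((pCore 2 X : Subgroup X) : Set X) := by
    rw [hVdef]
    apply Subgroup.normalClosure_le_normal
    intro b hb
    rw [Set.mem_singleton_iff] at hb
    rw [hb]
    show x ∈ Subgroup.centralizer ((pCore 2 X : Subgroup X) : Set X)
    rw [Subgroup.mem_centralizer_iff]
    intro q hq
    exact hxS q (hQT hq)
  have hVc : ∀ a ∈ V, ∀ b ∈ V, a * b = b * a := by
    intro a ha b hb
    exact Subgroup.mem_centralizer_iff.mp (hVCQ hb) a (hVQ ha)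
  have hQC : pCore 2 X ≤ Subgroup.centralizer (V : Set X) := by
    intro q hq
    rw [Subgroup.mem_centralizer_iff]
    intro v hv
    exact (Subgroup.mem_centralizer_iff.mp (hVCQ hv) q hq).symm
  have hmul : ∀ a b : X, a * x = x * a → b * x = x * b → (a * b) * x = x * (a * b) := by
    intro a b ha hb
    calc a * b * x = a * (b * x) := by group
      _ = a * x * b := by rw [hb]; group
      _ = x * (a * b) := by rw [ha]; group
  have hCx : ∀ n ∈ Subgroup.centralizer (V : Set X), n * x = x * n := by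
    intro n hn
    exact (Subgroup.mem_centralizer_iff.mp hn x hxV).symm
  have hTC : (T : Subgroup X) ⊓ Subgroup.centralizer (V : Set X) ≤ pCore 2 X :=
    Cfsg.Agent.Lib.Helper14.sylow_inf_le_pCore_of_max T (fun y => y * x = x * y) hmul hmax hnot
      (Subgroup.centralizer (V : Set X)) hCx
  -- Step 1: some abelian subgroup of largest order does not centralize `V`.
  have hstep1 : ∃ A ∈ maxAb (T : Subgroup X), ¬ A ≤ Subgroup.centralizer (V : Set X) := by
    by_contra hcon
    apply hnot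
    have hall : ∀ A ∈ maxAb (T : Subgroup X), A ≤ pCore 2 X := by
      intro A hA
      have h1 : A ≤ Subgroup.centralizer (V : Set X) := by
        by_contra h
        exact hcon ⟨A, hA, h⟩
      exact (le_inf hA.1 h1).trans hTC
    have hJ : thompsonSubgroupAOf (T : Subgroup X) = thompsonSubgroupAOf (pCore 2 X) :=
      thompsonSubgroupAOf_eq_of_le hQT hall
    intro y
    apply hxN y
    rw [hJ]
    apply normalizer_le_normalizer_thompsonSubgroupAOf
    rw [Subgroup.normalizer_eq_top]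
    exact Subgroup.mem_top y
  -- Step 2: one normalized by `V`.
  have hTnV : (T : Subgroup X) ≤ Subgroup.normalizer (V : Set X) := by
    rw [Subgroup.normalizer_eq_top]
    exact le_top
  obtain ⟨A0, hA0, hA0C, hA0V⟩ := exists_maxAb_normalized (T : Subgroup X) T.isPGroup' V hVT
    hTnV hVc hstep1
  obtain ⟨F0, hF0def⟩ : ∃ F0 : Set (Subgroup X), F0 = {A | A ∈ maxAb (T : Subgroup X) ∧
      ¬ A ≤ Subgroup.centralizer (V : Set X) ∧ V ≤ Subgroup.normalizer (A : Set X)} := ⟨_, rfl⟩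
  have hF0mem : ∀ A, A ∈ F0 ↔ (A ∈ maxAb (T : Subgroup X) ∧
      ¬ A ≤ Subgroup.centralizer (V : Set X) ∧ V ≤ Subgroup.normalizer (A : Set X)) := by
    intro A
    rw [hF0def]
    exact Iff.rfl
  obtain ⟨As, hAs, hAsmax⟩ := Set.exists_max_image F0 (fun A => Nat.card ↥(A ⊓ V))
    (Set.toFinite F0) ⟨A0, (hF0mem A0).mpr ⟨hA0, hA0C, hA0V⟩⟩
  obtain ⟨F, hFdef⟩ : ∃ F : Set (Subgroup X), F = {A | A ∈ F0 ∧
      ∀ B ∈ F0, Nat.card ↥(B ⊓ V) ≤ Nat.card ↥(A ⊓ V)} := ⟨_, rfl⟩
  have hFmem : ∀ A, A ∈ F ↔ (A ∈ F0 ∧ ∀ B ∈ F0, Nat.card ↥(B ⊓ V) ≤ Nat.card ↥(A ⊓ V)) := by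
    intro A
    rw [hFdef]
    exact Iff.rfl
  have hFT : ∀ A ∈ F, A ≤ (T : Subgroup X) := by
    intro A hA
    exact (((hF0mem A).mp ((hFmem A).mp hA).1).1).1
  have hFQ : ∃ A ∈ F, ¬ A ≤ pCore 2 X := by
    refine ⟨As, (hFmem As).mpr ⟨hAs, hAsmax⟩, ?_⟩
    intro h
    exact ((hF0mem As).mp hAs).2.1 (h.trans hQC)
  have hFconj : ∀ A ∈ F, ∀ g : X, A.map (MulAut.conj g).toMonoidHom ≤ (T : Subgroup X) →
      A.map (MulAut.conj g).toMonoidHom ∈ F := by
    intro A hA g hle
    obtain ⟨hA0', hAmax'⟩ := (hFmem A).mp hA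
    obtain ⟨⟨hAT, hAc, hAmx⟩, hAC, hAV⟩ := (hF0mem A).mp hA0'
    have hinj : Function.Injective (MulAut.conj g).toMonoidHom := (MulAut.conj g).injective
    have hF0' : A.map (MulAut.conj g).toMonoidHom ∈ F0 := by
      rw [hF0mem]
      refine ⟨⟨hle, ?_, ?_⟩, ?_, ?_⟩
      · rintro _ ⟨a, ha, rfl⟩ _ ⟨b, hb, rfl⟩
        rw [← map_mul, ← map_mul, hAc a ha b hb]
      · intro B hB hBc
        rw [Subgroup.card_map_of_injective hinj]
        exact hAmx B hB hBc
      · intro h
        apply hAC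
        intro a ha
        have h1 : g * a * g⁻¹ ∈ Subgroup.centralizer (V : Set X) := h ⟨a, ha, rfl⟩
        have h2 := (inferInstance : (Subgroup.centralizer (V : Set X)).Normal).conj_mem _ h1 g⁻¹
        have e : g⁻¹ * (g * a * g⁻¹) * g⁻¹⁻¹ = a := by group
        rw [e] at h2
        exact h2
      · intro v hv
        have h1 : g⁻¹ * v * g⁻¹⁻¹ ∈ Subgroup.normalizer (A : Set X) :=
          hAV (hVn.conj_mem v hv g⁻¹)
        have h2 : (MulAut.conj g).toMonoidHom (g⁻¹ * v * g⁻¹⁻¹) ∈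
            (Subgroup.normalizer (A : Set X)).map (MulAut.conj g).toMonoidHom :=
          Subgroup.mem_map_of_mem _ h1
        have e : (MulAut.conj g).toMonoidHom (g⁻¹ * v * g⁻¹⁻¹) = v := by
          show g * (g⁻¹ * v * g⁻¹⁻¹) * g⁻¹ = v
          group
        rw [e] at h2
        exact Subgroup.le_normalizer_map _ h2
    rw [hFmem]
    refine ⟨hF0', ?_⟩
    intro B hB
    refine le_trans (hAmax' B hB) ?_
    have h1 : (A ⊓ V).map (MulAut.conj g).toMonoidHom ≤
        A.map (MulAut.conj g).toMonoidHom ⊓ V := by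
      rintro _ ⟨a, ha, rfl⟩
      obtain ⟨haA, haV⟩ := Subgroup.mem_inf.mp ha
      exact Subgroup.mem_inf.mpr ⟨⟨a, haA, rfl⟩, hVn.conj_mem a haV g⟩
    have h2 := Subgroup.card_le_of_le h1
    rw [Subgroup.card_map_of_injective hinj] at h2
    exact h2
  have hForb : ∀ A ∈ F, ∀ v ∈ V, ∀ a ∈ A,
      (∀ b ∈ A, ∃ i : ℕ, i < 2 ∧ ((a ^ i)⁻¹ * b) * v = v * ((a ^ i)⁻¹ * b)) →
      a * v = v * a := by
    intro A hA v hv a ha horb
    by_contra hav
    obtain ⟨hA0', hAmax'⟩ := (hFmem A).mp hA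
    obtain ⟨hAm, hAC, hAV⟩ := (hF0mem A).mp hA0'
    have horb' : ∀ b ∈ A, b * v = v * b ∨ (a⁻¹ * b) * v = v * (a⁻¹ * b) := by
      intro b hb
      obtain ⟨i, hi, h⟩ := horb b hb
      have hi01 : i = 0 ∨ i = 1 := by omega
      rcases hi01 with rfl | rfl
      · left
        rw [pow_zero, inv_one, one_mul] at h
        exact h
      · right
        rw [pow_one] at h
        exact h
    have hmaxA : ∀ B ∈ maxAb (T : Subgroup X), ¬ B ≤ Subgroup.centralizer (V : Set X) →
        V ≤ Subgroup.normalizer (B : Set X) → Nat.card ↥(B ⊓ V) ≤ Nat.card ↥(A ⊓ V) :=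
      fun B hB h1 h2 => hAmax' B ((hF0mem B).mpr ⟨hB, h1, h2⟩)
    obtain ⟨e, hTV⟩ := tv_of_orbit_two (T : Subgroup X) V A hVc hVT hAm hAV hmaxA v hv a ha hav
      horb'
    have haT : a ∈ (T : Subgroup X) := hAm.1 ha
    have ha2 : ∃ k : ℕ, a ^ (2 ^ k) = 1 := by
      obtain ⟨k, hk⟩ := T.isPGroup' ⟨a, haT⟩
      exact ⟨k, congrArg Subtype.val hk⟩
    obtain ⟨N, hNn, haN, hN⟩ := tv_normal_two hS4 V hVc a e hTV ha2 T
    have hNx : ∀ n ∈ N, n * x = x * n := by
      intro n hn
      obtain ⟨s, hs, c, hc, rfl⟩ := hN n hn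
      exact hmul s c (hxS s hs) (hCx c hc)
    have hTN : (T : Subgroup X) ⊓ N ≤ pCore 2 X :=
      Cfsg.Agent.Lib.Helper14.sylow_inf_le_pCore_of_max T (fun y => y * x = x * y) hmul hmax
        hnot N hNx
    have haQ : a ∈ pCore 2 X := hTN (Subgroup.mem_inf.mpr ⟨haT, haN⟩)
    exact hav (Subgroup.mem_centralizer_iff.mp (hQC haQ) v hv).symm
  exact hnot (Cfsg.Agent.Lib.Helper5.OrbFam.central_of_orbit_family T V hVc F hFT hFconj hFQ
    hForb x hxV hxT hxS hmax)

end Cfsg.Agent.Lib.Helper17
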