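import Mathlib

set_option autoImplicit false

namespace Cfsg.Agent.Lib.Helper17

open Finset

theorem hw_sum_choose (n k : ℕ) : ∑ i ∈ range n, i.choose k = n.choose (k + 1) := by
  induction n with
  | zero => simp
  | succ n ih => rw [sum_range_succ, ih, Nat.choose_succ_succ, add_comm]

theorem hw_binom {A : Type*} [CommGroup A] (b : ℕ → ℕ → A)
    (hb : ∀ i j, b (i + 1) j = b i j * b i (j + 1)) (M : ℕ) :
    ∀ i, i ≤ M → ∀ j, b i j = ∏ k ∈ range (M + 1), b 0 (j + k) ^ (i.choose k) := by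
  intro i
  induction i with
  | zero =>
    intro _ j
    rw [prod_range_succ']
    simp
  | succ i ih =>
    intro hi j
    have hi' : i ≤ M := by omega
    rw [hb, ih hi' j, ih hi' (j + 1)]
    rw [prod_range_succ' (fun k => b 0 (j + k) ^ ((i + 1).choose k))]
    rw [prod_range_succ' (fun k => b 0 (j + k) ^ (i.choose k))]
    rw [prod_range_succ (fun k => b 0 (j + 1 + k) ^ (i.choose k))]
    have h0 : i.choose M = 0 := Nat.choose_eq_zero_of_lt (by omega)
    have e : ∀ k, j + 1 + k = j + (k + 1) := by intro k; omega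
    simp only [Nat.choose_succ_succ, pow_add, prod_mul_distrib, h0, pow_zero, mul_one,
      Nat.choose_zero_right, pow_one, add_zero, e]
    simp only [mul_comm, mul_left_comm]

theorem hw_engel_prod {A : Type*} [CommGroup A] {p : ℕ} (hp : p.Prime) (hA : ∀ a : A, a ^ p = 1)
    (b : ℕ → ℕ → A) (hb : ∀ i j, b (i + 1) j = b i j * b i (j + 1))
    (h0 : ∀ j, p - 1 ≤ j → b 0 j = 1) : ∏ i ∈ range p, b i 0 = 1 := by
  have e : p - 1 + 1 = p := by have := hp.pos; omega
  have h1 : ∀ i ∈ range p, b i 0 = ∏ k ∈ range p, b 0 k ^ (i.choose k) := by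
    intro i hi
    have hi' := mem_range.mp hi
    have h2 := hw_binom b hb (p - 1) i (by omega) 0
    rw [e] at h2
    rw [h2]
    simp
  rw [prod_congr rfl h1, prod_comm]
  apply prod_eq_one
  intro k hk
  rw [prod_pow_eq_pow_sum, hw_sum_choose]
  have hk' := mem_range.mp hk
  by_cases hkp : k + 1 < p
  · obtain ⟨c, hc⟩ := hp.dvd_choose_self (Nat.succ_ne_zero k) hkp
    rw [hc, pow_mul, hA, one_pow]
  · have h3 : p - 1 ≤ k := by omega
    rw [h0 k h3, one_pow]

theorem hw_engel_prod_mul {A : Type*} [CommGroup A] {p : ℕ} (hp : p.Prime)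
    (hA : ∀ a : A, a ^ p = 1)
    (b : ℕ → ℕ → A) (hb : ∀ i j, b (i + 1) j = b i j * b i (j + 1))
    (h0 : ∀ i j, p - 1 ≤ j → b i j = 1) (m : ℕ) : ∏ i ∈ range (p * m), b i 0 = 1 := by
  induction m with
  | zero => simp
  | succ m ih =>
    rw [Nat.mul_succ, prod_range_add, ih, one_mul]
    exact hw_engel_prod hp hA (fun i j => b (p * m + i) j)
      (fun i j => by show b (p * m + (i + 1)) j = _; rw [← add_assoc]; exact hb _ _)
      (fun j hj => h0 _ j hj)

theorem hw_prod_zmod {A : Type*} [CommMonoid A] (n : ℕ) [NeZero n] (φ : ℤ → A) :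
    ∏ k : ZMod n, φ (ZMod.cast k : ℤ) = ∏ i ∈ range n, φ (i : ℤ) := by
  cases n with
  | zero => exact absurd rfl (NeZero.ne 0)
  | succ n =>
    rw [← Fin.prod_univ_eq_prod_range (fun i => φ (i : ℤ)) (n + 1)]
    rfl

open Function MulAction Subgroup in
theorem hw_decomp {N : Type*} [Group N] [Finite N] {A : Type*} [CommGroup A]
    (M : Subgroup N) (z : N) [Fintype (N ⧸ M)]
    [Fintype (orbitRel.Quotient (zpowers z) (N ⧸ M))] (φ : N ⧸ M → A) :
    ∏ x : N ⧸ M, φ x = ∏ q : orbitRel.Quotient (zpowers z) (N ⧸ M),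
      ∏ i ∈ range (minimalPeriod (z • ·) q.out), φ (z ^ i • q.out) := by
  classical
  calc ∏ x : N ⧸ M, φ x = ∏ s, φ ((quotientEquivSigmaZMod M z).symm s) :=
        ((quotientEquivSigmaZMod M z).symm.prod_comp _).symm
    _ = ∏ q : orbitRel.Quotient (zpowers z) (N ⧸ M),
          ∏ k : ZMod (minimalPeriod (z • ·) q.out),
            φ ((quotientEquivSigmaZMod M z).symm ⟨q, k⟩) := Finset.prod_sigma _ _ _
    _ = _ := by
      refine Fintype.prod_congr _ _ (fun q => ?_)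
      simp only [quotientEquivSigmaZMod_symm_apply]
      rw [hw_prod_zmod _ (fun c : ℤ => φ (z ^ c • q.out))]
      simp only [zpow_natCast]

open Function MulAction Subgroup in
theorem hw_local {N : Type*} [Group N] [Finite N] {p : ℕ} [Fact p.Prime] {A : Type*}
    [CommGroup A] (hA : ∀ a : A, a ^ p = 1) (M T : Subgroup N) [hTn : T.Normal] (hTM : T ≤ M)
    (hidx : ¬ p ∣ M.index) (θ : N → A)
    (hθ : ∀ x ∈ M, ∀ y ∈ M, θ (x * y) = θ x * θ y)
    (z : N) (hzp : ∃ k : ℕ, z ^ (p ^ k) = 1)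
    (hfix : ∀ g : N, g⁻¹ * z * g ∈ M → ∀ t ∈ T, θ (g⁻¹ * t * g) = θ t)
    (hengel : ∀ t ∈ T, (fun y => y⁻¹ * z⁻¹ * y * z)^[p - 1] t = 1) :
    ∀ n : N, ∀ t ∈ T, θ (n * t * n⁻¹) = θ t := by
  classical
  have hp : p.Prime := Fact.out
  let _i1 : Fintype (N ⧸ M) := Fintype.ofFinite _
  let _i2 : Fintype (orbitRel.Quotient (zpowers z) (N ⧸ M)) := Fintype.ofFinite _
  have hθ1 : θ 1 = 1 := by
    have h1 := hθ 1 M.one_mem 1 M.one_mem
    rw [mul_one] at h1
    exact (mul_eq_left.mp h1.symm)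
  have hTc : ∀ t ∈ T, ∀ g : N, g⁻¹ * t * g ∈ T := by
    intro t ht g
    simpa using hTn.conj_mem t ht g⁻¹
  have hθconj : ∀ m ∈ M, ∀ y ∈ M, θ (m⁻¹ * y * m) = θ y := by
    intro m hm y hy
    have h2 := hθ m hm (m⁻¹ * y * m) (M.mul_mem (M.mul_mem (M.inv_mem hm) hy) hm)
    have e : m * (m⁻¹ * y * m) = y * m := by group
    rw [e, hθ y hy m hm, mul_comm] at h2
    exact (mul_left_cancel h2).symm
  obtain ⟨f, hfdef⟩ : ∃ f : N → N ⧸ M → A, f = fun t x => θ (x.out⁻¹ * t * x.out) := ⟨_, rfl⟩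
  have hf : ∀ t ∈ T, ∀ g : N, f t (g : N ⧸ M) = θ (g⁻¹ * t * g) := by
    intro t ht g
    obtain ⟨m, hm⟩ := QuotientGroup.mk_out_eq_mul M g
    rw [hfdef]
    show θ (_⁻¹ * t * _) = _
    rw [hm]
    have e : (g * (m : N))⁻¹ * t * (g * m) = (m : N)⁻¹ * (g⁻¹ * t * g) * m := by group
    rw [e]
    exact hθconj m m.2 _ (hTM (hTc t ht g))
  have hδT : ∀ t ∈ T, ∀ j : ℕ, (fun y => y⁻¹ * z⁻¹ * y * z)^[j] t ∈ T := by
    intro t ht j
    induction j with
    | zero => exact ht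
    | succ j ih =>
      rw [Function.iterate_succ_apply']
      have h1 := hTc _ ih z
      have h2 := T.mul_mem (T.inv_mem ih) h1
      have e : ((fun y => y⁻¹ * z⁻¹ * y * z)^[j] t)⁻¹ * (z⁻¹ * (fun y => y⁻¹ * z⁻¹ * y * z)^[j] t * z)
          = (fun y => y⁻¹ * z⁻¹ * y * z) ((fun y => y⁻¹ * z⁻¹ * y * z)^[j] t) := by
        show _ = _⁻¹ * z⁻¹ * _ * z
        group
      rw [e] at h2
      exact h2
  have horb : ∀ t ∈ T, ∀ q : orbitRel.Quotient (zpowers z) (N ⧸ M),
      ∏ i ∈ range (minimalPeriod (z • ·) q.out), f t (z ^ i • q.out) =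
        ∏ i ∈ range (minimalPeriod (z • ·) q.out), θ t := by
    intro t ht q
    obtain ⟨g, hg⟩ : ∃ g : N, (g : N ⧸ M) = q.out := ⟨q.out.out, QuotientGroup.out_eq' _⟩
    rw [← hg]
    obtain ⟨k, hk⟩ := hzp
    have hdvd : minimalPeriod (z • ·) (g : N ⧸ M) ∣ p ^ k := by
      apply Function.IsPeriodicPt.minimalPeriod_dvd
      show (z • ·)^[p ^ k] (g : N ⧸ M) = g
      rw [smul_iterate, hk]
      exact one_smul _ _
    obtain ⟨j, hj, hmp⟩ := (Nat.dvd_prime_pow hp).mp hdvd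
    rw [hmp]
    rcases Nat.eq_zero_or_pos j with rfl | hjpos
    · rw [pow_zero, prod_range_one, prod_range_one, pow_zero, one_smul, hf t ht]
      apply hfix g _ t ht
      have hfixpt : z • (g : N ⧸ M) = g := by
        have h1 : Function.IsFixedPt (z • ·) (g : N ⧸ M) :=
          Function.minimalPeriod_eq_one_iff_isFixedPt.mp (by rw [hmp, pow_zero])
        exact h1
      rw [MulAction.Quotient.smul_mk, smul_eq_mul, eq_comm, QuotientGroup.eq] at hfixpt
      rwa [← mul_assoc] at hfixpt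
    · obtain ⟨m, hm⟩ : p ∣ p ^ j := dvd_pow_self p hjpos.ne'
      rw [hm, prod_const, card_range, pow_mul, hA, one_pow]
      have hb := hw_engel_prod_mul hp hA
        (fun i j => θ (g⁻¹ * (z ^ i)⁻¹ * ((fun y => y⁻¹ * z⁻¹ * y * z)^[j] t) * z ^ i * g))
        ?_ ?_ m
      · rw [← hb]
        apply prod_congr rfl
        intro i _
        rw [MulAction.Quotient.smul_mk, smul_eq_mul, hf t ht]
        simp [mul_assoc]
      · intro i j
        show θ _ = θ _ * θ _
        have hv := hδT t ht j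
        have hv' := hδT t ht (j + 1)
        have hm1 : g⁻¹ * (z ^ i)⁻¹ * ((fun y => y⁻¹ * z⁻¹ * y * z)^[j] t) * z ^ i * g ∈ M := by
          have h1 := hTc _ hv (z ^ i * g)
          have e : (z ^ i * g)⁻¹ * (fun y => y⁻¹ * z⁻¹ * y * z)^[j] t * (z ^ i * g) =
              g⁻¹ * (z ^ i)⁻¹ * ((fun y => y⁻¹ * z⁻¹ * y * z)^[j] t) * z ^ i * g := by group
          rw [e] at h1
          exact hTM h1
        have hm2 : g⁻¹ * (z ^ i)⁻¹ * ((fun y => y⁻¹ * z⁻¹ * y * z)^[j + 1] t) * z ^ i * g ∈ M := by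
          have h1 := hTc _ hv' (z ^ i * g)
          have e : (z ^ i * g)⁻¹ * (fun y => y⁻¹ * z⁻¹ * y * z)^[j + 1] t * (z ^ i * g) =
              g⁻¹ * (z ^ i)⁻¹ * ((fun y => y⁻¹ * z⁻¹ * y * z)^[j + 1] t) * z ^ i * g := by group
          rw [e] at h1
          exact hTM h1
        rw [← hθ _ hm1 _ hm2]
        congr 1
        rw [Function.iterate_succ_apply']
        generalize (fun y => y⁻¹ * z⁻¹ * y * z)^[j] t = v
        show _ = g⁻¹ * (z ^ i)⁻¹ * v * z ^ i * g *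
          (g⁻¹ * (z ^ i)⁻¹ * (v⁻¹ * z⁻¹ * v * z) * z ^ i * g)
        rw [pow_succ]
        group
      · intro i j hj
        show θ _ = 1
        have e : j = (p - 1) + (j - (p - 1)) := by omega
        have h1 : (fun y => y⁻¹ * z⁻¹ * y * z)^[j] t = 1 := by
          rw [e, Function.iterate_add_apply]
          exact hengel _ (hδT t ht _)
        rw [h1]
        have e2 : g⁻¹ * (z ^ i)⁻¹ * 1 * z ^ i * g = 1 := by group
        rw [e2, hθ1]
  have hF : ∀ t ∈ T, ∏ x : N ⧸ M, f t x = θ t ^ Fintype.card (N ⧸ M) := by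
    intro t ht
    rw [hw_decomp M z (f t)]
    have h1 := hw_decomp M z (fun _ : N ⧸ M => θ t)
    rw [prod_const, card_univ] at h1
    rw [h1]
    exact Fintype.prod_congr _ _ (horb t ht)
  intro n t ht
  have hnt : n * t * n⁻¹ ∈ T := hTn.conj_mem t ht n
  have h1 : ∏ x : N ⧸ M, f (n * t * n⁻¹) x = ∏ x : N ⧸ M, f t x := by
    rw [← Equiv.prod_comp (MulAction.toPerm n⁻¹ : Equiv.Perm (N ⧸ M)) (f t)]
    apply Fintype.prod_congr
    intro x
    induction x using QuotientGroup.induction_on with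
    | H g =>
      rw [hf _ hnt g]
      show _ = f t (n⁻¹ • (g : N ⧸ M))
      rw [MulAction.Quotient.smul_mk, smul_eq_mul, hf t ht]
      congr 1
      group
  rw [hF _ hnt, hF t ht] at h1
  have hcop : Nat.Coprime (Fintype.card (N ⧸ M)) p := by
    rw [Nat.coprime_comm, hp.coprime_iff_not_dvd]
    rw [Subgroup.index_eq_card, Nat.card_eq_fintype_card] at hidx
    exact hidx
  have hac : (θ (n * t * n⁻¹) * (θ t)⁻¹) ^ Fintype.card (N ⧸ M) = 1 := by
    rw [mul_pow, h1, inv_pow, mul_inv_cancel]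
  have ho1 := orderOf_dvd_of_pow_eq_one hac
  have ho2 := orderOf_dvd_of_pow_eq_one (hA (θ (n * t * n⁻¹) * (θ t)⁻¹))
  have ho : orderOf (θ (n * t * n⁻¹) * (θ t)⁻¹) = 1 :=
    Nat.dvd_one.mp (hcop ▸ Nat.dvd_gcd ho1 ho2)
  exact mul_inv_eq_one.mp (orderOf_eq_one_iff.mp ho)

end Cfsg.Agent.Lib.Helper17
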