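import Mathlib
import Cfsg.Prelude.Def_Transfer
import Cfsg.Agent.Lib.Helper14.ConjFamily
import Cfsg.Agent.Lib.Helper14.FamilyCtl
import Cfsg.Agent.Lib.Helper17.HWLocal

set_option autoImplicit false

namespace Cfsg.Agent.Lib.Helper17

open Cfsg Cfsg.Agent.Lib.Helper14

universe u

theorem hw_fchain {G : Type u} [Group G] [Finite G] {A' : Type*} (ϑ : G → A')
    {𝓕 : Set (Subgroup G)} {A : Set G} {g : G} (hc : FChain 𝓕 A g) :
    (∀ T ∈ 𝓕, A.ncard ≤ Nat.card T → ∀ x ∈ Subgroup.normalizer (T : Set G), ∀ t ∈ T,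
      ϑ (x⁻¹ * t * x) = ϑ t) → ∀ a ∈ A, ϑ (g⁻¹ * a * g) = ϑ a := by
  induction hc with
  | nil A =>
    intro _ a _
    simp
  | cons A T x g hT hx hA hchain ih =>
    intro hinv a ha
    have hcard : A.ncard ≤ Nat.card T := by
      have h1 : Nat.card T = (T : Set G).ncard := Nat.card_coe_set_eq (T : Set G)
      rw [h1]
      exact Set.ncard_le_ncard hA (Set.toFinite _)
    have h1 := hinv T hT hcard x hx a (hA ha)
    have hnc : (conjR x A).ncard = A.ncard := by
      rw [conjR_def]
      apply Set.ncard_image_of_injective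
      intro a b hab
      simpa using hab
    have h2 := ih (by
      intro T' hT' hc'
      rw [hnc] at hc'
      exact hinv T' hT' hc') (x⁻¹ * a * x) (mem_conjR_of_mem ha)
    rw [← h1, ← h2]
    congr 1
    group

theorem hw_fusion {G : Type u} [Group G] [Finite G] {p : ℕ} [Fact p.Prime] (P : Sylow p G)
    (Q : Subgroup G) (hQ : Cfsg.IsWeaklyClosed Q (P : Subgroup G))
    (h : ∀ u ∈ (P : Subgroup G), ∀ z ∈ Q, (fun y : G => y⁻¹ * z⁻¹ * y * z)^[p - 1] u = 1)
    {A : Type*} [CommGroup A] (hA : ∀ a : A, a ^ p = 1) (ϑ : G → A)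
    (hϑ : ∀ x ∈ Subgroup.normalizer (Q : Set G), ∀ y ∈ Subgroup.normalizer (Q : Set G),
      ϑ (x * y) = ϑ x * ϑ y) :
    ∀ t ∈ (P : Subgroup G), ∀ g : G, g⁻¹ * t * g ∈ (P : Subgroup G) →
      ϑ (g⁻¹ * t * g) = ϑ t := by
  classical
  have hp : p.Prime := Fact.out
  obtain ⟨H, hHdef⟩ : ∃ H : Subgroup G, H = Subgroup.normalizer (Q : Set G) := ⟨_, rfl⟩
  rw [← hHdef] at hϑ
  have hQP : Q ≤ (P : Subgroup G) := hQ.1
  have hwc : ∀ g : G, Q.map (MulAut.conj g).toMonoidHom ≤ (P : Subgroup G) → g ∈ H := by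
    intro g hg
    rw [hHdef]
    exact mem_normalizer_of_map_conj_eq (hQ.2 g hg)
  have hPH : (P : Subgroup G) ≤ H := by
    intro u hu
    apply hwc
    rintro _ ⟨q, hq, rfl⟩
    show MulAut.conj u q ∈ (P : Subgroup G)
    rw [MulAut.conj_apply]
    exact (P : Subgroup G).mul_mem ((P : Subgroup G).mul_mem hu (hQP hq))
      ((P : Subgroup G).inv_mem hu)
  have hHconj : ∀ m ∈ H, ∀ y ∈ H, ϑ (m⁻¹ * y * m) = ϑ y := by
    intro m hm y hy
    have h2 := hϑ m hm (m⁻¹ * y * m) (H.mul_mem (H.mul_mem (H.inv_mem hm) hy) hm)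
    have e : m * (m⁻¹ * y * m) = y * m := by group
    rw [e, hϑ y hy m hm, mul_comm] at h2
    exact (mul_left_cancel h2).symm
  have hPidx : ¬ p ∣ (P : Subgroup G).relIndex H := fun hd =>
    P.not_dvd_index (dvd_trans hd (Subgroup.relIndex_dvd_index_of_le hPH))
  obtain ⟨𝓕, h𝓕def⟩ : ∃ 𝓕 : Set (Subgroup G), 𝓕 = {U : Subgroup G | U ≤ (P : Subgroup G) ∧
      ¬ p ∣ ((P : Subgroup G) ⊓ Subgroup.normalizer ((U : Subgroup G) : Set G)).relIndex
        (Subgroup.normalizer ((U : Subgroup G) : Set G))} := ⟨_, rfl⟩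
  have h𝓕 : ∀ U ∈ 𝓕, U ≤ (P : Subgroup G) := by
    intro U hU
    rw [h𝓕def] at hU
    exact hU.1
  have h𝓕ex : ∀ T : Subgroup G, T ≤ (P : Subgroup G) → ∃ U ∈ 𝓕,
      (∃ g : G, T.map (MulAut.conj g).toMonoidHom = U) ∧
      ¬ p ∣ ((P : Subgroup G) ⊓ Subgroup.normalizer ((U : Subgroup G) : Set G)).relIndex
        (Subgroup.normalizer ((U : Subgroup G) : Set G)) := by
    intro T hT
    obtain ⟨g, hg1, hg2⟩ := exists_fullyNormalized_conj P hT
    refine ⟨T.map (MulAut.conj g).toMonoidHom, ?_, ⟨g, rfl⟩, hg2⟩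
    rw [h𝓕def]
    exact ⟨hg1, hg2⟩
  have key : ∀ n : ℕ, ∀ T ∈ 𝓕, Nat.card (P : Subgroup G) ≤ Nat.card T + n →
      ∀ x ∈ Subgroup.normalizer (T : Set G), ∀ t ∈ T, ϑ (x⁻¹ * t * x) = ϑ t := by
    intro n
    induction n with
    | zero =>
      intro T hT hcard x hx t ht
      have hTP := h𝓕 T hT
      have hTeq : T = (P : Subgroup G) := Subgroup.eq_of_le_of_card_ge hTP (by simpa using hcard)
      have hxH : x ∈ H := by
        apply hwc
        have h1 : Q.map (MulAut.conj x).toMonoidHom ≤ T.map (MulAut.conj x).toMonoidHom :=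
          Subgroup.map_mono (hTeq ▸ hQP)
        rw [map_conj_eq_self_of_mem_normalizer hx] at h1
        exact h1.trans hTP
      exact hHconj x hxH t (hPH (hTP ht))
    | succ n ih =>
      intro T hT hcard x hx t ht
      have hTP := h𝓕 T hT
      by_cases hQT : Q ≤ T
      · have hxH : x ∈ H := by
          apply hwc
          have h1 : Q.map (MulAut.conj x).toMonoidHom ≤ T.map (MulAut.conj x).toMonoidHom :=
            Subgroup.map_mono hQT
          rw [map_conj_eq_self_of_mem_normalizer hx] at h1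
          exact h1.trans hTP
        exact hHconj x hxH t (hPH (hTP ht))
      · obtain ⟨N, hNdef⟩ : ∃ N : Subgroup G, N = Subgroup.normalizer (T : Set G) := ⟨_, rfl⟩
        have hNc : ∀ g ∈ N, ∀ a ∈ T, g⁻¹ * a * g ∈ T := by
          intro g hg a ha
          rw [hNdef] at hg
          have h1 := (Subgroup.mem_normalizer_iff.mp (inv_mem hg) a).mp ha
          simpa using h1
        have hTN : T ≤ N := hNdef ▸ Subgroup.le_normalizer
        have hTH : T ≤ H := hTP.trans hPH
        obtain ⟨z, hzQ, hzN, hzT⟩ : ∃ z, z ∈ Q ∧ z ∈ N ∧ z ∉ T := by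
          have hSP : T ⊔ Q ≤ (P : Subgroup G) := sup_le hTP hQP
          have hne : T ≠ T ⊔ Q := fun he => hQT (he ▸ le_sup_right)
          obtain ⟨x₀, hx₀, hx₀T⟩ :=
            exists_mem_normalizer_not_mem (P.2.to_le hSP) le_sup_left hne
          obtain ⟨hx1, hx2⟩ := Subgroup.mem_inf.mp hx₀
          have hx1' : x₀ ∈ ((T ⊔ Q : Subgroup G) : Set G) := hx1
          rw [Subgroup.coe_mul_of_left_le_normalizer_right T Q (hHdef ▸ hTH)] at hx1'
          obtain ⟨a, ha, b, hb, rfl⟩ := Set.mem_mul.mp hx1'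
          refine ⟨b, hb, ?_, ?_⟩
          · rw [hNdef]
            have h1 := (Subgroup.normalizer (T : Set G)).mul_mem
              (inv_mem (Subgroup.le_normalizer ha)) hx2
            simpa using h1
          · intro hbT
            exact hx₀T (T.mul_mem ha hbT)
        obtain ⟨k, hk⟩ := P.2 ⟨z, hQP hzQ⟩
        have hzk : z ^ (p ^ k) = 1 := by
          have h1 := congrArg Subtype.val hk
          simpa using h1
        have hcore : ∀ g ∈ N, g⁻¹ * z * g ∈ H → ∀ t ∈ T, ϑ (g⁻¹ * t * g) = ϑ t := by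
          intro g hg hgz t ht
          obtain ⟨A₀, hA₀⟩ : ∃ A₀ : Set G, A₀ = insert z (T : Set G) := ⟨_, rfl⟩
          have hAP : A₀ ⊆ ((P : Subgroup G) : Set G) := by
            rw [hA₀]
            intro a ha
            rcases ha with rfl | ha
            · exact hQP hzQ
            · exact hTP ha
          have hR'p : IsPGroup p ↥((Subgroup.closure A₀).map (MulAut.conj g⁻¹).toMonoidHom) :=
            (P.2.to_le ((Subgroup.closure_le _).mpr hAP)).map _
          have hR'H : (Subgroup.closure A₀).map (MulAut.conj g⁻¹).toMonoidHom ≤ H := by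
            rw [Subgroup.map_le_iff_le_comap, Subgroup.closure_le]
            intro a ha
            show (MulAut.conj g⁻¹) a ∈ H
            rw [MulAut.conj_apply, inv_inv]
            rw [hA₀] at ha
            rcases ha with rfl | ha
            · exact hgz
            · exact hPH (hTP (hNc g hg a ha))
          obtain ⟨m, hmH, hm⟩ := exists_conj_mem_of_relIndex P.2 hPidx hR'p hR'H
          have hAg : conjR (g * m⁻¹) A₀ ⊆ ((P : Subgroup G) : Set G) := by
            rintro _ ⟨a, ha, rfl⟩
            have h1 := hm (g⁻¹ * a * g)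
              ⟨a, Subgroup.subset_closure ha, by simp⟩
            have e : (g * m⁻¹)⁻¹ * a * (g * m⁻¹) = m * (g⁻¹ * a * g) * m⁻¹ := by group
            show (g * m⁻¹)⁻¹ * a * (g * m⁻¹) ∈ (P : Subgroup G)
            rw [e]
            exact h1
          have hchain := fchain_of_fullyNormalized_set P 𝓕 h𝓕 h𝓕ex A₀ (g * m⁻¹) hAP hAg
          have hncard : A₀.ncard = Nat.card T + 1 := by
            rw [hA₀, Set.ncard_insert_of_notMem (by exact hzT) (Set.toFinite _)]
            congr 1
          have h2 := hw_fchain ϑ hchain (by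
            intro T' hT' hc
            exact ih T' hT' (by omega)) t (by rw [hA₀]; exact Set.mem_insert_of_mem _ ht)
          rw [← h2]
          have e : (g * m⁻¹)⁻¹ * t * (g * m⁻¹) = (m⁻¹)⁻¹ * (g⁻¹ * t * g) * m⁻¹ := by group
          rw [e]
          exact (hHconj m⁻¹ (H.inv_mem hmH) (g⁻¹ * t * g) (hPH (hTP (hNc g hg t ht)))).symm
        have hTn : (T.subgroupOf N).Normal := by
          rw [hNdef]
          exact Subgroup.normal_in_normalizer
        have hsemi : Function.Semiconj (Subtype.val : ↥N → G)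
            (fun y : ↥N => y⁻¹ * (⟨z, hzN⟩ : ↥N)⁻¹ * y * ⟨z, hzN⟩)
            (fun y : G => y⁻¹ * z⁻¹ * y * z) := by
          intro y
          rfl
        have hloc := hw_local (N := ↥N) (p := p) hA (H.subgroupOf N) (T.subgroupOf N)
          (by
            intro a ha
            exact Subgroup.mem_subgroupOf.mpr (hTH (Subgroup.mem_subgroupOf.mp ha)))
          (by
            intro hd
            have hFN : ¬ p ∣ ((P : Subgroup G) ⊓ N).relIndex N := by
              rw [h𝓕def] at hT
              rw [hNdef]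
              exact hT.2
            exact hFN (dvd_trans hd
              (Subgroup.relIndex_dvd_of_le_left N (inf_le_left.trans hPH))))
          (fun y => ϑ (y : G))
          (by
            intro a ha b hb
            exact hϑ _ (Subgroup.mem_subgroupOf.mp ha) _ (Subgroup.mem_subgroupOf.mp hb))
          ⟨z, hzN⟩ ⟨k, Subtype.ext (by simpa using hzk)⟩
          (by
            intro g hg t ht
            have h1 := hcore (g : G) g.2 (by simpa using Subgroup.mem_subgroupOf.mp hg) (t : G)
              (Subgroup.mem_subgroupOf.mp ht)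
            simpa using h1)
          (by
            intro t ht
            apply Subtype.ext
            rw [(hsemi.iterate_right (p - 1)).eq]
            exact h _ (hTP (Subgroup.mem_subgroupOf.mp ht)) z hzQ)
        have h3 := hloc (⟨x, hNdef ▸ hx⟩ : ↥N)⁻¹ ⟨t, hTN ht⟩ (Subgroup.mem_subgroupOf.mpr ht)
        simpa using h3
  intro t ht g hg
  have hchain := fchain_of_fullyNormalized_set P 𝓕 h𝓕 h𝓕ex {t} g
    (by intro a ha; rw [Set.mem_singleton_iff.mp ha]; exact ht)
    (by
      rintro _ ⟨a, ha, rfl⟩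
      rw [Set.mem_singleton_iff.mp ha]
      exact hg)
  exact hw_fchain ϑ hchain (fun T hT _ => key (Nat.card (P : Subgroup G)) T hT (by omega)) t rfl

end Cfsg.Agent.Lib.Helper17
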