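import Mathlib

set_option autoImplicit false

namespace Cfsg.Agent.Lib.Helper17

open Polynomial

section poly

variable {K : Type*} [Field K]

/-- the polynomials `X_0 = a_0 Y^q`, `X_{i+1} = X_i^q + a_{i+1} Y^q` -/
noncomputable def kryPoly (q : ℕ) (a : ℕ → K) : ℕ → K[X]
  | 0 => C (a 0) * X ^ q
  | (i + 1) => (kryPoly q a i) ^ q + C (a (i + 1)) * X ^ q

theorem kryPoly_zero (q : ℕ) (a : ℕ → K) : kryPoly q a 0 = C (a 0) * X ^ q := rfl

theorem kryPoly_succ (q : ℕ) (a : ℕ → K) (i : ℕ) :
    kryPoly q a (i + 1) = (kryPoly q a i) ^ q + C (a (i + 1)) * X ^ q := rfl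

theorem kryPoly_eval_zero {q : ℕ} (hq : q ≠ 0) (a : ℕ → K) (i : ℕ) :
    (kryPoly q a i).eval 0 = 0 := by
  induction i with
  | zero => simp [kryPoly_zero, hq]
  | succ i ih => simp [kryPoly_succ, ih, hq]

theorem kryPoly_derivative {q : ℕ} (hq : (q : K) = 0) (a : ℕ → K) (i : ℕ) :
    derivative (kryPoly q a i) = 0 := by
  induction i with
  | zero =>
    rw [kryPoly_zero, derivative_C_mul, derivative_X_pow, hq, C_0, zero_mul, mul_zero]
  | succ i ih =>
    rw [kryPoly_succ, derivative_add, derivative_pow, derivative_C_mul, derivative_X_pow, hq, C_0]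
    simp

theorem natDegree_C_mul_X_pow_le' (q : ℕ) (c : K) : (C c * X ^ q : K[X]).natDegree ≤ q :=
  natDegree_C_mul_X_pow_le c q

theorem kryPoly_facts {q : ℕ} (hq : 2 ≤ q) (a : ℕ → K) (i : ℕ) :
    (kryPoly q a i = 0 → ∀ j ≤ i, a j = 0) ∧
      (kryPoly q a i ≠ 0 → q ≤ (kryPoly q a i).natDegree) := by
  induction i with
  | zero =>
    constructor
    · intro h j hj
      have hj0 : j = 0 := by omega
      subst hj0
      rw [kryPoly_zero] at h
      by_contra ha
      have h1 := natDegree_C_mul_X_pow q (a 0) ha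
      rw [h, natDegree_zero] at h1
      omega
    · intro h
      rw [kryPoly_zero] at h ⊢
      have ha : a 0 ≠ 0 := by
        intro ha
        apply h
        rw [ha, C_0, zero_mul]
      rw [natDegree_C_mul_X_pow q (a 0) ha]
  | succ i ih =>
    by_cases hX : kryPoly q a i = 0
    · have hall := ih.1 hX
      have hs : kryPoly q a (i + 1) = C (a (i + 1)) * X ^ q := by
        rw [kryPoly_succ, hX, zero_pow (by omega), zero_add]
      constructor
      · intro h j hj
        by_cases hji : j ≤ i
        · exact hall j hji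
        · have hj1 : j = i + 1 := by omega
          subst hj1
          rw [hs] at h
          by_contra ha
          have h1 := natDegree_C_mul_X_pow q (a (i + 1)) ha
          rw [h, natDegree_zero] at h1
          omega
      · intro h
        rw [hs] at h ⊢
        have ha : a (i + 1) ≠ 0 := by
          intro ha
          apply h
          rw [ha, C_0, zero_mul]
        rw [natDegree_C_mul_X_pow q (a (i + 1)) ha]
    · have hdeg := ih.2 hX
      have h1 : ((kryPoly q a i) ^ q).natDegree = q * (kryPoly q a i).natDegree := natDegree_pow _ _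
      have h2 : (C (a (i + 1)) * X ^ q : K[X]).natDegree ≤ q := natDegree_C_mul_X_pow_le _ _
      have h3 : (C (a (i + 1)) * X ^ q : K[X]).natDegree < ((kryPoly q a i) ^ q).natDegree := by
        rw [h1]
        calc (C (a (i + 1)) * X ^ q : K[X]).natDegree ≤ q := h2
          _ < q * q := by nlinarith
          _ ≤ q * (kryPoly q a i).natDegree := Nat.mul_le_mul_left q hdeg
      have h4 : (kryPoly q a (i + 1)).natDegree = q * (kryPoly q a i).natDegree := by
        rw [kryPoly_succ, natDegree_add_eq_left_of_natDegree_lt h3, h1]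
      have h5 : q ≤ (kryPoly q a (i + 1)).natDegree := by
        rw [h4]
        calc q ≤ q * q := by nlinarith
          _ ≤ q * (kryPoly q a i).natDegree := Nat.mul_le_mul_left q hdeg
      constructor
      · intro h
        rw [h, natDegree_zero] at h5
        omega
      · intro _
        exact h5

theorem kryPoly_exists_root [IsAlgClosed K] {q : ℕ} (hq : 2 ≤ q) (hqK : (q : K) = 0) (a : ℕ → K)
    (m : ℕ) (ha : ∃ j ≤ m, a j ≠ 0) : ∃ y : K, y ≠ 0 ∧ (kryPoly q a m).eval y = y := by
  have hne : kryPoly q a m ≠ 0 := by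
    intro h
    obtain ⟨j, hj, haj⟩ := ha
    exact haj ((kryPoly_facts hq a m).1 h j hj)
  have hdeg : q ≤ (kryPoly q a m).natDegree := (kryPoly_facts hq a m).2 hne
  have hdvd : (X : K[X]) ∣ kryPoly q a m - X := by
    rw [X_dvd_iff, coeff_zero_eq_eval_zero, eval_sub, eval_X, kryPoly_eval_zero (by omega), sub_zero]
  obtain ⟨G, hG⟩ := hdvd
  have hder : derivative (kryPoly q a m - X) = -1 := by
    rw [derivative_sub, kryPoly_derivative hqK, derivative_X, zero_sub]
  have hG0 : G.eval 0 = -1 := by
    have h1 : (derivative (X * G)).eval 0 = G.eval 0 := by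
      rw [derivative_mul, derivative_X, one_mul, eval_add, eval_mul, eval_X, zero_mul, add_zero]
    rw [← hG, hder] at h1
    rw [← h1]; simp
  have hGne : G ≠ 0 := by
    intro h
    rw [h, eval_zero] at hG0
    exact one_ne_zero (neg_eq_zero.mp hG0.symm)
  have hnat : (kryPoly q a m - X).natDegree = (kryPoly q a m).natDegree := by
    apply natDegree_sub_eq_left_of_natDegree_lt
    rw [natDegree_X]; omega
  have hnatG : (kryPoly q a m - X).natDegree = 1 + G.natDegree := by
    rw [hG, natDegree_mul X_ne_zero hGne, natDegree_X]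
  have hGdeg : G.degree ≠ 0 := by
    intro h
    have h1 : G.natDegree = 0 := natDegree_eq_zero_iff_degree_le_zero.mpr h.le
    omega
  obtain ⟨y, hy⟩ := IsAlgClosed.exists_root G hGdeg
  refine ⟨y, ?_, ?_⟩
  · intro h0
    rw [h0] at hy
    rw [IsRoot, hG0] at hy
    exact one_ne_zero (neg_eq_zero.mp hy)
  · have h1 : (kryPoly q a m - X).eval y = 0 := by
      rw [hG, eval_mul, hy, mul_zero]
    rw [eval_sub, eval_X] at h1
    exact sub_eq_zero.mp h1

end poly

section fixed

variable {K : Type*} [Field K] [IsAlgClosed K]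

/-- an injective `q`-Frobenius-semilinear endomorphism of a nonzero finite-dimensional space over
an algebraically closed field has a nonzero fixed vector -/
theorem exists_fixed_ne_zero {q : ℕ} (hq : 2 ≤ q) (hqK : (q : K) = 0)
    {σ : K →+* K} (hσ : ∀ c, σ c = c ^ q)
    {V : Type*} [AddCommGroup V] [Module K V] [FiniteDimensional K V] [Nontrivial V]
    (φ : V →ₛₗ[σ] V) (hφ : Function.Injective φ) : ∃ v : V, v ≠ 0 ∧ φ v = v := by
  obtain ⟨v, hv⟩ := exists_ne (0 : V)
  obtain ⟨e, he0, he⟩ : ∃ e : ℕ → V, e 0 = v ∧ ∀ i, φ (e i) = e (i + 1) :=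
    ⟨fun i => φ^[i] v, rfl, fun i => (Function.iterate_succ_apply' φ i v).symm⟩
  have hezero : ∀ i, e i = 0 → v = 0 := by
    intro i
    induction i with
    | zero => intro h; rw [← he0, h]
    | succ i ih =>
      intro h
      apply ih
      apply hφ
      rw [he, h, map_zero]
  have hli_step : ∀ m : ℕ,
      (∀ k < m, e k ∉ Submodule.span K (Set.range (fun i : Fin k => e (i : ℕ)))) →
      LinearIndependent K (fun i : Fin m => e (i : ℕ)) := by
    intro m
    induction m with
    | zero => intro _; exact linearIndependent_empty_type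
    | succ m ih =>
      intro h
      have h1 := ih (fun k hk => h k (by omega))
      have h2 := h m (by omega)
      have h3 : LinearIndependent K
          (Fin.snoc (fun i : Fin m => e (i : ℕ)) (e m) : Fin (m + 1) → V) :=
        linearIndependent_finSnoc.mpr ⟨h1, h2⟩
      convert h3 using 1
      funext i
      refine Fin.lastCases ?_ (fun j => ?_) i
      · simp
      · simp
  have hex : ∃ m : ℕ, e m ∈ Submodule.span K (Set.range (fun i : Fin m => e (i : ℕ))) := by
    by_contra h
    push Not at h
    have h1 := hli_step (Module.finrank K V + 1) (fun k _ => h k)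
    have h2 := h1.fintype_card_le_finrank
    simp at h2
  classical
  have hm₀ := Nat.find_spec hex
  have hmin : ∀ k < Nat.find hex,
      e k ∉ Submodule.span K (Set.range (fun i : Fin k => e (i : ℕ))) :=
    fun k hk => Nat.find_min hex hk
  have hli := hli_step (Nat.find hex) hmin
  generalize Nat.find hex = m₀ at hm₀ hmin hli
  obtain _ | m := m₀
  · exfalso
    apply hv
    have h1 : Set.range (fun i : Fin 0 => e (i : ℕ)) = ∅ := Set.range_eq_empty _
    rw [h1, Submodule.span_empty, Submodule.mem_bot] at hm₀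
    rw [← he0, hm₀]
  obtain ⟨a, ha⟩ := (Submodule.mem_span_range_iff_exists_fun K).mp hm₀
  let a' : ℕ → K := fun i => if h : i < m + 1 then a ⟨i, h⟩ else 0
  have ha'0 : a' 0 = a 0 := by
    have h : 0 < m + 1 := by omega
    simp only [a', dif_pos h]
    rfl
  have ha's : ∀ i : Fin m, a' ((i : ℕ) + 1) = a i.succ := by
    intro i
    have h : (i : ℕ) + 1 < m + 1 := by omega
    simp only [a', dif_pos h]
    rfl
  have hne : ∃ j ≤ m, a' j ≠ 0 := by
    by_contra h
    push Not at h
    have hzero : ∀ i : Fin (m + 1), a i = 0 := by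
      intro i
      have h1 := h i (by omega)
      simp only [a', dif_pos i.2] at h1
      exact h1
    have h0 : e (m + 1) = 0 := by
      rw [← ha]
      simp [hzero]
    exact hv (hezero _ h0)
  obtain ⟨y, hy0, hy⟩ := kryPoly_exists_root hq hqK a' m hne
  have hx0 : (kryPoly q a' 0).eval y = a 0 * y ^ q := by
    rw [kryPoly_zero, eval_mul, eval_C, eval_pow, eval_X, ha'0]
  have hxs : ∀ i : Fin m, (kryPoly q a' ((i : ℕ) + 1)).eval y =
      ((kryPoly q a' (i : ℕ)).eval y) ^ q + a i.succ * y ^ q := by
    intro i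
    rw [kryPoly_succ, eval_add, eval_pow, eval_mul, eval_C, eval_pow, eval_X, ha's]
  obtain ⟨x, hx0', hxs', hxm⟩ : ∃ x : ℕ → K, x 0 = a 0 * y ^ q ∧
      (∀ i : Fin m, x ((i : ℕ) + 1) = x i ^ q + a i.succ * y ^ q) ∧ x m = y :=
    ⟨fun i => (kryPoly q a' i).eval y, hx0, hxs, hy⟩
  refine ⟨∑ i : Fin (m + 1), x (i : ℕ) • e (i : ℕ), ?_, ?_⟩
  · intro hw
    have h1 := Fintype.linearIndependent_iff.mp hli (fun i : Fin (m + 1) => x (i : ℕ)) hw (Fin.last m)
    simp only [Fin.val_last] at h1
    rw [hxm] at h1
    exact hy0 h1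
  · have hL : φ (∑ i : Fin (m + 1), x (i : ℕ) • e (i : ℕ)) =
        ∑ i : Fin m, (x (i : ℕ)) ^ q • e ((i : ℕ) + 1) + y ^ q • e (m + 1) := by
      rw [map_sum, Fin.sum_univ_castSucc]
      congr 1
      · apply Finset.sum_congr rfl
        intro i _
        rw [map_smulₛₗ, hσ, he]
        rfl
      · rw [map_smulₛₗ, hσ, he]
        simp only [Fin.val_last]
        rw [hxm]
    have hE : y ^ q • e (m + 1) =
        (a 0 * y ^ q) • e 0 + ∑ i : Fin m, (a i.succ * y ^ q) • e ((i : ℕ) + 1) := by
      rw [← ha, Fin.sum_univ_succ, smul_add, Finset.smul_sum]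
      congr 1
      · rw [smul_smul, mul_comm]
        rfl
      · apply Finset.sum_congr rfl
        intro i _
        rw [smul_smul, mul_comm]
        rfl
    have hR : ∑ i : Fin (m + 1), x (i : ℕ) • e (i : ℕ) =
        (a 0 * y ^ q) • e 0 + (∑ i : Fin m, (x (i : ℕ)) ^ q • e ((i : ℕ) + 1) +
          ∑ i : Fin m, (a i.succ * y ^ q) • e ((i : ℕ) + 1)) := by
      rw [Fin.sum_univ_succ, ← Finset.sum_add_distrib]
      congr 1
      · simp only [Fin.val_zero]
        rw [hx0']
      · apply Finset.sum_congr rfl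
        intro i _
        rw [Fin.val_succ, hxs' i, add_smul]
    rw [hL, hE, hR]
    abel

end fixed

section span

variable {K : Type*} [Field K] [IsAlgClosed K]

/-- the fixed vectors of an injective Frobenius-semilinear endomorphism span the space -/
theorem span_fixed_eq_top {q : ℕ} (hq : 2 ≤ q) (hqK : (q : K) = 0)
    {σ : K →+* K} (hσ : ∀ c, σ c = c ^ q)
    {V : Type*} [AddCommGroup V] [Module K V] [FiniteDimensional K V]
    (φ : V →ₛₗ[σ] V) (hφ : Function.Injective φ) :
    Submodule.span K {u : V | φ u = u} = ⊤ := by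
  have hroot : ∀ c : K, ∃ d : K, d ^ q = c := fun c => IsAlgClosed.exists_pow_nat_eq c (by omega)
  have hAS : ∀ c : K, ∃ s : K, s ^ q - s = c := by
    intro c
    have hdeg : (X ^ q - X - C c : K[X]).degree ≠ 0 := by
      have h1 : (X ^ q - X - C c : K[X]).natDegree = q := by
        rw [natDegree_sub_C, FiniteField.X_pow_card_sub_X_natDegree_eq K (by omega)]
      intro h
      have h2 := natDegree_eq_zero_iff_degree_le_zero.mpr h.le
      omega
    obtain ⟨s, hs⟩ := IsAlgClosed.exists_root _ hdeg
    refine ⟨s, ?_⟩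
    have h3 : eval s (X ^ q - X - C c) = 0 := hs
    simp only [eval_sub, eval_pow, eval_X, eval_C] at h3
    exact sub_eq_zero.mp h3
  have hR : ∀ w ∈ Submodule.span K {u : V | φ u = u}, ∀ c : K,
      ∃ w' ∈ Submodule.span K {u : V | φ u = u}, φ w' = c • w := by
    intro w hw
    induction hw using Submodule.span_induction with
    | mem u hu =>
      intro c
      obtain ⟨d, hd⟩ := hroot c
      have hu' : φ u = u := hu
      exact ⟨d • u, Submodule.smul_mem _ d (Submodule.subset_span hu), by
        rw [map_smulₛₗ, hσ, hd, hu']⟩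
    | zero => intro c; exact ⟨0, Submodule.zero_mem _, by simp⟩
    | add w₁ w₂ _ _ ih₁ ih₂ =>
      intro c
      obtain ⟨t₁, ht₁, e₁⟩ := ih₁ c
      obtain ⟨t₂, ht₂, e₂⟩ := ih₂ c
      exact ⟨t₁ + t₂, Submodule.add_mem _ ht₁ ht₂, by rw [map_add, e₁, e₂, smul_add]⟩
    | smul b w _ ih =>
      intro c
      obtain ⟨t, ht, e⟩ := ih (c * b)
      exact ⟨t, ht, by rw [e, mul_smul]⟩
  have hQ : ∀ w ∈ Submodule.span K {u : V | φ u = u}, ∀ c : K,
      ∃ t ∈ Submodule.span K {u : V | φ u = u}, φ t - t = c • w := by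
    intro w hw
    induction hw using Submodule.span_induction with
    | mem u hu =>
      intro c
      obtain ⟨s, hs⟩ := hAS c
      have hu' : φ u = u := hu
      exact ⟨s • u, Submodule.smul_mem _ s (Submodule.subset_span hu), by
        rw [map_smulₛₗ, hσ, hu', ← sub_smul, hs]⟩
    | zero => intro c; exact ⟨0, Submodule.zero_mem _, by simp⟩
    | add w₁ w₂ _ _ ih₁ ih₂ =>
      intro c
      obtain ⟨t₁, ht₁, e₁⟩ := ih₁ c
      obtain ⟨t₂, ht₂, e₂⟩ := ih₂ c
      refine ⟨t₁ + t₂, Submodule.add_mem _ ht₁ ht₂, ?_⟩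
      rw [map_add, smul_add, ← e₁, ← e₂]; abel
    | smul b w _ ih =>
      intro c
      obtain ⟨t, ht, e⟩ := ih (c * b)
      exact ⟨t, ht, by rw [e, mul_smul]⟩
  have hWφ : Submodule.span K {u : V | φ u = u} ≤
      (Submodule.span K {u : V | φ u = u}).comap φ := by
    rw [Submodule.span_le]
    intro u hu
    have hu' : φ u = u := hu
    show φ u ∈ Submodule.span K {u : V | φ u = u}
    rw [hu']; exact Submodule.subset_span hu
  by_contra hne
  have : Nontrivial (V ⧸ Submodule.span K {u : V | φ u = u}) :=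
    Submodule.Quotient.nontrivial_iff.mpr hne
  have hinj : Function.Injective
      ((Submodule.span K {u : V | φ u = u}).mapQ (Submodule.span K {u : V | φ u = u}) φ hWφ) := by
    rw [injective_iff_map_eq_zero]
    intro x hx
    obtain ⟨v, rfl⟩ := Submodule.Quotient.mk_surjective _ x
    rw [Submodule.mapQ_apply, Submodule.Quotient.mk_eq_zero] at hx
    rw [Submodule.Quotient.mk_eq_zero]
    obtain ⟨w', hw', e⟩ := hR _ hx 1
    rw [one_smul] at e
    have h1 := hφ e
    rw [← h1]; exact hw'
  obtain ⟨x, hx0, hxfix⟩ := exists_fixed_ne_zero hq hqK hσ _ hinj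
  obtain ⟨v, rfl⟩ := Submodule.Quotient.mk_surjective _ x
  rw [Submodule.mapQ_apply, Submodule.Quotient.eq] at hxfix
  obtain ⟨t, ht, e⟩ := hQ _ hxfix (-1)
  apply hx0
  rw [Submodule.Quotient.mk_eq_zero]
  have hfix : φ (v + t) = v + t := by
    rw [map_add]
    have h1 : φ t = t - (φ v - v) := by
      rw [neg_one_smul] at e
      have h3 : φ t = (φ t - t) + t := by abel
      rw [h3, e]; abel
    rw [h1]; abel
  have hvt : v + t ∈ Submodule.span K {u : V | φ u = u} := Submodule.subset_span hfix
  have h2 : v = (v + t) - t := by abel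
  rw [h2]; exact Submodule.sub_mem _ hvt ht

/-- Lang–Steinberg for `GL_n` over an algebraically closed field of characteristic `p` -/
theorem lang_GL (p : ℕ) [Fact p.Prime] [CharP K p] (f : ℕ) (hf : 1 ≤ f) (n : ℕ)
    (g : GL (Fin n) K) :
    ∃ x : GL (Fin n) K, g = x * (Matrix.GeneralLinearGroup.map (iterateFrobenius K p f) x)⁻¹ := by
  have hp : p.Prime := Fact.out
  have hσ : ∀ c, iterateFrobenius K p f c = c ^ (p ^ f) := fun c => iterateFrobenius_def p f c
  have hq : 2 ≤ p ^ f := by
    calc 2 ≤ p := hp.two_le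
      _ = p ^ 1 := (pow_one p).symm
      _ ≤ p ^ f := Nat.pow_le_pow_right hp.pos hf
  have hqK : ((p ^ f : ℕ) : K) = 0 := by
    rw [Nat.cast_pow, CharP.cast_eq_zero K p, zero_pow (by omega)]
  let φ : (Fin n → K) →ₛₗ[iterateFrobenius K p f] (Fin n → K) :=
    { toFun := fun v => g.val.mulVec (fun i => iterateFrobenius K p f (v i))
      map_add' := by
        intro u v
        rw [← Matrix.mulVec_add]
        congr 1
        funext i
        simp
      map_smul' := by
        intro c v
        rw [← Matrix.mulVec_smul]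
        congr 1
        funext i
        simp }
  have hφ : Function.Injective φ := by
    intro u v huv
    have h1 : g.val.mulVec (fun i => iterateFrobenius K p f (u i)) =
        g.val.mulVec (fun i => iterateFrobenius K p f (v i)) := huv
    have h2 := congrArg (fun w => (g⁻¹).val.mulVec w) h1
    simp only [Matrix.mulVec_mulVec] at h2
    have h3 : (g⁻¹).val * g.val = 1 := by rw [← Units.val_mul, inv_mul_cancel]; rfl
    rw [h3, Matrix.one_mulVec, Matrix.one_mulVec] at h2
    funext i
    exact (iterateFrobenius K p f).injective (congrFun h2 i)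
  have hspan := span_fixed_eq_top hq hqK hσ φ hφ
  obtain ⟨b, hbS, hbspan, hbli⟩ := exists_linearIndependent K {u : Fin n → K | φ u = u}
  rw [hspan] at hbspan
  let B : Module.Basis b K (Fin n → K) :=
    Module.Basis.mk hbli (by rw [Subtype.range_coe]; exact hbspan.ge)
  let e : Fin n ≃ b := (B.indexEquiv (Pi.basisFun K (Fin n))).symm
  let M : Matrix (Fin n) (Fin n) K := Matrix.of (fun i j => ((e j : b) : Fin n → K) i)
  have hMunit : IsUnit M := by
    rw [← Matrix.linearIndependent_cols_iff_isUnit]
    have h1 : M.col = fun j => ((e j : b) : Fin n → K) := by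
      funext j i
      rfl
    rw [h1]
    exact hbli.comp e e.injective
  obtain ⟨x, hx⟩ := hMunit
  refine ⟨x, ?_⟩
  rw [eq_mul_inv_iff_mul_eq]
  apply Units.ext
  rw [Units.val_mul]
  have h2 : (Matrix.GeneralLinearGroup.map (iterateFrobenius K p f) x).val =
      M.map (iterateFrobenius K p f) := by
    rw [← hx]; rfl
  rw [h2, hx]
  ext i j
  have hfix : φ ((e j : b) : Fin n → K) = ((e j : b) : Fin n → K) := hbS (e j).2
  have h3 := congrFun hfix i
  simpa [Matrix.mul_apply, Matrix.mulVec, dotProduct, φ, M] using h3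

end span

end Cfsg.Agent.Lib.Helper17
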