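import Mathlib
import Cfsg.Agent.Lib.Helper3.SpSqDL

set_option autoImplicit false

/-!
Squares in the kernel of a "determinant" on a monomial subgroup `T ≀ H` lie in the commutator
subgroup of that kernel.
-/

namespace Cfsg.Agent.Lib.Helper17.MonKer

open scoped commutatorElement
open Cfsg.Agent.Lib.Helper3

universe u v w

theorem monsys_ker_sq {D : Type u} {X : Type v} {A : Type w} [Group D] [Group X] [CommGroup A]
    {n : ℕ} (M : MonSys (Fin n) D X) (δ : D →* A) (Δ : X →* A)
    (hι : ∀ g, Δ (M.ι g) = ∏ i, δ (g i)) (hπ : ∀ σ, Δ (M.π σ) = 1)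
    (T : Subgroup D) (H : Subgroup (Equiv.Perm (Fin n)))
    (hT : ∀ t ∈ T ⊓ δ.ker, t ^ 2 ∈ ⁅T ⊓ δ.ker, T ⊓ δ.ker⁆)
    (hH : ∀ σ ∈ H, σ ^ 2 ∈ ⁅H, H⁆)
    (hAB : (∃ u ∈ T, u ^ 2 = 1 ∧ ∀ s ∈ T, ∃ k : ℕ, δ s = δ u ^ k) ∨
      (∀ a b : Fin n, a ≠ b → ∃ τ ∈ H, τ a = b ∧ τ b = a)) :
    ∀ x ∈ M.sub T H ⊓ Δ.ker, x ^ 2 ∈ ⁅M.sub T H ⊓ Δ.ker, M.sub T H ⊓ Δ.ker⁆ := by
  classical
  obtain ⟨B1, hB1def⟩ : ∃ B1 : Subgroup X, B1 = M.sub T H ⊓ Δ.ker := ⟨_, rfl⟩
  rw [← hB1def]
  obtain ⟨E, hEmem⟩ : ∃ E : Subgroup X, ∀ x, x ∈ E ↔ (x ∈ B1 ∧ x ^ 2 ∈ ⁅B1, B1⁆) := by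
    refine ⟨{ carrier := {x | x ∈ B1 ∧ x ^ 2 ∈ ⁅B1, B1⁆}
              mul_mem' := ?_
              one_mem' := ?_
              inv_mem' := ?_ }, fun x => Iff.rfl⟩
    · rintro x y ⟨hx, hx2⟩ ⟨hy, hy2⟩
      refine ⟨B1.mul_mem hx hy, ?_⟩
      have e : (x * y) ^ 2 = x ^ 2 * ⁅x⁻¹, y⁆ * y ^ 2 := by
        rw [commutatorElement_def, pow_two, pow_two, pow_two]
        group
      rw [e]
      exact Subgroup.mul_mem _ (Subgroup.mul_mem _ hx2
        (Subgroup.commutator_mem_commutator (B1.inv_mem hx) hy)) hy2
    · exact ⟨B1.one_mem, by rw [one_pow]; exact Subgroup.one_mem _⟩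
    · rintro x ⟨hx, hx2⟩
      refine ⟨B1.inv_mem hx, ?_⟩
      rw [inv_pow]
      exact Subgroup.inv_mem _ hx2
  have hB1mem : ∀ x, x ∈ B1 ↔ (x ∈ M.sub T H ∧ Δ x = 1) := by
    intro x
    rw [hB1def, Subgroup.mem_inf, MonoidHom.mem_ker]
  obtain ⟨T1, hT1def⟩ : ∃ T1 : Subgroup D, T1 = T ⊓ δ.ker := ⟨_, rfl⟩
  rw [← hT1def] at hT
  have hT1mem : ∀ s, s ∈ T1 ↔ (s ∈ T ∧ δ s = 1) := by
    intro s
    rw [hT1def, Subgroup.mem_inf, MonoidHom.mem_ker]
  have hB0B1 : M.sub T1 H ≤ B1 := by
    rintro x ⟨g, hg, σ, hσ, rfl⟩
    rw [hB1mem]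
    refine ⟨⟨g, fun i => ((hT1mem _).mp (hg i)).1, σ, hσ, rfl⟩, ?_⟩
    rw [map_mul, hι, hπ, mul_one]
    exact Finset.prod_eq_one (fun i _ => ((hT1mem _).mp (hg i)).2)
  have hB0E : ∀ x ∈ M.sub T1 H, x ∈ E := by
    intro x hx
    rw [hEmem]
    exact ⟨hB0B1 hx, Subgroup.commutator_mono hB0B1 hB0B1 (MonSys.sub_sq_mem M T1 H hT hH x hx)⟩
  have hιB : ∀ g : Fin n → D, (∀ i, g i ∈ T) → M.ι g ∈ M.sub T H :=
    fun g hg => ⟨g, hg, 1, H.one_mem, by rw [map_one, mul_one]⟩
  have hπB0 : ∀ σ ∈ H, M.π σ ∈ M.sub T1 H :=
    fun σ hσ => ⟨1, fun _ => T1.one_mem, σ, hσ, by rw [map_one, one_mul]⟩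
  have hC : ∀ g : Fin n → D, (∀ i, g i ∈ T) → Δ (M.ι g) = 1 → M.ι g ∈ E := by
    rcases hAB with ⟨u, huT, hu2, hu⟩ | hswap
    · intro g hg hΔ
      have huu : u * u = 1 := by
        rw [← pow_two]
        exact hu2
      have hδu2 : δ u * δ u = 1 := by rw [← map_mul, huu, map_one]
      obtain ⟨h, hhdef⟩ : ∃ h : Fin n → D, h = fun i => if δ (g i) = 1 then 1 else u :=
        ⟨_, rfl⟩
      have hhT : ∀ i, h i ∈ T := by
        intro i
        rw [hhdef]
        dsimp only
        split_ifs
        · exact T.one_mem
        · exact huT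
      have hhh : h * h = 1 := by
        funext i
        rw [Pi.mul_apply, hhdef]
        dsimp only
        split_ifs
        · rw [mul_one]
          rfl
        · rw [huu]
          rfl
      have hg'T1 : ∀ i, (g * h) i ∈ T1 := by
        intro i
        rw [hT1mem, Pi.mul_apply]
        refine ⟨T.mul_mem (hg i) (hhT i), ?_⟩
        rw [hhdef]
        dsimp only
        split_ifs with h1
        · rw [mul_one]
          exact h1
        · obtain ⟨k, hk⟩ := hu (g i) (hg i)
          have h2 : δ (g i) = δ u := by
            rcases Nat.even_or_odd k with ⟨c, hc⟩ | ⟨c, hc⟩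
            · exfalso
              apply h1
              rw [hk, hc, ← two_mul, pow_mul, pow_two, hδu2, one_pow]
            · rw [hk, hc, pow_succ, pow_mul, pow_two, hδu2, one_pow, one_mul]
          rw [map_mul, h2, hδu2]
      have ha : M.ι (g * h) ∈ M.sub T1 H :=
        ⟨g * h, hg'T1, 1, H.one_mem, by rw [map_one, mul_one]⟩
      have hc : M.ι h ∈ E := by
        rw [hEmem]
        have hc2 : M.ι h ^ 2 = 1 := by rw [pow_two, ← map_mul, hhh, map_one]
        refine ⟨?_, by rw [hc2]; exact Subgroup.one_mem _⟩
        rw [hB1mem]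
        refine ⟨hιB h hhT, ?_⟩
        have h3 : Δ (M.ι (g * h)) = 1 := ((hB1mem _).mp (hB0B1 ha)).2
        rw [map_mul, map_mul, hΔ, one_mul] at h3
        exact h3
      have e : M.ι g = M.ι (g * h) * M.ι h := by
        rw [← map_mul, mul_assoc, hhh, mul_one]
      rw [e]
      exact E.mul_mem (hB0E _ ha) hc
    · by_cases hn : n = 0
      · subst hn
        intro g hg hΔ
        have hg1 : g = 1 := by
          funext i
          exact i.elim0
        rw [hg1, map_one]
        exact E.one_mem
      · obtain ⟨i0⟩ : Nonempty (Fin n) := ⟨⟨0, Nat.pos_of_ne_zero hn⟩⟩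
        have hw : ∀ i, i ≠ i0 → ∀ s ∈ T,
            M.ι (fun j => if j = i then s else if j = i0 then s⁻¹ else 1) ∈ E := by
          intro i hi s hs
          obtain ⟨f, hfdef⟩ : ∃ f : Fin n → D,
              f = fun j => if j = i then s else if j = i0 then s⁻¹ else 1 := ⟨_, rfl⟩
          rw [← hfdef]
          obtain ⟨τ, hτH, hτ1, hτ2⟩ := hswap i i0 hi
          have hfT : ∀ j, f j ∈ T := by
            intro j
            rw [hfdef]
            dsimp only
            split_ifs
            · exact hs
            · exact T.inv_mem hs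
            · exact T.one_mem
          have hfΔ : Δ (M.ι f) = 1 := by
            rw [hι, Finset.prod_eq_mul i i0 hi]
            · rw [hfdef]
              dsimp only
              rw [if_pos rfl, if_neg (Ne.symm hi), if_pos rfl, map_inv, mul_inv_cancel]
            · intro c _ hc
              rw [hfdef]
              dsimp only
              rw [if_neg hc.1, if_neg hc.2, map_one]
            · intro h
              exact absurd (Finset.mem_univ i) h
            · intro h
              exact absurd (Finset.mem_univ i0) h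
          have hconj : (fun j => f (τ⁻¹ j)) = f⁻¹ := by
            funext j
            have hτi0 : τ⁻¹ i0 = i := by
              rw [Equiv.Perm.inv_eq_iff_eq]
              exact hτ1.symm
            have hτi : τ⁻¹ i = i0 := by
              rw [Equiv.Perm.inv_eq_iff_eq]
              exact hτ2.symm
            rw [Pi.inv_apply]
            by_cases hj0 : j = i0
            · rw [hj0, hτi0, hfdef]
              dsimp only
              rw [if_pos rfl, if_neg (Ne.symm hi), if_pos rfl, inv_inv]
            · by_cases hji : j = i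
              · rw [hji, hτi, hfdef]
                dsimp only
                rw [if_neg (Ne.symm hi), if_pos rfl, if_pos rfl]
              · have h1 : τ⁻¹ j ≠ i := by
                  intro h
                  apply hj0
                  rw [← hτ1, ← h]
                  simp
                have h2 : τ⁻¹ j ≠ i0 := by
                  intro h
                  apply hji
                  rw [← hτ2, ← h]
                  simp
                rw [hfdef]
                dsimp only
                rw [if_neg h1, if_neg h2, if_neg hji, if_neg hj0, inv_one]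
          have hstar := M.star τ f
          rw [hconj, map_inv] at hstar
          have hwB1 : M.ι f ∈ B1 := (hB1mem _).mpr ⟨hιB f hfT, hfΔ⟩
          have hπB1 : M.π τ ∈ B1 := hB0B1 (hπB0 τ hτH)
          rw [hEmem]
          refine ⟨hwB1, ?_⟩
          have e : M.ι f ^ 2 = (⁅M.π τ, M.ι f⁆)⁻¹ := by
            rw [commutatorElement_def, hstar, pow_two, mul_inv_cancel_right, mul_inv_rev, inv_inv]
          rw [e]
          exact Subgroup.inv_mem _ (Subgroup.commutator_mem_commutator hπB1 hwB1)
        have hind : ∀ N : ℕ, ∀ g : Fin n → D, (∀ i, g i ∈ T) → Δ (M.ι g) = 1 →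
            (Finset.univ.filter (fun j => j ≠ i0 ∧ g j ≠ 1)).card = N → M.ι g ∈ E := by
          intro N
          induction N with
          | zero =>
            intro g hg hΔ hcard
            have hzero : ∀ j, j ≠ i0 → g j = 1 := by
              intro j hj
              by_contra hne
              have hmem : j ∈ Finset.univ.filter (fun j => j ≠ i0 ∧ g j ≠ 1) :=
                Finset.mem_filter.mpr ⟨Finset.mem_univ j, hj, hne⟩
              rw [Finset.card_eq_zero.mp hcard] at hmem
              simp at hmem
            have hδ : δ (g i0) = 1 := by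
              rw [hι, Finset.prod_eq_single i0] at hΔ
              · exact hΔ
              · intro j _ hj
                rw [hzero j hj, map_one]
              · intro h
                exact absurd (Finset.mem_univ i0) h
            apply hB0E
            refine ⟨g, fun j => ?_, 1, H.one_mem, by rw [map_one, mul_one]⟩
            by_cases hj : j = i0
            · rw [hj]
              exact (hT1mem _).mpr ⟨hg i0, hδ⟩
            · rw [hzero j hj]
              exact T1.one_mem
          | succ N ih =>
            intro g hg hΔ hcard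
            have hne : (Finset.univ.filter (fun j => j ≠ i0 ∧ g j ≠ 1)).Nonempty := by
              rw [← Finset.card_pos, hcard]
              exact Nat.succ_pos N
            obtain ⟨i, hi⟩ := hne
            obtain ⟨-, hii0, hgi⟩ := Finset.mem_filter.mp hi
            obtain ⟨f, hfdef⟩ : ∃ f : Fin n → D,
                f = fun j => if j = i then g i else if j = i0 then (g i)⁻¹ else 1 := ⟨_, rfl⟩
            have hfE : M.ι f ∈ E := by
              rw [hfdef]
              exact hw i hii0 (g i) (hg i)
            have hfT : ∀ j, f j ∈ T := by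
              intro j
              rw [hfdef]
              dsimp only
              split_ifs
              · exact hg i
              · exact T.inv_mem (hg i)
              · exact T.one_mem
            have hg''T : ∀ j, (f⁻¹ * g) j ∈ T :=
              fun j => T.mul_mem (T.inv_mem (hfT j)) (hg j)
            have hfΔ : Δ (M.ι f) = 1 := ((hB1mem _).mp ((hEmem _).mp hfE).1).2
            have hg''Δ : Δ (M.ι (f⁻¹ * g)) = 1 := by
              rw [map_mul, map_mul, map_inv, map_inv, hfΔ, hΔ, inv_one, one_mul]
            have hval : ∀ j, j ≠ i0 → j ≠ i → (f⁻¹ * g) j = g j := by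
              intro j h0 h1
              rw [Pi.mul_apply, Pi.inv_apply, hfdef]
              dsimp only
              rw [if_neg h1, if_neg h0, inv_one, one_mul]
            have hvali : (f⁻¹ * g) i = 1 := by
              rw [Pi.mul_apply, Pi.inv_apply, hfdef]
              dsimp only
              rw [if_pos rfl, inv_mul_cancel]
            have hset : Finset.univ.filter (fun j => j ≠ i0 ∧ (f⁻¹ * g) j ≠ 1) =
                (Finset.univ.filter (fun j => j ≠ i0 ∧ g j ≠ 1)).erase i := by
              ext j
              rw [Finset.mem_erase, Finset.mem_filter, Finset.mem_filter]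
              constructor
              · rintro ⟨-, h0, h1⟩
                have hji : j ≠ i := by
                  intro h
                  rw [h] at h1
                  exact h1 hvali
                rw [hval j h0 hji] at h1
                exact ⟨hji, Finset.mem_univ j, h0, h1⟩
              · rintro ⟨hji, -, h0, h1⟩
                refine ⟨Finset.mem_univ j, h0, ?_⟩
                rw [hval j h0 hji]
                exact h1
            have hcard'' : (Finset.univ.filter (fun j => j ≠ i0 ∧ (f⁻¹ * g) j ≠ 1)).card = N := by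
              have h1 := Finset.card_erase_of_mem hi
              rw [hset]
              omega
            have h1 := ih (f⁻¹ * g) hg''T hg''Δ hcard''
            have e : M.ι g = M.ι f * M.ι (f⁻¹ * g) := by
              rw [← map_mul, mul_inv_cancel_left]
            rw [e]
            exact E.mul_mem hfE h1
        intro g hg hΔ
        exact hind _ g hg hΔ rfl
  intro x hx
  obtain ⟨⟨g, hg, σ, hσ, rfl⟩, hΔ⟩ := (hB1mem x).mp hx
  rw [map_mul, hπ, mul_one] at hΔ
  exact ((hEmem _).mp (E.mul_mem (hC g hg hΔ) (hB0E _ (hπB0 σ hσ)))).2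

end Cfsg.Agent.Lib.Helper17.MonKer
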