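import Mathlib
import Cfsg.Prelude.Def_LocalEven

set_option autoImplicit false

namespace Cfsg.Agent.Lib.Helper17

open Cfsg

section MatrixFacts
variable {F : Type*} [Field F]

theorem sl2_sq_zero (M : Matrix (Fin 2) (Fin 2) F) (hdet : M.det = 1) (w : Fin 2 → F)
    (hw : w ≠ 0) (hMw : M.mulVec w = w) : (M - 1) * (M - 1) = 0 := by
  have e1 : M 0 0 * w 0 + M 0 1 * w 1 = w 0 := by
    have := congrFun hMw 0
    simpa [Matrix.mulVec, dotProduct, Fin.sum_univ_two] using this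
  have e2 : M 1 0 * w 0 + M 1 1 * w 1 = w 1 := by
    have := congrFun hMw 1
    simpa [Matrix.mulVec, dotProduct, Fin.sum_univ_two] using this
  rw [Matrix.det_fin_two] at hdet
  have htr : M 0 0 + M 1 1 = 2 := by
    have hw' : w 0 ≠ 0 ∨ w 1 ≠ 0 := by
      by_contra h
      push Not at h
      apply hw
      ext i
      fin_cases i
      · exact h.1
      · exact h.2
    rcases hw' with h | h
    · have : (2 - M 0 0 - M 1 1) * w 0 = 0 := by
        linear_combination (M 1 1 - 1) * e1 - M 0 1 * e2 - w 0 * hdet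
      rcases mul_eq_zero.mp this with h' | h'
      · linear_combination -h'
      · exact absurd h' h
    · have : (2 - M 0 0 - M 1 1) * w 1 = 0 := by
        linear_combination (M 0 0 - 1) * e2 - M 1 0 * e1 - w 1 * hdet
      rcases mul_eq_zero.mp this with h' | h'
      · linear_combination -h'
      · exact absurd h' h
  ext i j
  fin_cases i <;> fin_cases j <;>
    simp [Matrix.mul_apply, Fin.sum_univ_two, Matrix.one_apply]
  · linear_combination (M 0 0) * htr - hdet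
  · linear_combination M 0 1 * htr
  · linear_combination M 1 0 * htr
  · linear_combination (M 1 1) * htr - hdet

theorem one_add_pow_of_sq_zero {R : Type*} [Ring R] (N : R) (hN : N * N = 0) (k : ℕ) :
    (1 + N) ^ k = 1 + k • N := by
  induction k with
  | zero => simp
  | succ k ih =>
    rw [pow_succ, ih, mul_add, mul_one, add_mul, one_mul, smul_mul_assoc, hN, smul_zero, add_zero,
      succ_nsmul]
    abel

theorem sl2_pow_char {p : ℕ} [CharP F p] (M : Matrix (Fin 2) (Fin 2) F) (hdet : M.det = 1)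
    (w : Fin 2 → F) (hw : w ≠ 0) (hMw : M.mulVec w = w) : M ^ p = 1 := by
  have h := one_add_pow_of_sq_zero (M - 1) (sl2_sq_zero M hdet w hw hMw) p
  rw [add_sub_cancel] at h
  rw [h]
  have : (p • (M - 1) : Matrix (Fin 2) (Fin 2) F) = 0 := by
    rw [← Nat.cast_smul_eq_nsmul F, CharP.cast_eq_zero, zero_smul]
  rw [this, add_zero]

end MatrixFacts

/-- Coordinates for a natural `SL₂`-module `V` of `L`, normalised so that `T` is the upper
unitriangular group. -/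
structure SL2Coord {G : Type*} [Group G] (F : Type*) [Field F] (V L T : Subgroup G) where
  c : G → Fin 2 → F
  r : G → Matrix (Fin 2) (Fin 2) F
  c_mul : ∀ v ∈ V, ∀ w ∈ V, c (v * w) = c v + c w
  c_inj : ∀ v ∈ V, c v = 0 → v = 1
  c_surj : ∀ w : Fin 2 → F, ∃ v ∈ V, c v = w
  r_one : r 1 = 1
  r_mul : ∀ l ∈ L, ∀ m ∈ L, r (l * m) = r l * r m
  r_det : ∀ l ∈ L, (r l).det = 1
  r_inj : ∀ l ∈ L, r l = 1 → l = 1
  r_surj : ∀ M : Matrix (Fin 2) (Fin 2) F, M.det = 1 → ∃ l ∈ L, r l = M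
  conj_mem : ∀ l ∈ L, ∀ v ∈ V, l * v * l⁻¹ ∈ V
  c_conj : ∀ l ∈ L, ∀ v ∈ V, c (l * v * l⁻¹) = (r l).mulVec (c v)
  T_le : T ≤ L
  T_iff : ∀ l ∈ L, l ∈ T ↔ r l 1 0 = 0 ∧ r l 0 0 = 1

namespace SL2Coord

variable {G : Type*} [Group G] {F : Type*} [Field F] {V L T : Subgroup G} (D : SL2Coord F V L T)
include D

theorem c_one : D.c 1 = 0 := by
  have := D.c_mul 1 V.one_mem 1 V.one_mem
  rw [mul_one] at this
  exact left_eq_add.mp this

theorem c_inv {v : G} (hv : v ∈ V) : D.c v⁻¹ = - D.c v := by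
  have := D.c_mul v hv v⁻¹ (V.inv_mem hv)
  rw [mul_inv_cancel, D.c_one] at this
  exact eq_neg_of_add_eq_zero_right this.symm

theorem c_ext {v w : G} (hv : v ∈ V) (hw : w ∈ V) (h : D.c v = D.c w) : v = w := by
  have h1 : D.c (v * w⁻¹) = 0 := by
    rw [D.c_mul v hv w⁻¹ (V.inv_mem hw), D.c_inv hw, h, add_neg_cancel]
  have := D.c_inj _ (V.mul_mem hv (V.inv_mem hw)) h1
  exact mul_inv_eq_one.mp this

theorem comm {v w : G} (hv : v ∈ V) (hw : w ∈ V) : v * w = w * v := by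
  apply D.c_ext (V.mul_mem hv hw) (V.mul_mem hw hv)
  rw [D.c_mul v hv w hw, D.c_mul w hw v hv, add_comm]

theorem c_ext' {v w : G} (hv : v ∈ V) (hw : w ∈ V) (h0 : D.c v 0 = D.c w 0)
    (h1 : D.c v 1 = D.c w 1) : v = w := by
  apply D.c_ext hv hw
  ext i
  fin_cases i
  · exact h0
  · exact h1

theorem exists_coord (x y : F) : ∃ v ∈ V, D.c v 0 = x ∧ D.c v 1 = y := by
  obtain ⟨v, hv, h⟩ := D.c_surj ![x, y]
  exact ⟨v, hv, by rw [h]; rfl, by rw [h]; rfl⟩

theorem r_inv {l : G} (hl : l ∈ L) : D.r l⁻¹ = (D.r l).adjugate := by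
  have h1 : D.r l * D.r l⁻¹ = 1 := by
    rw [← D.r_mul l hl l⁻¹ (L.inv_mem hl), mul_inv_cancel, D.r_one]
  calc D.r l⁻¹ = ((D.r l).adjugate * D.r l) * D.r l⁻¹ := by
        rw [Matrix.adjugate_mul, D.r_det l hl, one_smul, one_mul]
    _ = (D.r l).adjugate := by rw [mul_assoc, h1, mul_one]

theorem conj0 {l v : G} (hl : l ∈ L) (hv : v ∈ V) :
    D.c (l * v * l⁻¹) 0 = D.r l 0 0 * D.c v 0 + D.r l 0 1 * D.c v 1 := by
  rw [D.c_conj l hl v hv]
  simp [Matrix.mulVec, dotProduct, Fin.sum_univ_two]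

theorem conj1 {l v : G} (hl : l ∈ L) (hv : v ∈ V) :
    D.c (l * v * l⁻¹) 1 = D.r l 1 0 * D.c v 0 + D.r l 1 1 * D.c v 1 := by
  rw [D.c_conj l hl v hv]
  simp [Matrix.mulVec, dotProduct, Fin.sum_univ_two]

theorem T_r11 {t : G} (ht : t ∈ T) : D.r t 1 1 = 1 := by
  have hl := D.T_le ht
  obtain ⟨h10, h00⟩ := (D.T_iff t hl).mp ht
  have hd := D.r_det t hl
  rw [Matrix.det_fin_two, h10, h00] at hd
  linear_combination hd

theorem T_act0 {t v : G} (ht : t ∈ T) (hv : v ∈ V) :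
    D.c (t * v * t⁻¹) 0 = D.c v 0 + D.r t 0 1 * D.c v 1 := by
  have hl := D.T_le ht
  obtain ⟨h10, h00⟩ := (D.T_iff t hl).mp ht
  rw [D.conj0 hl hv, h00, one_mul]

theorem T_act1 {t v : G} (ht : t ∈ T) (hv : v ∈ V) :
    D.c (t * v * t⁻¹) 1 = D.c v 1 := by
  have hl := D.T_le ht
  obtain ⟨h10, h00⟩ := (D.T_iff t hl).mp ht
  rw [D.conj1 hl hv, h10, D.T_r11 ht, zero_mul, zero_add, one_mul]

theorem T_surj (a : F) : ∃ t ∈ T, D.r t 0 1 = a := by
  obtain ⟨l, hl, h⟩ := D.r_surj !![1, a; 0, 1] (by simp [Matrix.det_fin_two])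
  refine ⟨l, (D.T_iff l hl).mpr ?_, ?_⟩
  · rw [h]; simp
  · rw [h]; simp

theorem T_ne {t : G} (ht : t ∈ T) (h1 : t ≠ 1) : D.r t 0 1 ≠ 0 := by
  intro h
  apply h1
  have hl := D.T_le ht
  obtain ⟨h10, h00⟩ := (D.T_iff t hl).mp ht
  apply D.r_inj t hl
  ext i j
  fin_cases i <;> fin_cases j
  · simpa using h00
  · simpa using h
  · simpa using h10
  · simpa using D.T_r11 ht

theorem mem_cent_iff {v : G} (hv : v ∈ V) :
    v ∈ Subgroup.centralizer (T : Set G) ↔ D.c v 1 = 0 := by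
  constructor
  · intro h
    obtain ⟨t, ht, ha⟩ := D.T_surj 1
    have h1 : t * v * t⁻¹ = v := by
      have := h t ht
      rw [this, mul_inv_cancel_right]
    have h2 := D.T_act0 ht hv
    rw [h1, ha, one_mul] at h2
    exact left_eq_add.mp h2
  · intro h t ht
    have h1 : t * v * t⁻¹ = v := by
      apply D.c_ext' (D.conj_mem t (D.T_le ht) v hv) hv
      · rw [D.T_act0 ht hv, h, mul_zero, add_zero]
      · rw [D.T_act1 ht hv]
    calc t * v = t * v * t⁻¹ * t := by group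
      _ = v * t := by rw [h1]

theorem comm_mem {t v : G} (ht : t ∈ T) (hv : v ∈ V) : v * t * v⁻¹ * t⁻¹ ∈ V := by
  have : v * t * v⁻¹ * t⁻¹ = v * (t * v⁻¹ * t⁻¹) := by group
  rw [this]
  exact V.mul_mem hv (D.conj_mem t (D.T_le ht) _ (V.inv_mem hv))

theorem comm0 {t v : G} (ht : t ∈ T) (hv : v ∈ V) :
    D.c (v * t * v⁻¹ * t⁻¹) 0 = - (D.r t 0 1 * D.c v 1) := by
  have : v * t * v⁻¹ * t⁻¹ = v * (t * v⁻¹ * t⁻¹) := by group
  rw [this, D.c_mul v hv _ (D.conj_mem t (D.T_le ht) _ (V.inv_mem hv))]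
  rw [Pi.add_apply, D.T_act0 ht (V.inv_mem hv), D.c_inv hv]
  simp only [Pi.neg_apply]
  ring

theorem comm1 {t v : G} (ht : t ∈ T) (hv : v ∈ V) :
    D.c (v * t * v⁻¹ * t⁻¹) 1 = 0 := by
  have : v * t * v⁻¹ * t⁻¹ = v * (t * v⁻¹ * t⁻¹) := by group
  rw [this, D.c_mul v hv _ (D.conj_mem t (D.T_le ht) _ (V.inv_mem hv))]
  rw [Pi.add_apply, D.T_act1 ht (V.inv_mem hv), D.c_inv hv]
  simp only [Pi.neg_apply]
  ring

theorem comm_le : ⁅V, T⁆ ≤ V ⊓ Subgroup.centralizer (T : Set G) := by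
  rw [Subgroup.commutator_le]
  intro v hv t ht
  rw [commutatorElement_def]
  exact ⟨D.comm_mem ht hv, (D.mem_cent_iff (D.comm_mem ht hv)).mpr (D.comm1 ht hv)⟩

theorem comm_comm : ⁅⁅V, T⁆, T⁆ = ⊥ := by
  rw [Subgroup.commutator_eq_bot_iff_le_centralizer]
  exact D.comm_le.trans inf_le_right

theorem exists_comm_eq {c v : G} (hc : c ∈ V ⊓ Subgroup.centralizer (T : Set G)) (hv : v ∈ V)
    (hv1 : D.c v 1 ≠ 0) : ∃ t ∈ T, c = v * t * v⁻¹ * t⁻¹ := by
  obtain ⟨t, ht, ha⟩ := D.T_surj (-(D.c c 0) / D.c v 1)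
  refine ⟨t, ht, ?_⟩
  apply D.c_ext' hc.1 (D.comm_mem ht hv)
  · rw [D.comm0 ht hv, ha]; field_simp
  · rw [D.comm1 ht hv, (D.mem_cent_iff hc.1).mp hc.2]

theorem exists_comm_eq' {c t : G} (hc : c ∈ V ⊓ Subgroup.centralizer (T : Set G)) (ht : t ∈ T)
    (ht1 : t ≠ 1) : ∃ v ∈ V, c = v * t * v⁻¹ * t⁻¹ := by
  obtain ⟨v, hv, h0, h1⟩ := D.exists_coord 0 (-(D.c c 0) / D.r t 0 1)
  refine ⟨v, hv, ?_⟩
  have hne := D.T_ne ht ht1
  apply D.c_ext' hc.1 (D.comm_mem ht hv)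
  · rw [D.comm0 ht hv, h1]; field_simp
  · rw [D.comm1 ht hv, (D.mem_cent_iff hc.1).mp hc.2]

theorem card_V [Fintype F] : Nat.card V = Fintype.card F ^ 2 := by
  have hbij : Function.Bijective (fun v : V => D.c (v : G)) := by
    constructor
    · intro v w h; exact Subtype.ext (D.c_ext v.2 w.2 h)
    · intro w; obtain ⟨v, hv, h⟩ := D.c_surj w; exact ⟨⟨v, hv⟩, h⟩
  rw [Nat.card_eq_of_bijective _ hbij, Nat.card_eq_fintype_card, Fintype.card_fun,
    Fintype.card_fin]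

theorem card_cent [Fintype F] :
    Nat.card ↥(V ⊓ Subgroup.centralizer (T : Set G)) = Fintype.card F := by
  have hbij : Function.Bijective
      (fun v : ↥(V ⊓ Subgroup.centralizer (T : Set G)) => D.c (v : G) 0) := by
    constructor
    · intro v w h
      apply Subtype.ext
      apply D.c_ext' v.2.1 w.2.1 h
      rw [(D.mem_cent_iff v.2.1).mp v.2.2, (D.mem_cent_iff w.2.1).mp w.2.2]
    · intro x
      obtain ⟨v, hv, h0, h1⟩ := D.exists_coord x 0
      exact ⟨⟨v, hv, (D.mem_cent_iff hv).mpr h1⟩, h0⟩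
  rw [Nat.card_eq_of_bijective _ hbij, Nat.card_eq_fintype_card]

theorem cent_singleton {s : G} (hs : s ∈ T) (hs1 : s ≠ 1) :
    V ⊓ Subgroup.centralizer ({s} : Set G) = V ⊓ Subgroup.centralizer (T : Set G) := by
  apply le_antisymm
  · rintro v ⟨hv, hvs⟩
    refine ⟨hv, (D.mem_cent_iff hv).mpr ?_⟩
    have h1 : s * v * s⁻¹ = v := by
      have := hvs s (Set.mem_singleton s)
      rw [this, mul_inv_cancel_right]
    have h2 := D.T_act0 hs hv
    rw [h1] at h2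
    have h3 : D.r s 0 1 * D.c v 1 = 0 := left_eq_add.mp h2
    exact (mul_eq_zero.mp h3).resolve_left (D.T_ne hs hs1)
  · exact inf_le_inf_left V (Subgroup.centralizer_le (Set.singleton_subset_iff.mpr hs))

theorem comm_eq {s : G} (hs : s ∈ T) (hs1 : s ≠ 1) :
    ⁅V, T⁆ = V ⊓ Subgroup.centralizer (T : Set G) := by
  apply le_antisymm D.comm_le
  intro c hc
  obtain ⟨v, hv, rfl⟩ := D.exists_comm_eq' hc hs hs1
  rw [← commutatorElement_def]
  exact Subgroup.commutator_mem_commutator hv hs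

theorem comm_zpowers {s : G} (hs : s ∈ T) (hs1 : s ≠ 1) :
    ⁅V, Subgroup.zpowers s⁆ = V ⊓ Subgroup.centralizer (T : Set G) := by
  apply le_antisymm
  · exact (Subgroup.commutator_mono le_rfl (Subgroup.zpowers_le.mpr hs)).trans D.comm_le
  · intro c hc
    obtain ⟨v, hv, rfl⟩ := D.exists_comm_eq' hc hs hs1
    rw [← commutatorElement_def]
    exact Subgroup.commutator_mem_commutator hv (Subgroup.mem_zpowers s)

theorem closure_comm {v : G} (hv : v ∈ V) (hvT : v ∉ Subgroup.centralizer (T : Set G)) :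
    Subgroup.closure {x : G | ∃ t ∈ T, x = v * t * v⁻¹ * t⁻¹}
      = V ⊓ Subgroup.centralizer (T : Set G) := by
  apply le_antisymm
  · rw [Subgroup.closure_le]
    rintro x ⟨t, ht, rfl⟩
    apply D.comm_le
    rw [← commutatorElement_def]
    exact Subgroup.commutator_mem_commutator hv ht
  · intro c hc
    have hv1 : D.c v 1 ≠ 0 := fun h => hvT ((D.mem_cent_iff hv).mpr h)
    obtain ⟨t, ht, h⟩ := D.exists_comm_eq hc hv hv1
    exact Subgroup.subset_closure ⟨t, ht, h⟩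

theorem r_pow {l : G} (hl : l ∈ L) (k : ℕ) : D.r (l ^ k) = D.r l ^ k := by
  induction k with
  | zero => rw [pow_zero, pow_zero, D.r_one]
  | succ k ih => rw [pow_succ, pow_succ, D.r_mul _ (L.pow_mem hl k) _ hl, ih]

theorem upper_conj {h t : G} (hh : h ∈ L) (h10 : D.r h 1 0 = 0) (ht : t ∈ T) :
    h * t * h⁻¹ ∈ T := by
  have hL : h * t * h⁻¹ ∈ L := L.mul_mem (L.mul_mem hh (D.T_le ht)) (L.inv_mem hh)
  obtain ⟨t10, t00⟩ := (D.T_iff t (D.T_le ht)).mp ht
  have t11 := D.T_r11 ht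
  have hd := D.r_det h hh
  rw [Matrix.det_fin_two, h10] at hd
  rw [D.T_iff _ hL, D.r_mul _ (L.mul_mem hh (D.T_le ht)) _ (L.inv_mem hh),
    D.r_mul _ hh _ (D.T_le ht), D.r_inv hh, Matrix.adjugate_fin_two]
  constructor
  · simp [Matrix.mul_apply, Fin.sum_univ_two, h10, t10, t11]
  · simp [Matrix.mul_apply, Fin.sum_univ_two, h10, t10, t00, t11]
    linear_combination hd

theorem mem_normalizer_of_upper {h : G} (hh : h ∈ L) (h10 : D.r h 1 0 = 0) :
    h ∈ Subgroup.normalizer (T : Set G) := by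
  rw [Subgroup.mem_normalizer_iff]
  intro t
  constructor
  · exact D.upper_conj hh h10
  · intro ht
    have h10' : D.r h⁻¹ 1 0 = 0 := by
      rw [D.r_inv hh, Matrix.adjugate_fin_two]; simp [h10]
    have := D.upper_conj (L.inv_mem hh) h10' ht
    have e : h⁻¹ * (h * t * h⁻¹) * h⁻¹⁻¹ = t := by group
    rwa [e] at this

theorem mem_cent_conj_iff {g v : G} (hg : g ∈ L) (hv : v ∈ V) :
    v ∈ Subgroup.centralizer ((T.map (MulAut.conj g).toMonoidHom : Subgroup G) : Set G)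
      ↔ D.r g 0 0 * D.c v 1 = D.r g 1 0 * D.c v 0 := by
  have hv' : g⁻¹ * v * g⁻¹⁻¹ ∈ V := D.conj_mem _ (L.inv_mem hg) v hv
  have key : v ∈ Subgroup.centralizer ((T.map (MulAut.conj g).toMonoidHom : Subgroup G) : Set G)
      ↔ g⁻¹ * v * g⁻¹⁻¹ ∈ Subgroup.centralizer (T : Set G) := by
    constructor
    · intro h t ht
      have := h (g * t * g⁻¹) ⟨t, ht, rfl⟩
      calc t * (g⁻¹ * v * g⁻¹⁻¹) = g⁻¹ * ((g * t * g⁻¹) * v) * g := by group
        _ = g⁻¹ * (v * (g * t * g⁻¹)) * g := by rw [this]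
        _ = g⁻¹ * v * g⁻¹⁻¹ * t := by group
    · rintro h _ ⟨t, ht, rfl⟩
      have := h t ht
      show (g * t * g⁻¹) * v = v * (g * t * g⁻¹)
      calc g * t * g⁻¹ * v = g * (t * (g⁻¹ * v * g⁻¹⁻¹)) * g⁻¹ := by group
        _ = g * ((g⁻¹ * v * g⁻¹⁻¹) * t) * g⁻¹ := by rw [this]
        _ = v * (g * t * g⁻¹) := by group
  rw [key, D.mem_cent_iff hv', D.conj1 (L.inv_mem hg) hv, D.r_inv hg, Matrix.adjugate_fin_two]
  simp only [Matrix.of_apply, Matrix.cons_val_zero, Matrix.cons_val_one, Matrix.cons_val',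
    Matrix.cons_val_fin_one]
  constructor
  · intro h; linear_combination h
  · intro h; linear_combination h

theorem internal_direct {g : G} (hg : g ∈ L) (hgN : g ∉ Subgroup.normalizer (T : Set G)) :
    Cfsg.IsInternalDirectProduct (V ⊓ Subgroup.centralizer (T : Set G))
      (V ⊓ Subgroup.centralizer ((T.map (MulAut.conj g).toMonoidHom : Subgroup G) : Set G)) V := by
  have h10 : D.r g 1 0 ≠ 0 := fun h => hgN (D.mem_normalizer_of_upper hg h)
  refine ⟨inf_le_left, inf_le_left, ?_, ?_, ?_⟩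
  · intro a ha b hb; exact D.comm ha.1 hb.1
  · rw [eq_bot_iff]
    rintro v ⟨⟨hv, h1⟩, ⟨_, h2⟩⟩
    rw [Subgroup.mem_bot]
    have e1 := (D.mem_cent_iff hv).mp h1
    have e2 := (D.mem_cent_conj_iff hg hv).mp h2
    rw [e1, mul_zero] at e2
    have e0 : D.c v 0 = 0 := (mul_eq_zero.mp e2.symm).resolve_left h10
    apply D.c_inj v hv
    ext i
    fin_cases i
    · exact e0
    · exact e1
  · apply le_antisymm (sup_le inf_le_left inf_le_left)
    intro v hv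
    obtain ⟨v₂, hv₂, h20, h21⟩ := D.exists_coord (D.r g 0 0 * D.c v 1 / D.r g 1 0) (D.c v 1)
    obtain ⟨v₁, hv₁, h10', h11⟩ :=
      D.exists_coord (D.c v 0 - D.r g 0 0 * D.c v 1 / D.r g 1 0) 0
    have : v = v₁ * v₂ := by
      apply D.c_ext' hv (V.mul_mem hv₁ hv₂)
      · rw [D.c_mul _ hv₁ _ hv₂, Pi.add_apply, h10', h20]; ring
      · rw [D.c_mul _ hv₁ _ hv₂, Pi.add_apply, h11, h21]; ring
    rw [this]
    apply Subgroup.mul_mem_sup
    · exact ⟨hv₁, (D.mem_cent_iff hv₁).mpr h11⟩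
    · refine ⟨hv₂, (D.mem_cent_conj_iff hg hv₂).mpr ?_⟩
      rw [h20, h21]; field_simp

theorem fixed_free {p : ℕ} [CharP F p] {x : G} (hx : x ∈ L) (hx1 : x ≠ 1)
    (hcop : (orderOf x).Coprime p) : V ⊓ Subgroup.centralizer ({x} : Set G) = ⊥ := by
  rw [eq_bot_iff]
  rintro v ⟨hv, hvx⟩
  rw [Subgroup.mem_bot]
  by_contra hv1
  have h1 : x * v * x⁻¹ = v := by
    have := hvx x (Set.mem_singleton x)
    rw [this, mul_inv_cancel_right]
  have h2 : (D.r x).mulVec (D.c v) = D.c v := by rw [← D.c_conj x hx v hv, h1]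
  have h3 : D.c v ≠ 0 := fun h => hv1 (D.c_inj v hv h)
  have h4 : D.r x ^ p = 1 := sl2_pow_char (D.r x) (D.r_det x hx) (D.c v) h3 h2
  have h5 : D.r (x ^ p) = 1 := by rw [D.r_pow hx, h4]
  have h6 : x ^ p = 1 := D.r_inj _ (L.pow_mem hx p) h5
  have h7 : orderOf x ∣ p := orderOf_dvd_of_pow_eq_one h6
  have h8 : orderOf x = 1 := Nat.Coprime.eq_one_of_dvd hcop h7
  exact hx1 (orderOf_eq_one_iff.mp h8)

theorem torus (t : F) (ht : t ≠ 0) :
    ∃ h ∈ L ⊓ Subgroup.normalizer (T : Set G), D.r h = !![t, 0; 0, t⁻¹] := by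
  obtain ⟨h, hh, hr⟩ := D.r_surj !![t, 0; 0, t⁻¹] (by simp [Matrix.det_fin_two, ht])
  exact ⟨h, ⟨hh, D.mem_normalizer_of_upper hh (by rw [hr]; simp)⟩, hr⟩

theorem irred_cent (U : Subgroup G) (hU : U ≤ V ⊓ Subgroup.centralizer (T : Set G))
    (hN : L ⊓ Subgroup.normalizer (T : Set G) ≤ Subgroup.normalizer (U : Set G)) :
    U = ⊥ ∨ U = V ⊓ Subgroup.centralizer (T : Set G) := by
  by_cases hbot : U = ⊥
  · exact Or.inl hbot
  right
  obtain ⟨u₀, hu₀1⟩ := (Subgroup.ne_bot_iff_exists_ne_one.mp hbot)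
  have hu₀U : (u₀ : G) ∈ U := u₀.2
  have hu₀C := hU hu₀U
  have hu₀ne : (u₀ : G) ≠ 1 := fun h => hu₀1 (Subtype.ext h)
  have hx₀ : D.c (u₀ : G) 0 ≠ 0 := by
    intro h
    apply hu₀ne
    apply D.c_inj _ hu₀C.1
    ext i
    fin_cases i
    · exact h
    · exact (D.mem_cent_iff hu₀C.1).mp hu₀C.2
  apply le_antisymm hU
  intro c hc
  by_cases hc0 : D.c c 0 = 0
  · have : c = 1 := by
      apply D.c_inj c hc.1
      ext i
      fin_cases i
      · exact hc0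
      · exact (D.mem_cent_iff hc.1).mp hc.2
    rw [this]; exact U.one_mem
  · obtain ⟨h, hh, hr⟩ := D.torus (D.c c 0 / D.c (u₀ : G) 0) (div_ne_zero hc0 hx₀)
    have hmem : h * (u₀ : G) * h⁻¹ ∈ U := ((Subgroup.mem_normalizer_iff.mp (hN hh)) _).mp hu₀U
    have : c = h * (u₀ : G) * h⁻¹ := by
      apply D.c_ext' hc.1 (D.conj_mem h hh.1 _ hu₀C.1)
      · rw [D.conj0 hh.1 hu₀C.1, hr]
        simp
        field_simp
      · rw [D.conj1 hh.1 hu₀C.1, hr, (D.mem_cent_iff hc.1).mp hc.2,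
          (D.mem_cent_iff hu₀C.1).mp hu₀C.2]
        simp
    rw [this]; exact hmem

theorem irred_quot (U : Subgroup G) (hCU : V ⊓ Subgroup.centralizer (T : Set G) ≤ U)
    (hUV : U ≤ V)
    (hN : L ⊓ Subgroup.normalizer (T : Set G) ≤ Subgroup.normalizer (U : Set G)) :
    U = V ⊓ Subgroup.centralizer (T : Set G) ∨ U = V := by
  by_cases hle : U ≤ V ⊓ Subgroup.centralizer (T : Set G)
  · exact Or.inl (le_antisymm hle hCU)
  right
  obtain ⟨u₀, hu₀, hu₀C⟩ := SetLike.not_le_iff_exists.mp hle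
  have hu₀V := hUV hu₀
  have hy₀ : D.c u₀ 1 ≠ 0 := fun h => hu₀C ⟨hu₀V, (D.mem_cent_iff hu₀V).mpr h⟩
  apply le_antisymm hUV
  intro v hv
  by_cases hy : D.c v 1 = 0
  · exact hCU ⟨hv, (D.mem_cent_iff hv).mpr hy⟩
  · obtain ⟨h, hh, hr⟩ := D.torus (D.c u₀ 1 / D.c v 1) (div_ne_zero hy₀ hy)
    have hmem : h * u₀ * h⁻¹ ∈ U := ((Subgroup.mem_normalizer_iff.mp (hN hh)) u₀).mp hu₀
    have hmemV := D.conj_mem h hh.1 u₀ hu₀V
    obtain ⟨c, hc, hc0, hc1⟩ := D.exists_coord (D.c v 0 - D.c (h * u₀ * h⁻¹) 0) 0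
    have hcU : c ∈ U := hCU ⟨hc, (D.mem_cent_iff hc).mpr hc1⟩
    have : v = c * (h * u₀ * h⁻¹) := by
      apply D.c_ext' hv (V.mul_mem hc hmemV)
      · rw [D.c_mul _ hc _ hmemV, Pi.add_apply, hc0]; ring
      · rw [D.c_mul _ hc _ hmemV, Pi.add_apply, hc1, D.conj1 hh.1 hu₀V, hr]
        simp
        field_simp
    rw [this]; exact U.mul_mem hcU hmem

end SL2Coord

theorem charP_of_card_pow {F : Type*} [Field F] [Fintype F] {p : ℕ} [Fact p.Prime] (n : ℕ)
    (hF : Fintype.card F = p ^ n) : CharP F p ∧ n ≠ 0 := by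
  have hn : n ≠ 0 := by
    rintro rfl
    have := Fintype.one_lt_card (α := F)
    rw [hF] at this
    simp at this
  obtain ⟨p', hp'⟩ := CharP.exists F
  obtain ⟨m, hp'prime, hm⟩ := FiniteField.card F p'
  have : p' = p := by
    have h1 : p' ∣ p ^ n := by rw [← hF, hm]; exact dvd_pow_self p' m.ne_zero
    exact (Nat.prime_dvd_prime_iff_eq hp'prime (Fact.out)).mp (hp'prime.dvd_of_dvd_pow h1)
  subst this
  exact ⟨hp', hn⟩

theorem mulVec_e1_iff {F : Type*} [Field F] (B : Matrix (Fin 2) (Fin 2) F) :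
    B.mulVec ![1, 0] = ![1, 0] ↔ B 1 0 = 0 ∧ B 0 0 = 1 := by
  constructor
  · intro h
    have h0 := congrFun h 0
    have h1 := congrFun h 1
    simp [Matrix.mulVec, dotProduct, Fin.sum_univ_two] at h0 h1
    exact ⟨h1, h0⟩
  · rintro ⟨h1, h0⟩
    ext i
    fin_cases i <;> simp [Matrix.mulVec, dotProduct, Fin.sum_univ_two, h0, h1]

theorem exists_SL2Coord {G : Type*} [Group G] [Finite G] {p : ℕ} [Fact p.Prime] {F : Type*}
    [Field F] [Fintype F] (n : ℕ) (hF : Fintype.card F = p ^ n) (V L : Subgroup G)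
    (hnat : Cfsg.IsNaturalSL2Module F V L) (hf : L ⊓ Subgroup.centralizer (V : Set G) = ⊥)
    (S : Sylow p ↥L) (T : Subgroup G) (hT : T = ((S : Subgroup ↥L).map L.subtype)) :
    Nonempty (SL2Coord F V L T) := by
  classical
  obtain ⟨hchar, hn⟩ := charP_of_card_pow n hF
  obtain ⟨hLN, ρ, ψ, hρs, hρk, hact⟩ := hnat
  have hρi : Function.Injective ρ := by
    rw [← MonoidHom.ker_eq_bot_iff, hρk, Subgroup.subgroupOf_eq_bot, disjoint_iff, inf_comm]
    exact hf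
  have hQ : IsPGroup p ((S : Subgroup L).map ρ) := S.isPGroup'.map ρ
  have hdvd : p ∣ Nat.card (Fin 2 → F) := by
    rw [Nat.card_eq_fintype_card, Fintype.card_fun, hF, Fintype.card_fin]
    exact dvd_pow (dvd_pow_self p hn) (by norm_num)
  obtain ⟨w₀, hw₀fix, hw₀⟩ := hQ.exists_fixed_point_of_prime_dvd_card_of_fixed_point
    (Fin 2 → F) hdvd (a := 0) (by intro g; exact smul_zero g)
  have hfix : ∀ s : L, s ∈ (S : Subgroup L) → (ρ s).1.mulVec w₀ = w₀ := by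
    intro s hs
    exact hw₀fix ⟨ρ s, Subgroup.mem_map_of_mem ρ hs⟩
  let St : Subgroup L :=
    { carrier := {l | (ρ l).1.mulVec w₀ = w₀}
      one_mem' := by
        show (ρ 1).1.mulVec w₀ = w₀
        rw [map_one]
        exact Matrix.one_mulVec w₀
      mul_mem' := by
        intro a b ha hb
        simp only [Set.mem_ofPred_eq] at ha hb ⊢
        rw [map_mul]
        show ((ρ a).1 * (ρ b).1).mulVec w₀ = w₀
        rw [← Matrix.mulVec_mulVec, hb, ha]
      inv_mem' := by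
        intro a ha
        simp only [Set.mem_ofPred_eq] at ha ⊢
        have h1 : (ρ a⁻¹).1 * (ρ a).1 = 1 := by
          have : ρ a⁻¹ * ρ a = 1 := by rw [← map_mul, inv_mul_cancel, map_one]
          exact congrArg Subtype.val this
        calc (ρ a⁻¹).1.mulVec w₀ = (ρ a⁻¹).1.mulVec ((ρ a).1.mulVec w₀) := by rw [ha]
          _ = w₀ := by rw [Matrix.mulVec_mulVec, h1, Matrix.one_mulVec] }
  have hStp : IsPGroup p St := by
    rintro ⟨l, hl⟩
    refine ⟨1, ?_⟩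
    rw [pow_one]
    apply Subtype.ext
    apply hρi
    show ρ (l ^ p) = ρ 1
    rw [map_pow, map_one]
    apply Subtype.ext
    show (ρ l).1 ^ p = 1
    exact sl2_pow_char (ρ l).1 (ρ l).2 w₀ hw₀.symm hl
  have hSt : St = (S : Subgroup L) := S.is_maximal' hStp (fun s hs => hfix s hs)
  obtain ⟨G0, hG0det, hG0⟩ : ∃ G0 : Matrix (Fin 2) (Fin 2) F,
      G0.det = 1 ∧ G0.mulVec ![1, 0] = w₀ := by
    by_cases hx : w₀ 0 = 0
    · have hy : w₀ 1 ≠ 0 := by
        intro hy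
        apply hw₀
        ext i
        fin_cases i
        · exact hx.symm
        · exact hy.symm
      refine ⟨!![w₀ 0, -(w₀ 1)⁻¹; w₀ 1, 0], ?_, ?_⟩
      · rw [Matrix.det_fin_two]
        simp [hy]
      · ext i
        fin_cases i <;> simp [Matrix.mulVec, dotProduct, Fin.sum_univ_two]
    · refine ⟨!![w₀ 0, 0; w₀ 1, (w₀ 0)⁻¹], ?_, ?_⟩
      · rw [Matrix.det_fin_two]
        simp [hx]
      · ext i
        fin_cases i <;> simp [Matrix.mulVec, dotProduct, Fin.sum_univ_two]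
  set G0i := G0.adjugate with hG0i
  have h1 : G0i * G0 = 1 := by rw [hG0i, Matrix.adjugate_mul, hG0det, one_smul]
  have h2 : G0 * G0i = 1 := by rw [hG0i, Matrix.mul_adjugate, hG0det, one_smul]
  have hG0idet : G0i.det = 1 := by
    have := congrArg Matrix.det h1
    rw [Matrix.det_mul, hG0det, mul_one, Matrix.det_one] at this
    exact this
  have hconj : ∀ l ∈ L, ∀ v ∈ V, l * v * l⁻¹ ∈ V := by
    intro l hl v hv
    exact ((Subgroup.mem_normalizer_iff.mp (hLN hl)) v).mp hv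
  refine ⟨{
    c := fun v => if h : v ∈ V then G0i.mulVec (ψ (Additive.ofMul ⟨v, h⟩)) else 0
    r := fun l => if h : l ∈ L then G0i * (ρ ⟨l, h⟩).1 * G0 else 1
    c_mul := ?_
    c_inj := ?_
    c_surj := ?_
    r_one := ?_
    r_mul := ?_
    r_det := ?_
    r_inj := ?_
    r_surj := ?_
    conj_mem := hconj
    c_conj := ?_
    T_le := ?_
    T_iff := ?_ }⟩
  · intro v hv w hw
    simp only [dif_pos hv, dif_pos hw, dif_pos (V.mul_mem hv hw)]
    have e : (Additive.ofMul (⟨v * w, V.mul_mem hv hw⟩ : V))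
        = Additive.ofMul (⟨v, hv⟩ : V) + Additive.ofMul (⟨w, hw⟩ : V) := rfl
    rw [e, map_add, Matrix.mulVec_add]
  · intro v hv h
    simp only [dif_pos hv] at h
    have h3 : ψ (Additive.ofMul (⟨v, hv⟩ : V)) = 0 := by
      calc ψ (Additive.ofMul (⟨v, hv⟩ : V))
          = (G0 * G0i).mulVec (ψ (Additive.ofMul (⟨v, hv⟩ : V))) := by
            rw [h2, Matrix.one_mulVec]
        _ = G0.mulVec (G0i.mulVec (ψ (Additive.ofMul (⟨v, hv⟩ : V)))) := by
            rw [Matrix.mulVec_mulVec]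
        _ = 0 := by rw [h, Matrix.mulVec_zero]
    have h4 : Additive.ofMul (⟨v, hv⟩ : V) = 0 := (AddEquiv.map_eq_zero_iff ψ).mp h3
    have h5 : (⟨v, hv⟩ : V) = 1 := h4
    exact congrArg Subtype.val h5
  · intro w
    let v : V := Additive.toMul (ψ.symm (G0.mulVec w))
    refine ⟨v, v.2, ?_⟩
    simp only [dif_pos v.2]
    have h3 : ψ (Additive.ofMul (⟨(v : G), v.2⟩ : V)) = G0.mulVec w := ψ.apply_symm_apply _
    rw [h3, Matrix.mulVec_mulVec, h1, Matrix.one_mulVec]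
  · simp only [dif_pos L.one_mem]
    have e : (⟨1, L.one_mem⟩ : L) = 1 := rfl
    rw [e, map_one]
    show G0i * 1 * G0 = 1
    rw [mul_one, h1]
  · intro l hl m hm
    simp only [dif_pos hl, dif_pos hm, dif_pos (L.mul_mem hl hm)]
    have e : (⟨l * m, L.mul_mem hl hm⟩ : L) = ⟨l, hl⟩ * ⟨m, hm⟩ := rfl
    rw [e, map_mul]
    show G0i * ((ρ ⟨l, hl⟩).1 * (ρ ⟨m, hm⟩).1) * G0
      = G0i * (ρ ⟨l, hl⟩).1 * G0 * (G0i * (ρ ⟨m, hm⟩).1 * G0)
    calc G0i * ((ρ ⟨l, hl⟩).1 * (ρ ⟨m, hm⟩).1) * G0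
        = G0i * (ρ ⟨l, hl⟩).1 * 1 * ((ρ ⟨m, hm⟩).1 * G0) := by simp only [mul_one, mul_assoc]
      _ = G0i * (ρ ⟨l, hl⟩).1 * G0 * (G0i * (ρ ⟨m, hm⟩).1 * G0) := by
          rw [← h2]; simp only [mul_assoc]
  · intro l hl
    simp only [dif_pos hl]
    rw [Matrix.det_mul, Matrix.det_mul, hG0idet, hG0det, (ρ ⟨l, hl⟩).2, one_mul, one_mul]
  · intro l hl h
    simp only [dif_pos hl] at h
    have h3 : (ρ ⟨l, hl⟩).1 = 1 := by
      calc (ρ ⟨l, hl⟩).1 = (G0 * G0i) * (ρ ⟨l, hl⟩).1 * (G0 * G0i) := by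
            rw [h2, one_mul, mul_one]
        _ = G0 * (G0i * (ρ ⟨l, hl⟩).1 * G0) * G0i := by simp only [mul_assoc]
        _ = 1 := by rw [h, mul_one, h2]
    have h4 : ρ ⟨l, hl⟩ = ρ 1 := by
      rw [map_one]
      exact Subtype.ext h3
    exact congrArg Subtype.val (hρi h4)
  · intro M hM
    obtain ⟨l, hl⟩ := hρs ⟨G0 * M * G0i, by
      rw [Matrix.det_mul, Matrix.det_mul, hG0det, hM, hG0idet, one_mul, one_mul]⟩
    refine ⟨l, l.2, ?_⟩
    simp only [dif_pos l.2]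
    have e : (⟨(l : G), l.2⟩ : L) = l := rfl
    rw [e, hl]
    show G0i * (G0 * M * G0i) * G0 = M
    calc G0i * (G0 * M * G0i) * G0 = (G0i * G0) * M * (G0i * G0) := by simp only [mul_assoc]
      _ = M := by rw [h1, one_mul, mul_one]
  · intro l hl v hv
    have hmem := hconj l hl v hv
    simp only [dif_pos hv, dif_pos hl, dif_pos hmem]
    obtain ⟨w, hw, hψ⟩ := hact ⟨l, hl⟩ ⟨v, hv⟩
    have e : (⟨l * v * l⁻¹, hmem⟩ : V) = w := Subtype.ext hw.symm
    rw [e, hψ, Matrix.mulVec_mulVec, Matrix.mulVec_mulVec]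
    congr 1
    calc G0i * (ρ ⟨l, hl⟩).1 = G0i * (ρ ⟨l, hl⟩).1 * (G0 * G0i) := by rw [h2, mul_one]
      _ = G0i * (ρ ⟨l, hl⟩).1 * G0 * G0i := by simp only [mul_assoc]
  · rw [hT]
    exact Subgroup.map_subtype_le _
  · intro l hl
    simp only [dif_pos hl]
    have e1 : l ∈ T ↔ (⟨l, hl⟩ : L) ∈ (S : Subgroup L) := by
      rw [hT]
      constructor
      · rintro ⟨s, hs, hsl⟩
        have : s = ⟨l, hl⟩ := Subtype.ext hsl
        rw [← this]
        exact hs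
      · intro h
        exact ⟨⟨l, hl⟩, h, rfl⟩
    rw [e1, ← hSt, ← mulVec_e1_iff]
    show (ρ ⟨l, hl⟩).1.mulVec w₀ = w₀ ↔ _
    constructor
    · intro h
      rw [← Matrix.mulVec_mulVec, ← Matrix.mulVec_mulVec, hG0, h, ← hG0, Matrix.mulVec_mulVec, h1,
        Matrix.one_mulVec]
    · intro h
      calc (ρ ⟨l, hl⟩).1.mulVec w₀
          = ((G0 * G0i) * (ρ ⟨l, hl⟩).1 * G0).mulVec ![1, 0] := by
            rw [h2, one_mul, ← Matrix.mulVec_mulVec, hG0]
        _ = G0.mulVec ((G0i * (ρ ⟨l, hl⟩).1 * G0).mulVec ![1, 0]) := by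
            rw [Matrix.mulVec_mulVec]; simp only [mul_assoc]
        _ = w₀ := by rw [h, hG0]

end Cfsg.Agent.Lib.Helper17
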