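import Mathlib
import Cfsg.Agent.Lib.Helper17.QuadExt

set_option autoImplicit false

namespace Cfsg.Agent.Lib.Helper17

section Emb
variable {F K : Type*} [Field F] [Fintype F] [Field K] [Fintype K]

theorem exists_ringHom_card_sq {q : ℕ} (hF : Fintype.card F = q) (hK : Fintype.card K = q ^ 2) :
    Nonempty (F →+* K) := by
  classical
  have hns : ¬ Function.Surjective (fun x : F => x ^ 2 - x) := by
    rw [← Finite.injective_iff_surjective]
    intro hinj
    have : (0 : F) = 1 := hinj (by simp)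
    exact zero_ne_one this
  obtain ⟨c₀, hc₀⟩ := not_forall.mp hns
  have hc₀' : ∀ x : F, x ^ 2 - x ≠ c₀ := fun x hx => hc₀ ⟨x, hx⟩
  obtain ⟨j, -⟩ := exists_quadratic_ext hF hK (-1) (-c₀) (by
    intro z₁ z₂ h
    by_cases hz : z₂ = 0
    · subst hz
      have : z₁ ^ 2 = 0 := by linear_combination h
      exact ⟨pow_eq_zero_iff (two_ne_zero) |>.mp this, rfl⟩
    · exfalso
      apply hc₀' (z₁ / z₂)
      field_simp
      linear_combination h)
  exact ⟨j⟩

theorem finrank_eq_two_of_card [Algebra F K] {q : ℕ} (hF : Fintype.card F = q)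
    (hK : Fintype.card K = q ^ 2) : Module.finrank F K = 2 := by
  have h := Module.card_eq_pow_finrank (K := F) (V := K)
  rw [hK, hF] at h
  have hq : 1 < q := by rw [← hF]; exact Fintype.one_lt_card
  exact (Nat.pow_right_injective hq h).symm

end Emb

section RS
variable {F K : Type*} [CommRing F] [CommRing K] [Algebra F K] {n I : Type*} [Fintype n]
  [DecidableEq n] [Fintype I] [DecidableEq I]

/-- restriction of scalars of a matrix along an `F`-linear coordinate system -/
noncomputable def rsMat (Ψ : (n → K) ≃ₗ[F] (I → F)) (A : Matrix n n K) : Matrix I I F :=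
  LinearMap.toMatrix' (Ψ.toLinearMap ∘ₗ (A.mulVecLin.restrictScalars F) ∘ₗ Ψ.symm.toLinearMap)

omit [DecidableEq n] in
theorem rsMat_mulVec (Ψ : (n → K) ≃ₗ[F] (I → F)) (A : Matrix n n K) (u : n → K) :
    (rsMat Ψ A).mulVec (Ψ u) = Ψ (A.mulVec u) := by
  unfold rsMat
  rw [LinearMap.toMatrix'_mulVec]
  simp

omit [Fintype n] [DecidableEq n] [DecidableEq I] in
theorem mat_ext_of_rs (Ψ : (n → K) ≃ₗ[F] (I → F)) (M M' : Matrix I I F)
    (h : ∀ u, M.mulVec (Ψ u) = M'.mulVec (Ψ u)) : M = M' := by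
  apply Matrix.mulVec_injective
  funext x
  have := h (Ψ.symm x)
  rwa [Ψ.apply_symm_apply] at this

theorem rsMat_one (Ψ : (n → K) ≃ₗ[F] (I → F)) : rsMat Ψ (1 : Matrix n n K) = 1 := by
  apply mat_ext_of_rs Ψ
  intro u
  rw [rsMat_mulVec, Matrix.one_mulVec, Matrix.one_mulVec]

omit [DecidableEq n] in
theorem rsMat_mul (Ψ : (n → K) ≃ₗ[F] (I → F)) (A B : Matrix n n K) :
    rsMat Ψ (A * B) = rsMat Ψ A * rsMat Ψ B := by
  apply mat_ext_of_rs Ψ
  intro u
  rw [rsMat_mulVec, ← Matrix.mulVec_mulVec, ← Matrix.mulVec_mulVec, rsMat_mulVec, rsMat_mulVec]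

omit [DecidableEq n] in
theorem rsMat_injective (Ψ : (n → K) ≃ₗ[F] (I → F)) : Function.Injective (rsMat Ψ) := by
  intro A B h
  apply Matrix.mulVec_injective
  funext u
  apply Ψ.injective
  rw [← rsMat_mulVec, ← rsMat_mulVec, h]

/-- restriction of scalars as a monoid hom -/
noncomputable def rsHom (Ψ : (n → K) ≃ₗ[F] (I → F)) : Matrix n n K →* Matrix I I F where
  toFun := rsMat Ψ
  map_one' := rsMat_one Ψ
  map_mul' := rsMat_mul Ψ

end RS

section Symp
variable {R : Type*} [CommRing R] {l : Type*} [Fintype l] [DecidableEq l]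

/-- the standard symplectic form attached to `Matrix.J` -/
def stdSymp (x y : l ⊕ l → R) : R :=
  ∑ i, (x (Sum.inr i) * y (Sum.inl i) - x (Sum.inl i) * y (Sum.inr i))

theorem dot_J (x y : l ⊕ l → R) : dotProduct x ((Matrix.J l R).mulVec y) = stdSymp x y := by
  unfold stdSymp Matrix.J
  simp [dotProduct, Matrix.mulVec, Fintype.sum_sum_type, Matrix.one_apply, Finset.sum_sub_distrib]
  ring

theorem mem_symplectic_of_preserves (N : Matrix (l ⊕ l) (l ⊕ l) R)
    (h : ∀ x y, stdSymp (N.mulVec x) (N.mulVec y) = stdSymp x y) :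
    N ∈ Matrix.symplecticGroup l R := by
  rw [SymplecticGroup.mem_iff']
  ext i k
  have := h (Pi.single i 1) (Pi.single k 1)
  rw [← dot_J, ← dot_J, Matrix.mulVec_mulVec, Matrix.dotProduct_mulVec,
    Matrix.vecMul_mulVec] at this
  simpa [Matrix.mulVec_single_one, Matrix.mul_assoc] using this

theorem preserves_of_mem_symplectic (N : Matrix (l ⊕ l) (l ⊕ l) R)
    (h : N ∈ Matrix.symplecticGroup l R) (x y : l ⊕ l → R) :
    stdSymp (N.mulVec x) (N.mulVec y) = stdSymp x y := by
  rw [SymplecticGroup.mem_iff'] at h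
  rw [← dot_J, ← dot_J, Matrix.mulVec_mulVec, ← Matrix.vecMul_transpose, ← Matrix.dotProduct_mulVec,
    Matrix.mulVec_mulVec, ← Matrix.mul_assoc, h]

end Symp

end Cfsg.Agent.Lib.Helper17
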