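import Mathlib
import Cfsg.Prelude.Def_LieClassical
import Cfsg.Agent.Lib.Helper17.RestrictScalars

set_option autoImplicit false

namespace Cfsg.Agent.Lib.Helper17

open Cfsg

section GU
variable {F K : Type*} [Field F] [Field K] [Algebra F K]

/-- coordinates for the embedding of the unitary group into the symplectic group -/
noncomputable def guPsi {l : Type*} (c : K ≃ₗ[F] (Fin 2 → F)) :
    (l → K) ≃ₗ[F] (l ⊕ l → F) where
  toFun u := Sum.elim (fun i => c (u i) 0) (fun i => c (u i) 1)
  invFun x := fun i => c.symm ![x (Sum.inl i), x (Sum.inr i)]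
  map_add' u v := by
    funext k
    rcases k with k | k <;> simp
  map_smul' r u := by
    funext k
    rcases k with k | k <;> simp
  left_inv u := by
    funext i
    show c.symm ![c (u i) 0, c (u i) 1] = u i
    have : ![c (u i) 0, c (u i) 1] = c (u i) := by
      funext s
      fin_cases s <;> rfl
    rw [this, c.symm_apply_apply]
  right_inv x := by
    funext k
    rcases k with k | k <;> simp

theorem guPsi_inl {l : Type*} (c : K ≃ₗ[F] (Fin 2 → F)) (u : l → K) (i : l) :
    guPsi c u (Sum.inl i) = c (u i) 0 := rfl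

theorem guPsi_inr {l : Type*} (c : K ≃ₗ[F] (Fin 2 → F)) (u : l → K) (i : l) :
    guPsi c u (Sum.inr i) = c (u i) 1 := rfl

end GU

theorem exists_pow_ne_self {K : Type*} [Field K] [Fintype K] {q : ℕ} (hq : 1 < q)
    (hK : Fintype.card K = q ^ 2) : ∃ x : K, x ^ q ≠ x := by
  classical
  by_contra h
  push Not at h
  have hP0 : (Polynomial.X ^ q - Polynomial.X : Polynomial K) ≠ 0 :=
    FiniteField.X_pow_card_sub_X_ne_zero K hq
  have h1 : Fintype.card K ≤ q := by
    calc Fintype.card K = Multiset.card (Finset.univ : Finset K).val := rfl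
      _ ≤ Multiset.card (Polynomial.X ^ q - Polynomial.X : Polynomial K).roots := by
          apply Multiset.card_le_card
          rw [Finset.val_le_iff_val_subset]
          intro x _
          rw [Polynomial.mem_roots hP0]
          simp [h x]
      _ ≤ (Polynomial.X ^ q - Polynomial.X : Polynomial K).natDegree := Polynomial.card_roots' _
      _ = q := FiniteField.X_pow_card_sub_X_natDegree_eq K hq
  rw [hK] at h1
  nlinarith

theorem unitary_symplectic_embed {K F : Type*} [Field K] [Fintype K] [Field F] [Fintype F]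
    {q : ℕ} (hK : Fintype.card K = q ^ 2) (hF : Fintype.card F = q) (m : ℕ) :
    ∃ φ : ↥(Cfsg.GU m K q) →* ↥(Matrix.symplecticGroup (Fin m) F), Function.Injective φ := by
  classical
  obtain ⟨j⟩ := exists_ringHom_card_sq hF hK
  let _ : Algebra F K := j.toAlgebra
  have hfr : Module.finrank F K = 2 := finrank_eq_two_of_card hF hK
  have : Module.Finite F K := Module.Finite.of_finite
  let b : Module.Basis (Fin 2) F K := Module.finBasisOfFinrankEq F K hfr
  let c : K ≃ₗ[F] (Fin 2 → F) := b.equivFun
  have hq : 1 < q := by rw [← hF]; exact Fintype.one_lt_card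
  obtain ⟨p, hp⟩ := CharP.exists F
  obtain ⟨n, hpprime, hcard⟩ := FiniteField.card F p
  have : Fact p.Prime := ⟨hpprime⟩
  have : CharP K p := charP_of_injective_ringHom j.injective p
  have hqp : q = p ^ (n : ℕ) := by rw [← hF, hcard]
  have hadd : ∀ x y : K, (x + y) ^ q = x ^ q + y ^ q := by
    intro x y
    rw [hqp]
    exact add_pow_char_pow x y p n
  have hfix : ∀ s : F, (algebraMap F K s) ^ q = algebraMap F K s := by
    intro s
    rw [← map_pow, ← hF, FiniteField.pow_card]
  have hdec : ∀ x : K, x = algebraMap F K (c x 0) * b 0 + algebraMap F K (c x 1) * b 1 := by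
    intro x
    have h := b.sum_equivFun x
    rw [Fin.sum_univ_two, Algebra.smul_def, Algebra.smul_def] at h
    exact h.symm
  set δ : K := b 0 * (b 1) ^ q - b 1 * (b 0) ^ q with hδ
  have hω : ∀ x y : K, x * y ^ q - y * x ^ q
      = algebraMap F K (c x 0 * c y 1 - c x 1 * c y 0) * δ := by
    intro x y
    conv_lhs => rw [hdec x, hdec y]
    rw [hadd, hadd, mul_pow, mul_pow, mul_pow, mul_pow, hfix, hfix, hfix, hfix, map_sub, map_mul,
      map_mul, hδ]
    ring
  have hδ0 : δ ≠ 0 := by
    intro h0
    obtain ⟨x, hx⟩ := exists_pow_ne_self hq hK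
    apply hx
    have h := hω x 1
    rw [h0, mul_zero, one_pow, mul_one, one_mul] at h
    exact (sub_eq_zero.mp h).symm
  let Ψ : (Fin m → K) ≃ₗ[F] (Fin m ⊕ Fin m → F) := guPsi c
  have hΨ : ∀ u v : Fin m → K, algebraMap F K (stdSymp (Ψ u) (Ψ v)) * δ
      = Cfsg.hermForm m K q v u - Cfsg.hermForm m K q u v := by
    intro u v
    unfold stdSymp Cfsg.hermForm
    rw [map_sum, Finset.sum_mul, ← Finset.sum_sub_distrib]
    apply Finset.sum_congr rfl
    intro i _
    show algebraMap F K (c (u i) 1 * c (v i) 0 - c (u i) 0 * c (v i) 1) * δ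
      = v i * u i ^ q - u i * v i ^ q
    rw [hω (v i) (u i)]
    congr 2
    ring
  have hmem : ∀ g : ↥(Cfsg.GU m K q),
      rsHom Ψ (Units.val (g : Matrix.GeneralLinearGroup (Fin m) K))
        ∈ Matrix.symplecticGroup (Fin m) F := by
    rintro ⟨g, hg⟩
    apply mem_symplectic_of_preserves
    intro x y
    obtain ⟨u, rfl⟩ := Ψ.surjective x
    obtain ⟨v, rfl⟩ := Ψ.surjective y
    show stdSymp ((rsMat Ψ (Units.val g)).mulVec (Ψ u)) ((rsMat Ψ (Units.val g)).mulVec (Ψ v)) = _
    rw [rsMat_mulVec, rsMat_mulVec]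
    apply (algebraMap F K).injective
    apply mul_right_cancel₀ hδ0
    rw [hΨ, hΨ]
    have h1 : Cfsg.hermForm m K q ((Units.val g).mulVec v) ((Units.val g).mulVec u)
        = Cfsg.hermForm m K q v u := hg v u
    have h2 : Cfsg.hermForm m K q ((Units.val g).mulVec u) ((Units.val g).mulVec v)
        = Cfsg.hermForm m K q u v := hg u v
    rw [h1, h2]
  refine ⟨((rsHom Ψ).comp ((Units.coeHom _).comp (Cfsg.GU m K q).subtype)).codRestrict _ hmem, ?_⟩
  intro A B hAB
  have h : rsMat Ψ (Units.val (A : Matrix.GeneralLinearGroup (Fin m) K))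
      = rsMat Ψ (Units.val (B : Matrix.GeneralLinearGroup (Fin m) K)) := congrArg Subtype.val hAB
  exact Subtype.ext (Units.ext (rsMat_injective Ψ h))

end Cfsg.Agent.Lib.Helper17
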