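import Mathlib
import Cfsg.Prelude.Def_LieClassical
import Cfsg.Agent.Lib.Helper17.UnitaryEmbed

set_option autoImplicit false

namespace Cfsg.Agent.Lib.Helper17

open Cfsg

/-- data identifying the norm form of a quadratic extension of finite fields -/
structure NormData (F K : Type*) [Field F] [Field K] [Algebra F K] (q : ℕ) (a b : F) where
  /-- coordinates of the big field -/
  cE : K ≃ₗ[F] (Fin 2 → F)
  /-- first half of the hyperbolic coordinates of a pair -/
  P1 : K × K →ₗ[F] (Fin 2 → F)
  /-- second half of the hyperbolic coordinates of a pair -/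
  P2 : K × K →ₗ[F] (Fin 2 → F)
  hN1 : ∀ x : K,
    algebraMap F K ((cE x 0) ^ 2 + a * cE x 0 * cE x 1 + b * (cE x 1) ^ 2) = x * x ^ q
  hN2 : ∀ x y : K, algebraMap F K (∑ s, P1 (x, y) s * P2 (x, y) s) = x * x ^ q + y * y ^ q
  hinj : ∀ x y : K, P1 (x, y) = 0 → P2 (x, y) = 0 → x = 0 ∧ y = 0

theorem norm_key {K : Type*} [Field K] (x y X Y ε E κ Kq d dq r rq : K) (hε : ε * E = -1)
    (hκ : κ + Kq = 1) (hd : d = x - ε * y) (hdq : dq = X - E * Y) (hr : r = ε * y + κ * d)
    (hrq : rq = E * Y + Kq * dq) : d * rq + dq * r = x * X + y * Y := by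
  subst hd hdq hr hrq
  linear_combination ((x - ε * y) * (X - E * Y)) * hκ + (-y * Y) * hε

theorem exists_norm_neg_one {K : Type*} [Field K] [Fintype K] {q p n : ℕ} (hp : p.Prime)
    [CharP K p] (hqp : q = p ^ n) (hq : 1 < q) (hK : Fintype.card K = q ^ 2) :
    ∃ ε : K, ε * ε ^ q = -1 := by
  classical
  by_cases h2 : (2 : K) = 0
  · refine ⟨1, ?_⟩
    rw [one_pow, one_mul]
    linear_combination h2
  · have hp2 : p ≠ 2 := by
      intro hp2
      apply h2
      have := CharP.cast_eq_zero K p
      rw [hp2] at this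
      exact_mod_cast this
    have hodd : Odd q := by
      rw [hqp]
      exact Odd.pow (hp.odd_of_ne_two hp2)
    obtain ⟨e, he⟩ := hodd
    obtain ⟨g, hg⟩ := IsCyclic.exists_generator (α := Kˣ)
    have hord : orderOf g = q ^ 2 - 1 := by
      rw [orderOf_eq_card_of_forall_mem_zpowers hg, Nat.card_eq_fintype_card, Fintype.card_units,
        hK]
    have he1 : 1 ≤ e := by omega
    have hq2 : q ^ 2 - 1 = 2 * (e * (q + 1)) := by
      subst he
      have : (2 * e + 1) ^ 2 = 2 * (e * (2 * e + 1 + 1)) + 1 := by ring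
      omega
    have ht2 : (g ^ (e * (q + 1))) ^ 2 = 1 := by
      rw [← pow_mul, mul_comm, ← hq2, ← hord, pow_orderOf_eq_one]
    have ht1 : g ^ (e * (q + 1)) ≠ 1 := by
      intro h1
      have hdvd := orderOf_dvd_of_pow_eq_one h1
      rw [hord, hq2] at hdvd
      have hpos : 0 < e * (q + 1) := by positivity
      have := Nat.le_of_dvd hpos hdvd
      omega
    have hK2 : ((g ^ (e * (q + 1)) : Kˣ) : K) ^ 2 = 1 := by
      rw [← Units.val_pow_eq_pow_val, ht2, Units.val_one]
    have hK1 : ((g ^ (e * (q + 1)) : Kˣ) : K) ≠ 1 := by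
      intro h
      apply ht1
      exact Units.ext h
    refine ⟨((g ^ e : Kˣ) : K), ?_⟩
    rw [← pow_succ', ← Units.val_pow_eq_pow_val, ← pow_mul]
    have h3 : (((g ^ (e * (q + 1)) : Kˣ) : K) - 1) * (((g ^ (e * (q + 1)) : Kˣ) : K) + 1) = 0 := by
      linear_combination hK2
    rcases mul_eq_zero.mp h3 with h | h
    · exact absurd (sub_eq_zero.mp h) hK1
    · exact eq_neg_of_add_eq_zero_left h

theorem normData_of_roots {F K : Type*} [Field F] [Fintype F] [Field K] [Fintype K] [Algebra F K]
    {q : ℕ} (hF : Fintype.card F = q) (hK : Fintype.card K = q ^ 2) (a b : F)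
    (hab : ∀ z₁ z₂ : F, z₁ ^ 2 + a * z₁ * z₂ + b * z₂ ^ 2 = 0 → z₁ = 0 ∧ z₂ = 0)
    (ρ ρ' : K) (hs : ρ + ρ' = - algebraMap F K a) (hp : ρ * ρ' = algebraMap F K b)
    (hne : ρ ≠ ρ') : Nonempty (NormData F K q a b) := by
  classical
  have hq : 1 < q := by rw [← hF]; exact Fintype.one_lt_card
  obtain ⟨p, hp'⟩ := CharP.exists F
  obtain ⟨n, hpprime, hcard⟩ := FiniteField.card F p
  have : Fact p.Prime := ⟨hpprime⟩
  have : CharP K p := charP_of_injective_ringHom (algebraMap F K).injective p
  have hqp : q = p ^ (n : ℕ) := by rw [← hF, hcard]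
  have hadd : ∀ x y : K, (x + y) ^ q = x ^ q + y ^ q := by
    intro x y
    rw [hqp]
    exact add_pow_char_pow x y p n
  have hfix : ∀ s : F, (algebraMap F K s) ^ q = algebraMap F K s := by
    intro s
    rw [← map_pow, ← hF, FiniteField.pow_card]
  have hqq : ∀ x : K, (x ^ q) ^ q = x := by
    intro x
    rw [← pow_mul, ← sq, ← hK, FiniteField.pow_card]
  have hneg : ∀ x : K, (-x) ^ q = - x ^ q := by
    intro x
    have h := hadd x (-x)
    rw [add_neg_cancel, zero_pow (by omega)] at h
    linear_combination -h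
  have hsub : ∀ x y : K, (x - y) ^ q = x ^ q - y ^ q := by
    intro x y
    rw [sub_eq_add_neg, hadd, hneg, ← sub_eq_add_neg]
  -- coordinates
  let L : (Fin 2 → F) →ₗ[F] K :=
    { toFun := fun z => algebraMap F K (z 0) - algebraMap F K (z 1) * ρ
      map_add' := by
        intro z w
        simp only [Pi.add_apply, map_add]
        ring
      map_smul' := by
        intro r z
        simp only [Pi.smul_apply, smul_eq_mul, map_mul, RingHom.id_apply, Algebra.smul_def]
        ring }
  have hL : ∀ z, L z = algebraMap F K (z 0) - algebraMap F K (z 1) * ρ := fun z => rfl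
  have hLinj : Function.Injective L := by
    rw [← LinearMap.ker_eq_bot, LinearMap.ker_eq_bot']
    intro z hz
    rw [hL] at hz
    have h0 : z 0 ^ 2 + a * z 0 * z 1 + b * z 1 ^ 2 = 0 := by
      apply (algebraMap F K).injective
      rw [map_zero]
      simp only [map_add, map_mul, map_pow]
      linear_combination (algebraMap F K (z 0) - algebraMap F K (z 1) * ρ') * hz
        + (algebraMap F K (z 0)) * (algebraMap F K (z 1)) * hs - (algebraMap F K (z 1)) ^ 2 * hp
    obtain ⟨h1, h2⟩ := hab _ _ h0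
    funext s
    fin_cases s
    · exact h1
    · exact h2
  have hfr : Module.finrank F K = 2 := finrank_eq_two_of_card hF hK
  have : Module.Finite F K := Module.Finite.of_finite
  let cE0 : (Fin 2 → F) ≃ₗ[F] K := LinearMap.linearEquivOfInjective L hLinj (by
    rw [hfr, Module.finrank_fintype_fun_eq_card, Fintype.card_fin])
  let cE : K ≃ₗ[F] (Fin 2 → F) := cE0.symm
  have hdec : ∀ x : K, x = algebraMap F K (cE x 0) - algebraMap F K (cE x 1) * ρ := by
    intro x
    have h : cE0 (cE x) = x := cE0.apply_symm_apply x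
    rw [← hL]
    exact h.symm
  -- Frobenius swaps the roots
  have hroot : ρ ^ 2 + algebraMap F K a * ρ + algebraMap F K b = 0 := by
    linear_combination ρ * hs - hp
  have hroot' : (ρ ^ q) ^ 2 + algebraMap F K a * ρ ^ q + algebraMap F K b = 0 := by
    have h : (ρ ^ 2 + algebraMap F K a * ρ + algebraMap F K b) ^ q = 0 := by
      rw [hroot, zero_pow (by omega)]
    rw [hadd, hadd, mul_pow, hfix, hfix, ← pow_mul, mul_comm 2 q, pow_mul] at h
    exact h
  have hρq : ρ ^ q = ρ' := by
    have h : (ρ ^ q - ρ) * (ρ ^ q - ρ') = 0 := by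
      linear_combination hroot' - ρ ^ q * hs + hp
    rcases mul_eq_zero.mp h with h | h
    · exfalso
      have hρ : ρ ^ q = ρ := sub_eq_zero.mp h
      obtain ⟨x, hx⟩ := exists_pow_ne_self hq hK
      apply hx
      conv_lhs => rw [hdec x]
      rw [hsub, mul_pow, hfix, hfix, hρ]
      exact (hdec x).symm
    · exact sub_eq_zero.mp h
  have hpowq : ∀ x : K, x ^ q = algebraMap F K (cE x 0) - algebraMap F K (cE x 1) * ρ' := by
    intro x
    conv_lhs => rw [hdec x]
    rw [hsub, mul_pow, hfix, hfix, hρq]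
  have hN1 : ∀ x : K,
      algebraMap F K ((cE x 0) ^ 2 + a * cE x 0 * cE x 1 + b * (cE x 1) ^ 2) = x * x ^ q := by
    intro x
    have hx := hdec x
    have hxq := hpowq x
    simp only [map_add, map_mul, map_pow]
    generalize algebraMap F K (cE x 0) = Z0 at hx hxq ⊢
    generalize algebraMap F K (cE x 1) = Z1 at hx hxq ⊢
    rw [hxq, hx]
    linear_combination Z0 * Z1 * hs - Z1 ^ 2 * hp
  -- trace
  let T : K →ₗ[F] F :=
    { toFun := fun z => 2 * cE z 0 + a * cE z 1
      map_add' := by
        intro x y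
        simp only [map_add, Pi.add_apply]
        ring
      map_smul' := by
        intro c x
        simp only [map_smul, Pi.smul_apply, smul_eq_mul, RingHom.id_apply]
        ring }
  have hT : ∀ z : K, algebraMap F K (T z) = z + z ^ q := by
    intro z
    show algebraMap F K (2 * cE z 0 + a * cE z 1) = z + z ^ q
    have hx := hdec z
    have hxq := hpowq z
    simp only [map_add, map_mul, map_ofNat]
    generalize algebraMap F K (cE z 0) = Z0 at hx hxq ⊢
    generalize algebraMap F K (cE z 1) = Z1 at hx hxq ⊢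
    rw [hxq, hx]
    linear_combination Z1 * hs
  obtain ⟨ε, hε⟩ := exists_norm_neg_one hpprime hqp hq hK
  have hε0 : ε ≠ 0 := by
    rintro rfl
    rw [zero_mul] at hε
    exact one_ne_zero (neg_eq_zero.mp hε.symm)
  obtain ⟨κ, hκ⟩ : ∃ κ : K, κ + κ ^ q = 1 := by
    obtain ⟨w, hw⟩ : ∃ w : K, w + w ^ q ≠ 0 := by
      by_contra hcon
      push Not at hcon
      have h1 := hcon 1
      rw [one_pow] at h1
      obtain ⟨x, hx⟩ := exists_pow_ne_self hq hK
      apply hx
      have hxx := hcon x
      linear_combination hxx - x * h1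
    refine ⟨w / (w + w ^ q), ?_⟩
    have ht : (w + w ^ q) ^ q = w + w ^ q := by rw [hadd, hqq, add_comm]
    rw [div_pow, ht, ← add_div, div_self hw]
  -- Frobenius as a linear map
  let φ : K →ₗ[F] K :=
    { toFun := fun x => x ^ q
      map_add' := hadd
      map_smul' := by
        intro c x
        simp only [RingHom.id_apply, Algebra.smul_def, mul_pow, hfix] }
  let dmap : K × K →ₗ[F] K :=
    LinearMap.fst F K K - (LinearMap.mulLeft F ε) ∘ₗ LinearMap.snd F K K
  let rmap : K × K →ₗ[F] K :=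
    (LinearMap.mulLeft F ε) ∘ₗ LinearMap.snd F K K + (LinearMap.mulLeft F κ) ∘ₗ dmap
  let P1 : K × K →ₗ[F] (Fin 2 → F) := cE.toLinearMap ∘ₗ dmap
  let P2 : K × K →ₗ[F] (Fin 2 → F) :=
    LinearMap.pi ![T ∘ₗ φ ∘ₗ rmap, T ∘ₗ (LinearMap.mulLeft F (-ρ)) ∘ₗ φ ∘ₗ rmap]
  have hP1 : ∀ x y : K, P1 (x, y) = cE (x - ε * y) := fun x y => rfl
  have hP20 : ∀ x y : K, P2 (x, y) 0 = T ((ε * y + κ * (x - ε * y)) ^ q) := fun x y => rfl
  have hP21 : ∀ x y : K, P2 (x, y) 1 = T (-ρ * (ε * y + κ * (x - ε * y)) ^ q) := fun x y => rfl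
  refine ⟨⟨cE, P1, P2, hN1, ?_, ?_⟩⟩
  · intro x y
    rw [Fin.sum_univ_two, map_add, map_mul, map_mul, hP20, hP21, hT, hT, hP1, hqq, mul_pow, hneg,
      hρq, hqq]
    have hd := hdec (x - ε * y)
    have hdq := hpowq (x - ε * y)
    have key := norm_key x y (x ^ q) (y ^ q) ε (ε ^ q) κ (κ ^ q) (x - ε * y) ((x - ε * y) ^ q)
      (ε * y + κ * (x - ε * y)) ((ε * y + κ * (x - ε * y)) ^ q) hε hκ rfl
      (by rw [hsub, mul_pow]) rfl (by rw [hadd, mul_pow, mul_pow])
    rw [← key]
    generalize (ε * y + κ * (x - ε * y)) ^ q = rq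
    generalize ε * y + κ * (x - ε * y) = r
    generalize algebraMap F K (cE (x - ε * y) 0) = Z0 at hd hdq ⊢
    generalize algebraMap F K (cE (x - ε * y) 1) = Z1 at hd hdq ⊢
    rw [hdq, hd]
    ring
  · intro x y h1 h2
    rw [hP1] at h1
    have hd : x - ε * y = 0 := cE.map_eq_zero_iff.mp h1
    have h20 := congrFun h2 0
    have h21 := congrFun h2 1
    rw [hP20] at h20
    rw [hP21] at h21
    rw [hd, mul_zero, add_zero] at h20 h21
    have e0 := hT ((ε * y) ^ q)
    have e1 := hT (-ρ * (ε * y) ^ q)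
    rw [h20, Pi.zero_apply, map_zero, hqq] at e0
    rw [h21, Pi.zero_apply, map_zero] at e1
    have e1' : (-ρ * (ε * y) ^ q) ^ q = -ρ' * (ε * y) := by rw [mul_pow, hneg, hρq, hqq]
    rw [e1'] at e1
    have hr : (ρ - ρ') * (ε * y) = 0 := by
      linear_combination (-1 : K) * e1 - ρ * e0
    have hy : y = 0 := by
      rcases mul_eq_zero.mp hr with h | h
      · exact absurd (sub_eq_zero.mp h) hne
      · rcases mul_eq_zero.mp h with h | h
        · exact absurd h hε0
        · exact h
    refine ⟨?_, hy⟩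
    rw [hy, mul_zero, sub_zero] at hd
    exact hd

section Psi
variable {F K : Type*} [Field F] [Field K] [Algebra F K] {q : ℕ} {a b : F}

/-- coordinates for the unitary-to-orthogonal embedding, even dimension -/
noncomputable def plusL (D : NormData F K q a b) (k : ℕ) :
    (Fin (k + k) → K) →ₗ[F] (Fin (k + k) ⊕ Fin (k + k) → F) where
  toFun u := Sum.elim
    (Fin.addCases (fun t => D.P1 (u (Fin.castAdd k t), u (Fin.natAdd k t)) 0)
      (fun t => D.P1 (u (Fin.castAdd k t), u (Fin.natAdd k t)) 1))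
    (Fin.addCases (fun t => D.P2 (u (Fin.castAdd k t), u (Fin.natAdd k t)) 0)
      (fun t => D.P2 (u (Fin.castAdd k t), u (Fin.natAdd k t)) 1))
  map_add' u v := by
    funext i
    rcases i with i | i <;> induction i using Fin.addCases <;>
      simp only [Sum.elim_inl, Sum.elim_inr, Fin.addCases_left, Fin.addCases_right, Pi.add_apply,
        ← Prod.mk_add_mk, map_add]
  map_smul' r u := by
    funext i
    rcases i with i | i <;> induction i using Fin.addCases <;>
      simp only [Sum.elim_inl, Sum.elim_inr, Fin.addCases_left, Fin.addCases_right, Pi.smul_apply,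
        ← Prod.smul_mk, map_smul, RingHom.id_apply]

theorem plusL_apply (D : NormData F K q a b) (k : ℕ) (u : Fin (k + k) → K) :
    plusL D k u = Sum.elim
      (Fin.addCases (fun t => D.P1 (u (Fin.castAdd k t), u (Fin.natAdd k t)) 0)
        (fun t => D.P1 (u (Fin.castAdd k t), u (Fin.natAdd k t)) 1))
      (Fin.addCases (fun t => D.P2 (u (Fin.castAdd k t), u (Fin.natAdd k t)) 0)
        (fun t => D.P2 (u (Fin.castAdd k t), u (Fin.natAdd k t)) 1)) := rfl

theorem plusL_inl_left (D : NormData F K q a b) (k : ℕ) (u : Fin (k + k) → K) (t : Fin k) :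
    plusL D k u (Sum.inl (Fin.castAdd k t))
      = D.P1 (u (Fin.castAdd k t), u (Fin.natAdd k t)) 0 := by
  rw [plusL_apply, Sum.elim_inl, Fin.addCases_left]

theorem plusL_inl_right (D : NormData F K q a b) (k : ℕ) (u : Fin (k + k) → K) (t : Fin k) :
    plusL D k u (Sum.inl (Fin.natAdd k t))
      = D.P1 (u (Fin.castAdd k t), u (Fin.natAdd k t)) 1 := by
  rw [plusL_apply, Sum.elim_inl, Fin.addCases_right]

theorem plusL_inr_left (D : NormData F K q a b) (k : ℕ) (u : Fin (k + k) → K) (t : Fin k) :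
    plusL D k u (Sum.inr (Fin.castAdd k t))
      = D.P2 (u (Fin.castAdd k t), u (Fin.natAdd k t)) 0 := by
  rw [plusL_apply, Sum.elim_inr, Fin.addCases_left]

theorem plusL_inr_right (D : NormData F K q a b) (k : ℕ) (u : Fin (k + k) → K) (t : Fin k) :
    plusL D k u (Sum.inr (Fin.natAdd k t))
      = D.P2 (u (Fin.castAdd k t), u (Fin.natAdd k t)) 1 := by
  rw [plusL_apply, Sum.elim_inr, Fin.addCases_right]

theorem plusL_norm (D : NormData F K q a b) (k : ℕ) (u : Fin (k + k) → K) :
    algebraMap F K (Cfsg.quadFormPlus (k + k) F (plusL D k u)) = Cfsg.hermForm (k + k) K q u u := by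
  unfold Cfsg.quadFormPlus Cfsg.hermForm
  rw [Fin.sum_univ_add, Fin.sum_univ_add, map_add, map_sum, map_sum, ← Finset.sum_add_distrib,
    ← Finset.sum_add_distrib]
  apply Finset.sum_congr rfl
  intro t _
  rw [← D.hN2, Fin.sum_univ_two, map_add, plusL_inl_left, plusL_inl_right, plusL_inr_left,
    plusL_inr_right]

theorem plusL_injective (D : NormData F K q a b) (k : ℕ) : Function.Injective (plusL D k) := by
  rw [← LinearMap.ker_eq_bot, LinearMap.ker_eq_bot']
  intro u hu
  have key : ∀ t : Fin k, u (Fin.castAdd k t) = 0 ∧ u (Fin.natAdd k t) = 0 := by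
    intro t
    apply D.hinj
    · funext s
      fin_cases s
      · exact (plusL_inl_left D k u t).symm.trans (congrFun hu _)
      · exact (plusL_inl_right D k u t).symm.trans (congrFun hu _)
    · funext s
      fin_cases s
      · exact (plusL_inr_left D k u t).symm.trans (congrFun hu _)
      · exact (plusL_inr_right D k u t).symm.trans (congrFun hu _)
  funext i
  induction i using Fin.addCases with
  | left t => exact (key t).1
  | right t => exact (key t).2

/-- coordinates for the unitary-to-orthogonal embedding, odd dimension -/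
noncomputable def minusL (D : NormData F K q a b) (k : ℕ) :
    (Fin (k + k + 1) → K) →ₗ[F] ((Fin (k + k) ⊕ Fin (k + k)) ⊕ Fin 2 → F) where
  toFun u := Sum.elim (plusL D k (fun i => u (Fin.castSucc i))) (D.cE (u (Fin.last (k + k))))
  map_add' u v := by
    funext i
    rcases i with i | i
    · have h : (fun i => (u + v) (Fin.castSucc i))
          = (fun i => u (Fin.castSucc i)) + (fun i => v (Fin.castSucc i)) := rfl
      show plusL D k (fun i => (u + v) (Fin.castSucc i)) i
        = plusL D k (fun i => u (Fin.castSucc i)) i + plusL D k (fun i => v (Fin.castSucc i)) i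
      rw [h, map_add]
      rfl
    · simp only [Sum.elim_inr, Pi.add_apply, map_add]
  map_smul' r u := by
    funext i
    rcases i with i | i
    · have h : (fun i => (r • u) (Fin.castSucc i)) = r • (fun i => u (Fin.castSucc i)) := rfl
      show plusL D k (fun i => (r • u) (Fin.castSucc i)) i
        = r • plusL D k (fun i => u (Fin.castSucc i)) i
      rw [h, map_smul]
      rfl
    · simp only [Sum.elim_inr, Pi.smul_apply, map_smul, RingHom.id_apply]

theorem minusL_inl (D : NormData F K q a b) (k : ℕ) (u : Fin (k + k + 1) → K)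
    (w : Fin (k + k) ⊕ Fin (k + k)) :
    minusL D k u (Sum.inl w) = plusL D k (fun i => u (Fin.castSucc i)) w := rfl

theorem minusL_inr (D : NormData F K q a b) (k : ℕ) (u : Fin (k + k + 1) → K) (s : Fin 2) :
    minusL D k u (Sum.inr s) = D.cE (u (Fin.last (k + k))) s := rfl

theorem minusL_norm (D : NormData F K q a b) (k : ℕ) (u : Fin (k + k + 1) → K) :
    algebraMap F K (Cfsg.quadFormMinus (k + k) F a b (minusL D k u))
      = Cfsg.hermForm (k + k + 1) K q u u := by
  have h1 := plusL_norm D k (fun i => u (Fin.castSucc i))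
  have h2 := D.hN1 (u (Fin.last (k + k)))
  unfold Cfsg.quadFormMinus
  unfold Cfsg.hermForm at h1 ⊢
  rw [Fin.sum_univ_castSucc, ← h1, ← h2, map_add]
  rfl

theorem minusL_injective (D : NormData F K q a b) (k : ℕ) : Function.Injective (minusL D k) := by
  rw [← LinearMap.ker_eq_bot, LinearMap.ker_eq_bot']
  intro u hu
  have h1 : plusL D k (fun i => u (Fin.castSucc i)) = 0 := by
    funext w
    exact (minusL_inl D k u w).symm.trans (congrFun hu _)
  have h1' := congrFun (LinearMap.ker_eq_bot'.mp (LinearMap.ker_eq_bot.mpr (plusL_injective D k)) _ h1)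
  have h2 : D.cE (u (Fin.last (k + k))) = 0 := by
    funext s
    exact (minusL_inr D k u s).symm.trans (congrFun hu _)
  have h2' := D.cE.map_eq_zero_iff.mp h2
  funext i
  induction i using Fin.lastCases with
  | last => exact h2'
  | cast i => exact h1' i

end Psi

/-- a norm-compatible coordinate system turns norm-preserving matrices into isometries -/
theorem embed_of_norm {F K : Type*} [Field F] [Field K] [Algebra F K] {n I : Type} [Fintype n]
    [DecidableEq n] [Fintype I] [DecidableEq I] (Ψ : (n → K) ≃ₗ[F] (I → F)) (Q : (I → F) → F)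
    (N : (n → K) → K) (hQ : ∀ u, algebraMap F K (Q (Ψ u)) = N u)
    (G : Subgroup (Matrix.GeneralLinearGroup n K))
    (hG : ∀ g ∈ G, ∀ u, N ((Units.val g).mulVec u) = N u) :
    ∃ φ : ↥G →* ↥(Cfsg.isometryGroup F Q), Function.Injective φ := by
  have hmem : ∀ g : ↥G, Units.map (rsHom Ψ) (g : Matrix.GeneralLinearGroup n K)
      ∈ Cfsg.isometryGroup F Q := by
    rintro ⟨g, hg⟩
    intro x _
    obtain ⟨u, rfl⟩ := Ψ.surjective x
    show Q ((rsMat Ψ (Units.val g)).mulVec (Ψ u)) = Q (Ψ u)
    rw [rsMat_mulVec]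
    apply (algebraMap F K).injective
    rw [hQ, hQ, hG g hg]
  refine ⟨((Units.map (rsHom Ψ)).comp G.subtype).codRestrict _ hmem, ?_⟩
  intro A B hAB
  have h : Units.map (rsHom Ψ) (A : Matrix.GeneralLinearGroup n K)
      = Units.map (rsHom Ψ) (B : Matrix.GeneralLinearGroup n K) := congrArg Subtype.val hAB
  have h' : rsMat Ψ (Units.val (A : Matrix.GeneralLinearGroup n K))
      = rsMat Ψ (Units.val (B : Matrix.GeneralLinearGroup n K)) := congrArg Units.val h
  exact Subtype.ext (Units.ext (rsMat_injective Ψ h'))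

theorem unitary_orthogonal_plus_embed {K F : Type*} [Field K] [Fintype K] [Field F] [Fintype F]
    {q : ℕ} (hK : Fintype.card K = q ^ 2) (hF : Fintype.card F = q) (k : ℕ) :
    ∃ φ : ↥(Cfsg.GU (k + k) K q) →* ↥(Cfsg.isometryGroup F (Cfsg.quadFormPlus (k + k) F)),
      Function.Injective φ := by
  classical
  have hns : ¬ Function.Surjective (fun x : F => x ^ 2 - x) := by
    rw [← Finite.injective_iff_surjective]
    intro hinj
    have : (0 : F) = 1 := hinj (by simp)
    exact zero_ne_one this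
  obtain ⟨c₀, hc₀⟩ := not_forall.mp hns
  have hc₀' : ∀ x : F, x ^ 2 - x ≠ c₀ := fun x hx => hc₀ ⟨x, hx⟩
  have hab : ∀ z₁ z₂ : F, z₁ ^ 2 + (-1) * z₁ * z₂ + (-c₀) * z₂ ^ 2 = 0 → z₁ = 0 ∧ z₂ = 0 := by
    intro z₁ z₂ h
    by_cases hz : z₂ = 0
    · subst hz
      have : z₁ ^ 2 = 0 := by linear_combination h
      exact ⟨pow_eq_zero_iff (two_ne_zero) |>.mp this, rfl⟩
    · exfalso
      apply hc₀' (z₁ / z₂)
      field_simp
      linear_combination h
  obtain ⟨j, ρ, ρ', hs, hp, hne⟩ := exists_quadratic_ext hF hK (-1) (-c₀) hab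
  let _ : Algebra F K := j.toAlgebra
  obtain ⟨D⟩ := normData_of_roots hF hK (-1) (-c₀) hab ρ ρ' hs hp hne
  have hfr : Module.finrank F K = 2 := finrank_eq_two_of_card hF hK
  have : Module.Finite F K := Module.Finite.of_finite
  let Ψ : (Fin (k + k) → K) ≃ₗ[F] (Fin (k + k) ⊕ Fin (k + k) → F) :=
    LinearMap.linearEquivOfInjective (plusL D k) (plusL_injective D k) (by
      rw [Module.finrank_pi_fintype, Module.finrank_fintype_fun_eq_card]
      simp [hfr]
      ring)
  apply embed_of_norm Ψ (Cfsg.quadFormPlus (k + k) F) (fun u => Cfsg.hermForm (k + k) K q u u)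
  · intro u
    exact plusL_norm D k u
  · intro g hg u
    exact hg u u

theorem unitary_orthogonal_minus_embed {K F : Type*} [Field K] [Fintype K] [Field F] [Fintype F]
    {q : ℕ} (hK : Fintype.card K = q ^ 2) (hF : Fintype.card F = q) (k : ℕ) (a b : F)
    (hab : ∀ z₁ z₂ : F, z₁ ^ 2 + a * z₁ * z₂ + b * z₂ ^ 2 = 0 → z₁ = 0 ∧ z₂ = 0) :
    ∃ φ : ↥(Cfsg.GU (k + k + 1) K q) →*
        ↥(Cfsg.isometryGroup F (Cfsg.quadFormMinus (k + k) F a b)),
      Function.Injective φ := by
  classical
  obtain ⟨j, ρ, ρ', hs, hp, hne⟩ := exists_quadratic_ext hF hK a b hab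
  let _ : Algebra F K := j.toAlgebra
  obtain ⟨D⟩ := normData_of_roots hF hK a b hab ρ ρ' hs hp hne
  have hfr : Module.finrank F K = 2 := finrank_eq_two_of_card hF hK
  have : Module.Finite F K := Module.Finite.of_finite
  let Ψ : (Fin (k + k + 1) → K) ≃ₗ[F] ((Fin (k + k) ⊕ Fin (k + k)) ⊕ Fin 2 → F) :=
    LinearMap.linearEquivOfInjective (minusL D k) (minusL_injective D k) (by
      rw [Module.finrank_pi_fintype, Module.finrank_fintype_fun_eq_card]
      simp [hfr]
      ring)
  apply embed_of_norm Ψ (Cfsg.quadFormMinus (k + k) F a b)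
    (fun u => Cfsg.hermForm (k + k + 1) K q u u)
  · intro u
    exact minusL_norm D k u
  · intro g hg u
    exact hg u u

end Cfsg.Agent.Lib.Helper17
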