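import Mathlib

namespace Cfsg.Agent.Lib.Helper17

section PSL34
open scoped Pointwise
variable {F : Type*} [Field F] [Fintype F]

theorem f4_two_eq_zero (hF : Fintype.card F = 4) : (2 : F) = 0 := by
  have h4 : ((4 : ℕ) : F) = 0 := by rw [← hF]; exact Nat.cast_card_eq_zero F
  have h22 : (2 : F) * 2 = 0 := by
    have : ((4 : ℕ) : F) = 2 * 2 := by norm_num
    rw [← this]; exact h4
  exact mul_self_eq_zero.mp h22

theorem f4_cube (hF : Fintype.card F = 4) {c : F} (hc : c ≠ 0) : c ^ 3 = 1 := by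
  have := FiniteField.pow_card_sub_one_eq_one c hc
  rwa [hF] at this

theorem f4_exists_omega (hF : Fintype.card F = 4) : ∃ ω : F, ω ≠ 0 ∧ ω ≠ 1 := by
  classical
  by_contra h
  push Not at h
  have hsub : (Finset.univ : Finset F) ⊆ {0, 1} := by
    intro x _
    by_cases hx : x = 0
    · simp [hx]
    · simp [h x hx]
  have h1 := Finset.card_le_card hsub
  rw [Finset.card_univ, hF] at h1
  have h2 : ({0, 1} : Finset F).card ≤ 2 := Finset.card_le_two
  omega

theorem f4_neg (hF : Fintype.card F = 4) (a : F) : -a = a := by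
  have h2 := f4_two_eq_zero hF
  have : a + a = 0 := by rw [← two_mul, h2, zero_mul]
  exact neg_eq_of_add_eq_zero_left this

omit [Fintype F] in
theorem smul_one_eq_zero_f (s : F) (h : s • (1 : Matrix (Fin 3) (Fin 3) F) = 0) : s = 0 := by
  have := congrFun (congrFun h 0) 0
  simpa using this

theorem f4_key (hF : Fintype.card F = 4) (A : Matrix (Fin 3) (Fin 3) F) (hdet : A.det = 1)
    (c : F) (hA : A ^ 3 = c • (1 : Matrix (Fin 3) (Fin 3) F))
    (hns : ∀ s : F, A ≠ s • (1 : Matrix (Fin 3) (Fin 3) F)) :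
    c = 1 ∧ ∀ l : F, l ^ 3 = 1 → (Matrix.scalar (Fin 3) l - A).det = 0 := by
  have hneg := f4_neg hF
  have hc0 : c ≠ 0 := by
    rintro rfl
    have h1 : (A ^ 3).det = 1 := by rw [Matrix.det_pow, hdet, one_pow]
    rw [hA] at h1
    simp at h1
  have hmonic := Matrix.charpoly_monic A
  have hdeg : A.charpoly.natDegree = 3 := by
    rw [Matrix.charpoly_natDegree_eq_dim]; rfl
  have h3 : A.charpoly.coeff 3 = 1 := by
    have := hmonic.coeff_natDegree
    rwa [hdeg] at this
  have h0 : A.charpoly.coeff 0 = 1 := by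
    have := Matrix.det_eq_sign_charpoly_coeff A
    rw [hdet] at this
    simp at this
    have h' : A.charpoly.coeff 0 = -1 := by linear_combination this
    rw [h', hneg]
  set a := A.charpoly.coeff 2 with ha
  set b := A.charpoly.coeff 1 with hb
  have hCH : (1 : Matrix (Fin 3) (Fin 3) F) + b • A + a • A ^ 2 + A ^ 3 = 0 := by
    have h := Matrix.aeval_self_charpoly A
    rw [Polynomial.aeval_eq_sum_range, hdeg] at h
    simp only [Finset.sum_range_succ, Finset.sum_range_zero, zero_add, h0, h3, pow_zero, pow_one,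
      one_smul] at h
    exact h
  have heval : ∀ l : F, (Matrix.scalar (Fin 3) l - A).det = 1 + b * l + a * l ^ 2 + l ^ 3 := by
    intro l
    rw [← Matrix.eval_charpoly, Polynomial.eval_eq_sum_range, hdeg]
    simp only [Finset.sum_range_succ, Finset.sum_range_zero, zero_add, h0, h3, pow_zero, pow_one,
      one_mul, mul_one]
    rfl
  rw [hA] at hCH
  have hCH' : b • A + a • A ^ 2 = (c + 1) • (1 : Matrix (Fin 3) (Fin 3) F) := by
    have : b • A + a • A ^ 2 = - ((c + 1) • (1 : Matrix (Fin 3) (Fin 3) F)) := by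
      rw [eq_neg_iff_add_eq_zero, ← hCH]; module
    rw [this, ← neg_smul, hneg]
  have key : c = 1 ∧ a = 0 ∧ b = 0 := by
    by_cases ha0 : a = 0
    · rw [ha0, zero_smul, add_zero] at hCH'
      by_cases hb0 : b = 0
      · rw [hb0, zero_smul] at hCH'
        have := smul_one_eq_zero_f _ hCH'.symm
        refine ⟨?_, ha0, hb0⟩
        have h' : c = -1 := by linear_combination this
        rw [h', hneg]
      · exfalso
        apply hns (b⁻¹ * (c + 1))
        rw [mul_smul, ← hCH', smul_smul, inv_mul_cancel₀ hb0, one_smul]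
    · exfalso
      set β := a⁻¹ * b with hβ
      set γ := a⁻¹ * (c + 1) with hγ
      have hA2 : A ^ 2 = β • A + γ • (1 : Matrix (Fin 3) (Fin 3) F) := by
        have h1 : a • A ^ 2 = (c + 1) • (1 : Matrix (Fin 3) (Fin 3) F) + b • A := by
          have : a • A ^ 2 = (c + 1) • (1 : Matrix (Fin 3) (Fin 3) F) + -(b • A) := by
            rw [← hCH']; module
          rw [this, ← neg_smul, hneg]
        have h2 : A ^ 2 = a⁻¹ • (a • A ^ 2) := by
          rw [smul_smul, inv_mul_cancel₀ ha0, one_smul]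
        rw [h2, h1, hβ, hγ]
        module
      have hA3 : A ^ 3 = (β ^ 2 + γ) • A + (β * γ) • (1 : Matrix (Fin 3) (Fin 3) F) := by
        have h1 : A ^ 3 = A * A ^ 2 := by rw [pow_succ' A 2]
        rw [h1, hA2, mul_add, mul_smul_comm, mul_smul_comm, mul_one, ← pow_two, hA2]
        module
      rw [hA] at hA3
      have hsc : (β ^ 2 + γ) • A = (c + β * γ) • (1 : Matrix (Fin 3) (Fin 3) F) := by
        have : (β ^ 2 + γ) • A = c • (1 : Matrix (Fin 3) (Fin 3) F) + -((β * γ) • (1 : Matrix (Fin 3) (Fin 3) F)) := by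
          rw [hA3]; module
        rw [this, ← neg_smul, hneg]; module
      by_cases hz : β ^ 2 + γ = 0
      · rw [hz, zero_smul] at hsc
        have hc' := smul_one_eq_zero_f _ hsc.symm
        have hγ' : γ = β ^ 2 := by
          have : γ = -(β ^ 2) := by linear_combination hz
          rw [this, hneg]
        have hc3 : c = β ^ 3 := by
          have : c = -(β * γ) := by linear_combination hc'
          rw [this, hneg, hγ']; ring
        have hβ0 : β ≠ 0 := by
          rintro h0'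
          rw [h0'] at hc3
          exact hc0 (by rw [hc3]; ring)
        have hc1 : c = 1 := by rw [hc3, f4_cube hF hβ0]
        have hγ0 : γ = 0 := by
          rw [hγ, hc1]
          have : (1 : F) + 1 = 0 := by
            have := f4_two_eq_zero hF
            linear_combination this
          rw [this, mul_zero]
        rw [hγ0] at hγ'
        exact hβ0 (pow_eq_zero_iff (two_ne_zero)|>.mp hγ'.symm)
      · apply hns ((β ^ 2 + γ)⁻¹ * (c + β * γ))
        rw [mul_smul, ← hsc, smul_smul, inv_mul_cancel₀ hz, one_smul]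
  obtain ⟨hc1, ha0, hb0⟩ := key
  refine ⟨hc1, fun l hl => ?_⟩
  rw [heval, ha0, hb0, hl]
  have := f4_two_eq_zero hF
  linear_combination this

theorem f4_diag (hF : Fintype.card F = 4) (ω : F) (hω0 : ω ≠ 0) (hω1 : ω ≠ 1)
    (A : Matrix (Fin 3) (Fin 3) F)
    (hdet : ∀ l : F, l ^ 3 = 1 → (Matrix.scalar (Fin 3) l - A).det = 0) :
    ∃ P : Matrix (Fin 3) (Fin 3) F, P.det = 1 ∧ A * P = P * Matrix.diagonal ![1, ω, ω ^ 2] := by
  classical
  have hω3 : ω ^ 3 = 1 := f4_cube hF hω0
  set d : Fin 3 → F := ![1, ω, ω ^ 2] with hd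
  have hd3 : ∀ j, d j ^ 3 = 1 := by
    intro j
    fin_cases j
    · simp [hd]
    · simpa [hd] using hω3
    · simp only [hd]
      show (ω ^ 2) ^ 3 = 1
      rw [← pow_mul, mul_comm, pow_mul, hω3, one_pow]
  have hω2 : ω ^ 2 ≠ 1 := by
    intro h
    apply hω1
    have : ω ^ 3 = ω := by rw [pow_succ, h, one_mul]
    rw [← this, hω3]
  have hω2' : ω ^ 2 ≠ ω := by
    intro h
    apply hω1
    have : ω * ω = ω * 1 := by rw [mul_one, ← pow_two, h]
    exact mul_left_cancel₀ hω0 this
  have hinj : Function.Injective d := by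
    intro i j hij
    fin_cases i <;> fin_cases j
    · rfl
    · exact absurd (show (1 : F) = ω from hij).symm hω1
    · exact absurd (show (1 : F) = ω ^ 2 from hij).symm hω2
    · exact absurd (show ω = 1 from hij) hω1
    · rfl
    · exact absurd (show ω = ω ^ 2 from hij).symm hω2'
    · exact absurd (show ω ^ 2 = 1 from hij) hω2
    · exact absurd (show ω ^ 2 = ω from hij) hω2'
    · rfl
  have hex : ∀ j, ∃ v : Fin 3 → F, v ≠ 0 ∧ A.mulVec v = d j • v := by
    intro j
    obtain ⟨v, hv0, hv⟩ := Matrix.exists_mulVec_eq_zero_iff.mpr (hdet (d j) (hd3 j))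
    refine ⟨v, hv0, ?_⟩
    rw [Matrix.sub_mulVec, sub_eq_zero] at hv
    rw [← hv]
    ext i
    simp [Matrix.mulVec, dotProduct, Matrix.diagonal_apply]
  choose v hv0 hv using hex
  have hli : LinearIndependent F v := by
    apply Module.End.eigenvectors_linearIndependent' (Matrix.toLin' A) d hinj v
    intro j
    refine ⟨?_, hv0 j⟩
    rw [Module.End.mem_eigenspace_iff, Matrix.toLin'_apply]
    exact hv j
  set P₀ : Matrix (Fin 3) (Fin 3) F := Matrix.of (fun i j => v j i) with hP₀
  have hunit : IsUnit P₀ := by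
    rw [← Matrix.linearIndependent_cols_iff_isUnit]
    exact hli
  have hδ : P₀.det ≠ 0 := by
    have := (Matrix.isUnit_iff_isUnit_det P₀).mp hunit
    exact this.ne_zero
  have hAP : A * P₀ = P₀ * Matrix.diagonal d := by
    ext i j
    rw [Matrix.mul_diagonal, Matrix.mul_apply]
    have := congrFun (hv j) i
    simp only [Matrix.mulVec, dotProduct, Pi.smul_apply, smul_eq_mul] at this
    simp only [hP₀, Matrix.of_apply]
    rw [this, mul_comm]
  refine ⟨P₀ * Matrix.diagonal ![P₀.det⁻¹, 1, 1], ?_, ?_⟩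
  · rw [Matrix.det_mul, Matrix.det_diagonal, Fin.prod_univ_three]
    simp [hδ]
  · rw [← mul_assoc, hAP, mul_assoc, mul_assoc, Matrix.diagonal_mul_diagonal,
      Matrix.diagonal_mul_diagonal]
    congr 2
    ext i
    exact mul_comm _ _

theorem sub_card_three {G : Type*} [Group G] (X : Subgroup G) (hX : Nat.card X = 3) :
    ∃ x : G, x ≠ 1 ∧ x ^ 3 = 1 ∧ X = Subgroup.zpowers x := by
  have : Fact (Nat.Prime 3) := ⟨by norm_num⟩
  have : Finite X := Nat.finite_of_card_ne_zero (by omega)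
  have hnt : Nontrivial X := by
    rw [← Finite.one_lt_card_iff_nontrivial]; omega
  obtain ⟨x, hx⟩ := exists_ne (1 : X)
  refine ⟨x, ?_, ?_, ?_⟩
  · intro h; exact hx (Subtype.ext h)
  · have h3 : x ^ Nat.card X = 1 := pow_card_eq_one'
    rw [hX] at h3
    exact_mod_cast congrArg Subtype.val h3
  · have htop := zpowers_eq_top_of_prime_card hX hx
    have h2 := congrArg (Subgroup.map X.subtype) htop
    rw [MonoidHom.map_zpowers, ← MonoidHom.range_eq_map, Subgroup.range_subtype] at h2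
    exact h2.symm

theorem psl34_conj_std (hF : Fintype.card F = 4) (ω : F) (hω0 : ω ≠ 0) (hω1 : ω ≠ 1)
    (D : Matrix.SpecialLinearGroup (Fin 3) F)
    (hD : (D : Matrix (Fin 3) (Fin 3) F) = Matrix.diagonal ![1, ω, ω ^ 2])
    (x : Matrix.ProjectiveSpecialLinearGroup (Fin 3) F) (hx1 : x ≠ 1) (hx3 : x ^ 3 = 1) :
    ∃ g : Matrix.ProjectiveSpecialLinearGroup (Fin 3) F,
      x = g * (QuotientGroup.mk D : Matrix.ProjectiveSpecialLinearGroup (Fin 3) F) * g⁻¹ := by
  obtain ⟨A, rfl⟩ := QuotientGroup.mk_surjective x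
  have hAc : A ∉ Subgroup.center (Matrix.SpecialLinearGroup (Fin 3) F) := by
    intro h; exact hx1 ((QuotientGroup.eq_one_iff A).mpr h)
  have hA3 : A ^ 3 ∈ Subgroup.center (Matrix.SpecialLinearGroup (Fin 3) F) := by
    rw [← QuotientGroup.eq_one_iff, QuotientGroup.mk_pow]; exact hx3
  rw [Matrix.SpecialLinearGroup.mem_center_iff] at hA3
  obtain ⟨c, hc3, hc⟩ := hA3
  have hA3' : (A : Matrix (Fin 3) (Fin 3) F) ^ 3 = c • (1 : Matrix (Fin 3) (Fin 3) F) := by
    rw [← Matrix.SpecialLinearGroup.coe_pow, ← hc]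
    ext i j; simp [Matrix.diagonal_apply, Matrix.one_apply]
  have hns : ∀ s : F, (A : Matrix (Fin 3) (Fin 3) F) ≠ s • (1 : Matrix (Fin 3) (Fin 3) F) := by
    intro s hs
    apply hAc
    rw [Matrix.SpecialLinearGroup.mem_center_iff]
    refine ⟨s, ?_, ?_⟩
    · have := A.det_coe
      rw [hs, Matrix.det_smul, Matrix.det_one, mul_one] at this
      simpa using this
    · rw [hs]; ext i j; simp [Matrix.diagonal_apply, Matrix.one_apply]
  obtain ⟨hc1, hdet⟩ := f4_key hF A A.det_coe c hA3' hns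
  obtain ⟨P, hP1, hAP⟩ := f4_diag hF ω hω0 hω1 A hdet
  let P' : Matrix.SpecialLinearGroup (Fin 3) F := ⟨P, hP1⟩
  have hA : A = P' * D * P'⁻¹ := by
    rw [eq_mul_inv_iff_mul_eq]
    apply Subtype.ext
    show (A : Matrix (Fin 3) (Fin 3) F) * P = P * (D : Matrix (Fin 3) (Fin 3) F)
    rw [hD]; exact hAP
  refine ⟨QuotientGroup.mk P', ?_⟩
  rw [hA]
  rfl

theorem psl34_conj (hF : Fintype.card F = 4)
    (X Y : Subgroup (Matrix.ProjectiveSpecialLinearGroup (Fin 3) F)) (hX : Nat.card X = 3)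
    (hY : Nat.card Y = 3) :
    ∃ g : Matrix.ProjectiveSpecialLinearGroup (Fin 3) F, MulAut.conj g • X = Y := by
  obtain ⟨ω, hω0, hω1⟩ := f4_exists_omega hF
  have hDdet : (Matrix.diagonal ![1, ω, ω ^ 2] : Matrix (Fin 3) (Fin 3) F).det = 1 := by
    rw [Matrix.det_diagonal, Fin.prod_univ_three]
    have := f4_cube hF hω0
    simp only [Matrix.cons_val_zero, Matrix.cons_val_one, Matrix.cons_val_two, Matrix.head_cons,
      Matrix.tail_cons, one_mul]
    rw [← this]; ring
  obtain ⟨x, hx1, hx3, rfl⟩ := sub_card_three X hX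
  obtain ⟨y, hy1, hy3, rfl⟩ := sub_card_three Y hY
  obtain ⟨g, hg⟩ := psl34_conj_std hF ω hω0 hω1 ⟨_, hDdet⟩ rfl x hx1 hx3
  obtain ⟨h, hh⟩ := psl34_conj_std hF ω hω0 hω1 ⟨_, hDdet⟩ rfl y hy1 hy3
  refine ⟨h * g⁻¹, ?_⟩
  have e : MulAut.conj (h * g⁻¹) • Subgroup.zpowers x
      = (Subgroup.zpowers x).map (MulAut.conj (h * g⁻¹)).toMonoidHom := rfl
  rw [e, MonoidHom.map_zpowers]
  congr 1
  show MulAut.conj (h * g⁻¹) x = y
  rw [MulAut.conj_apply, hg, hh]; group

end PSL34

end Cfsg.Agent.Lib.Helper17
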