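import Cfsg.Agent.S2762
import Cfsg.Agent.Lib.Helper17.SL2Borel

set_option autoImplicit false
set_option maxHeartbeats 1000000
set_option linter.unusedVariables false
set_option linter.unusedSimpArgs false
set_option linter.style.haveILetI false

/-!
The affine group `Qd` over a finite field of characteristic `p` is not `p`-stable in the
normalizer form, and neither is any finite group containing a copy of it.  Consequently a group
all of whose sections are `p`-stable in the normalizer form does not involve `Qd(p)`.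
-/

namespace Cfsg.Agent.Lib.Helper17

open Cfsg.Agent.S2762
open scoped commutatorElement

universe u v

section

variable {F : Type u} [Field F]

theorem qd_comm_trans_iota (w : Fin 2 → F) (a : F) :
    ⁅transQ w, iotaHom F (uu a)⁆ = transQ ![-(a * w 1), 0] := by
  rw [commutatorElement_def, mul_inv_eq_iff_eq_mul, mul_inv_eq_iff_eq_mul,
    mul_assoc _ (iotaHom F (uu a)), iota_mul_trans, ← mul_assoc, transQ_mul]
  congr 2
  funext i
  fin_cases i
  · simp [Matrix.mulVec, dotProduct, Fin.sum_univ_two, uu]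
  · simp [Matrix.mulVec, dotProduct, Fin.sum_univ_two, uu]

theorem qd_iota_comm_trans (b c : F) :
    iotaHom F (uu b) * transQ ![c, 0] = transQ ![c, 0] * iotaHom F (uu b) := by
  rw [iota_mul_trans]
  congr 2
  funext i
  fin_cases i
  · simp [Matrix.mulVec, dotProduct, Fin.sum_univ_two, uu]
  · simp [Matrix.mulVec, dotProduct, Fin.sum_univ_two, uu]

theorem qd_zpowers_form (z : ↥(Cfsg.qdOver F))
    (hz : z ∈ Subgroup.zpowers (iotaHom F (uu (1 : F)))) :
    ∃ a : F, z = iotaHom F (uu a) := by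
  obtain ⟨i, rfl⟩ := Subgroup.mem_zpowers_iff.mp hz
  rw [← map_zpow]
  have h1 : (uu (1 : F)) ^ i ∈ unip F := zpow_mem (uu_mem_unip 1) i
  exact ⟨_, congrArg _ (unip_eq_uu _ h1)⟩

theorem qd_quadratic :
    ⁅⁅(piHom F).ker, Subgroup.zpowers (iotaHom F (uu (1 : F)))⁆,
      Subgroup.zpowers (iotaHom F (uu (1 : F)))⁆ = ⊥ := by
  rw [Subgroup.commutator_eq_bot_iff_le_centralizer, Subgroup.commutator_le]
  intro v hv z hz
  rw [Subgroup.mem_centralizer_iff]
  intro z' hz'
  obtain ⟨a, rfl⟩ := qd_zpowers_form z hz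
  obtain ⟨b, rfl⟩ := qd_zpowers_form z' hz'
  rw [eq_transQ_of_mem_ker hv, qd_comm_trans_iota]
  exact qd_iota_comm_trans b _

theorem qd_centralizer_trivial (A : Matrix.SpecialLinearGroup (Fin 2) F)
    (h : ∀ u : Fin 2 → F, transQ u * iotaHom F A = iotaHom F A * transQ u) : A = 1 := by
  apply eq_one_of_mulVec
  intro u
  have h1 := h u
  rw [iota_mul_trans] at h1
  have h2 := mul_right_cancel h1
  exact (transQ_injective h2).symm

theorem qd_trace_one :
    (uu (1 : F) * (ll 1 * uu 1 * (ll 1)⁻¹)).1 0 0 + (uu (1 : F) * (ll 1 * uu 1 * (ll 1)⁻¹)).1 1 1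
      = 1 := by
  simp only [sl2_mul_apply, sl2_inv_00, sl2_inv_01, sl2_inv_10, sl2_inv_11, uu_00, uu_01, uu_10,
    uu_11, ll_00, ll_01, ll_10, ll_11]
  ring

/-- a finite group containing a copy of `Qd` over a finite field of characteristic `p` is not
`p`-stable in the normalizer form -/
theorem not_stable_of_qd [Fintype F] (p : ℕ) [hp : Fact p.Prime] [CharP F p]
    {Y : Type v} [Group Y] [Finite Y] (f : ↥(Cfsg.qdOver F) →* Y) (hf : Function.Injective f) :
    ¬ Cfsg.IsNormalizerPStable p Y := by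
  classical
  intro hst
  obtain ⟨P, hP⟩ : ∃ P : Subgroup Y, P = (piHom F).ker.map f := ⟨_, rfl⟩
  have hPp : IsPGroup p P := by rw [hP]; exact (ker_isPGroup p).map f
  have hnorm : ∀ q : ↥(Cfsg.qdOver F), f q ∈ Subgroup.normalizer (P : Set Y) := by
    intro q
    rw [Subgroup.mem_normalizer_iff]
    intro y
    rw [hP]
    constructor
    · rintro ⟨v, hv, rfl⟩
      exact ⟨q * v * q⁻¹, (MonoidHom.normal_ker (piHom F)).conj_mem v hv q, by simp⟩
    · rintro ⟨v, hv, hvy⟩
      refine ⟨q⁻¹ * v * q, ?_, ?_⟩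
      · have h0 := (MonoidHom.normal_ker (piHom F)).conj_mem v hv q⁻¹
        rw [inv_inv] at h0
        exact h0
      · rw [map_mul, map_mul, map_inv, hvy]
        group
  have hquad : ⁅⁅P, Subgroup.zpowers (f (iotaHom F (uu (1 : F))))⁆,
      Subgroup.zpowers (f (iotaHom F (uu (1 : F))))⁆ = ⊥ := by
    rw [hP, ← MonoidHom.map_zpowers, ← Subgroup.map_commutator, ← Subgroup.map_commutator,
      qd_quadratic, Subgroup.map_bot]
  have h1 := hst P hPp (f (iotaHom F (uu (1 : F)))) (hnorm _) hquad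
  obtain ⟨ψ, hψ⟩ : ∃ ψ : Matrix.SpecialLinearGroup (Fin 2) F →*
      ↥(Subgroup.normalizer (P : Set Y)), ∀ a, ((ψ a : ↥(Subgroup.normalizer (P : Set Y))) : Y) =
        f (iotaHom F a) :=
    ⟨(f.comp (iotaHom F)).codRestrict (Subgroup.normalizer (P : Set Y)) (fun a => hnorm _),
      fun a => rfl⟩
  have h1' : (QuotientGroup.mk' ((Subgroup.centralizer (P : Set Y)).subgroupOf
      (Subgroup.normalizer (P : Set Y)))) (ψ (uu (1 : F))) ∈
      Cfsg.pCore p (↥(Subgroup.normalizer (P : Set Y)) ⧸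
        (Subgroup.centralizer (P : Set Y)).subgroupOf (Subgroup.normalizer (P : Set Y))) := by
    have e : ψ (uu (1 : F)) = ⟨f (iotaHom F (uu (1 : F))), hnorm _⟩ := Subtype.ext (hψ _)
    rw [e]
    exact h1
  obtain ⟨φ, hφ⟩ : ∃ φ : Matrix.SpecialLinearGroup (Fin 2) F →*
      (↥(Subgroup.normalizer (P : Set Y)) ⧸
        (Subgroup.centralizer (P : Set Y)).subgroupOf (Subgroup.normalizer (P : Set Y))),
      φ = (QuotientGroup.mk' ((Subgroup.centralizer (P : Set Y)).subgroupOf
      (Subgroup.normalizer (P : Set Y)))).comp ψ := ⟨_, rfl⟩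
  have hφinj : Function.Injective φ := by
    rw [injective_iff_map_eq_one]
    intro a ha
    rw [hφ, MonoidHom.comp_apply, QuotientGroup.mk'_apply, QuotientGroup.eq_one_iff,
      Subgroup.mem_subgroupOf, hψ, Subgroup.mem_centralizer_iff] at ha
    apply qd_centralizer_trivial
    intro u
    apply hf
    rw [map_mul, map_mul]
    apply ha
    rw [hP]
    exact ⟨transQ u, transQ_mem_ker u, rfl⟩
  obtain ⟨O, hO⟩ : ∃ O : Subgroup (Matrix.SpecialLinearGroup (Fin 2) F),
      O = (Cfsg.pCore p (↥(Subgroup.normalizer (P : Set Y)) ⧸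
        (Subgroup.centralizer (P : Set Y)).subgroupOf
          (Subgroup.normalizer (P : Set Y)))).comap φ := ⟨_, rfl⟩
  have hOn : O.Normal := by
    rw [hO]
    exact Subgroup.Normal.comap (Cfsg.Agent.Lib.Helper1.pCore_normal p) φ
  have hOp : IsPGroup p O := by
    rw [hO]
    exact (Cfsg.Agent.Lib.Helper1.pCore_isPGroup p).comap_of_injective φ hφinj
  have hu : uu (1 : F) ∈ O := by
    rw [hO, Subgroup.mem_comap, hφ]
    exact h1'
  have hA : uu (1 : F) * (ll 1 * uu 1 * (ll 1)⁻¹) ∈ O :=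
    O.mul_mem hu (hOn.conj_mem _ hu _)
  obtain ⟨k, hk⟩ := hOp ⟨_, hA⟩
  have hk' : (uu (1 : F) * (ll 1 * uu 1 * (ll 1)⁻¹)) ^ p ^ k = 1 := by
    have h0 := congrArg Subtype.val hk
    rw [Subgroup.coe_pow, Subgroup.coe_one] at h0
    exact h0
  have h2 := trace_eq_two_of_pow p _ k hk'
  have h3 := qd_trace_one (F := F)
  have h4 : (1 : F) = 0 := by linear_combination h3 - h2
  exact one_ne_zero h4

end

/-- a finite group all of whose sections are `p`-stable in the normalizer form does not involve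
`Qd(p)` -/
theorem not_involves_qd_of_sections_stable {G : Type u} [Group G] [Finite G] {p : ℕ}
    [hp : Fact p.Prime]
    (hst : ∀ (K R : Subgroup G) [hR : (R.subgroupOf K).Normal],
      Cfsg.IsNormalizerPStable p (↥K ⧸ R.subgroupOf K)) :
    ¬ Cfsg.Involves ↥(Cfsg.qd p) G := by
  rintro ⟨K, R, hR, ⟨e⟩⟩
  exact not_stable_of_qd (F := ZMod p) p
    (e.symm.toMonoidHom : ↥(Cfsg.qdOver (ZMod p)) →* (↥K ⧸ R.subgroupOf K))
    e.symm.injective (@hst K R hR)

end Cfsg.Agent.Lib.Helper17
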