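import Mathlib
import Cfsg.Prelude
import Cfsg.Agent.Lib.Helper19.MaxAb

set_option autoImplicit false
set_option maxHeartbeats 1000000
set_option linter.unusedVariables false
set_option linter.unusedSimpArgs false
set_option linter.style.haveILetI false

/-!
Failure of control of strong fusion by the centre of the Thompson subgroup (abelian version) in a
group shaped like `Qd(p)`: an abelian normal self-centralizing subgroup `V` of order at most `p ^ 2`
on whose nonidentity elements the group is transitive, not a Sylow subgroup.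
-/

namespace Cfsg.Agent.Lib.Helper17

universe u

theorem isMulCommutative_closure_pair {Y : Type u} [Group Y] (a b : Y) (hab : a * b = b * a) :
    IsMulCommutative (Subgroup.closure ({a, b} : Set Y)) := by
  apply Cfsg.Agent.Lib.Helper19.isMulCommutative_of_le_centralizer
  rw [Subgroup.closure_le]
  have key : ∀ x ∈ ({a, b} : Set Y), ∀ h ∈ Subgroup.closure ({a, b} : Set Y), h * x = x * h := by
    intro x hx h hh
    induction hh using Subgroup.closure_induction with
    | mem y hy =>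
      rcases hx with rfl | rfl <;> rcases hy with rfl | rfl
      · rfl
      · exact hab.symm
      · exact hab
      · rfl
    | one => rw [one_mul, mul_one]
    | mul y z _ _ ihy ihz => rw [mul_assoc, ihz, ← mul_assoc, ihy, mul_assoc]
    | inv y _ ihy =>
      calc y⁻¹ * x = y⁻¹ * (x * y) * y⁻¹ := by group
        _ = y⁻¹ * (y * x) * y⁻¹ := by rw [ihy]
        _ = x * y⁻¹ := by group
  intro x hx
  rw [SetLike.mem_coe, Subgroup.mem_centralizer_iff]
  intro h hh
  exact key x hx h hh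

theorem zjA_not_sf {Y : Type u} [Group Y] [Finite Y] {p : ℕ} [hp : Fact p.Prime]
    (V : Subgroup Y) [hVn : V.Normal] (hVab : ∀ a ∈ V, ∀ b ∈ V, a * b = b * a)
    (hVp : IsPGroup p V) (hcard : Nat.card V ≤ p ^ 2)
    (hCV : Subgroup.centralizer (V : Set Y) ≤ V)
    (htrans : ∀ z ∈ V, z ≠ 1 → ∀ w ∈ V, w ≠ 1 → ∃ g : Y, g * z * g⁻¹ = w)
    (τ z₀ : Y) (hτ : τ ∉ V) (hτp : τ ^ p = 1) (hz₀ : z₀ ∈ V) (hz₀1 : z₀ ≠ 1)
    (hcomm : τ * z₀ = z₀ * τ) (T : Sylow p Y) :
    ¬ Cfsg.ControlsStrongFusion p (Cfsg.centerThompsonAOf (T : Subgroup Y)) := by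
  classical
  have hVT : ∀ T' : Sylow p Y, V ≤ (T' : Subgroup Y) := fun T' => hVp.le_sylow_of_normal T'
  -- an element of `T` outside `V` commuting with a nonidentity element of `V`
  obtain ⟨t, z₁, htT, htV, hz₁V, hz₁1, htz⟩ : ∃ t z₁ : Y, t ∈ (T : Subgroup Y) ∧ t ∉ V ∧ z₁ ∈ V ∧
      z₁ ≠ 1 ∧ t * z₁ = z₁ * t := by
    have hτP : IsPGroup p (Subgroup.zpowers τ) := by
      rintro ⟨x, hx⟩
      obtain ⟨k, rfl⟩ := Subgroup.mem_zpowers_iff.mp hx
      refine ⟨1, Subtype.ext ?_⟩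
      show (τ ^ k) ^ p ^ 1 = 1
      rw [pow_one, ← zpow_natCast, ← zpow_mul, mul_comm, zpow_mul, zpow_natCast, hτp, one_zpow]
    obtain ⟨Q, hQ⟩ := hτP.exists_le_sylow
    obtain ⟨g, hg⟩ := MulAction.exists_smul_eq Y Q T
    have hτQ : τ ∈ (Q : Subgroup Y) := hQ (Subgroup.mem_zpowers τ)
    have hmem : g * τ * g⁻¹ ∈ (T : Subgroup Y) := by
      rw [← hg, Sylow.smul_def, Sylow.pointwise_smul_def]
      exact Subgroup.smul_mem_pointwise_smul _ _ _ hτQ
    refine ⟨g * τ * g⁻¹, g * z₀ * g⁻¹, hmem, ?_, hVn.conj_mem _ hz₀ g, ?_, ?_⟩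
    · intro h
      have := hVn.conj_mem _ h g⁻¹
      rw [inv_inv] at this
      apply hτ
      convert this using 1
      group
    · intro h
      apply hz₀1
      have : z₀ = g⁻¹ * (g * z₀ * g⁻¹) * g := by group
      rw [this, h]; group
    · calc g * τ * g⁻¹ * (g * z₀ * g⁻¹) = g * (τ * z₀) * g⁻¹ := by group
        _ = g * (z₀ * τ) * g⁻¹ := by rw [hcomm]
        _ = g * z₀ * g⁻¹ * (g * τ * g⁻¹) := by group
  have hz₁T : z₁ ∈ (T : Subgroup Y) := hVT T hz₁V
  -- an abelian subgroup of `T` of order at least `p ^ 2` not inside `V`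
  set t' : ↥(T : Subgroup Y) := ⟨t, htT⟩ with ht'
  set z' : ↥(T : Subgroup Y) := ⟨z₁, hz₁T⟩ with hz'
  have htz' : t' * z' = z' * t' := Subtype.ext htz
  set A₂ : Subgroup ↥(T : Subgroup Y) := Subgroup.closure ({t', z'} : Set ↥(T : Subgroup Y))
    with hA₂
  have hA₂c : IsMulCommutative A₂ := isMulCommutative_closure_pair t' z' htz'
  have ht'A : t' ∈ A₂ := Subgroup.subset_closure (by simp)
  have hz'A : z' ∈ A₂ := Subgroup.subset_closure (by simp)
  set V' : Subgroup ↥(T : Subgroup Y) := V.subgroupOf (T : Subgroup Y) with hV'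
  have ht'V : t' ∉ V' := fun h => htV (Subgroup.mem_subgroupOf.mp h)
  have hTp : IsPGroup p ↥(T : Subgroup Y) := T.isPGroup'
  have hcardA₂ : p ^ 2 ≤ Nat.card A₂ := by
    obtain ⟨k, hk⟩ := (hTp.to_subgroup A₂).exists_card_eq
    have hzle : Subgroup.zpowers z' ≤ A₂ := (Subgroup.zpowers_le).mpr hz'A
    obtain ⟨i, hi⟩ := (hTp.to_subgroup (Subgroup.zpowers z')).exists_card_eq
    have hi0 : i ≠ 0 := by
      rintro rfl
      rw [pow_zero, Subgroup.card_eq_one, Subgroup.zpowers_eq_bot] at hi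
      exact hz₁1 (congrArg Subtype.val hi)
    have hne : Subgroup.zpowers z' ≠ A₂ := by
      intro h
      have h1 : t' ∈ Subgroup.zpowers z' := h ▸ ht'A
      apply ht'V
      have hzV : Subgroup.zpowers z' ≤ V' := (Subgroup.zpowers_le).mpr
        (Subgroup.mem_subgroupOf.mpr hz₁V)
      exact hzV h1
    have hlt : Nat.card (Subgroup.zpowers z') < Nat.card A₂ := by
      by_contra hge
      push Not at hge
      exact hne (Subgroup.eq_of_le_of_card_ge hzle hge)
    rw [hi, hk] at hlt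
    have hik : i < k := (Nat.pow_lt_pow_iff_right hp.out.one_lt).mp hlt
    rw [hk]
    exact Nat.pow_le_pow_right hp.out.pos (by omega)
  have hcardV' : Nat.card V' ≤ p ^ 2 := by
    refine le_trans ?_ hcard
    exact Nat.card_le_card_of_injective (fun x : V' => (⟨x.1.1, Subgroup.mem_subgroupOf.mp x.2⟩ : V))
      (fun x y h => by
        have h0 : (⟨x.1.1, Subgroup.mem_subgroupOf.mp x.2⟩ : V) =
            ⟨y.1.1, Subgroup.mem_subgroupOf.mp y.2⟩ := h
        have h' : (x.1.1 : Y) = y.1.1 := Subtype.mk.inj h0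
        exact Subtype.ext (Subtype.ext h'))
  -- a largest abelian subgroup of `T` not inside `V`
  obtain ⟨A, hAmax, hAV⟩ : ∃ A ∈ Cfsg.maxAbelianSubgroups ↥(T : Subgroup Y), ¬ A ≤ V' := by
    obtain ⟨A, hA⟩ := Cfsg.Agent.Lib.Helper19.exists_maxAbelian (G := ↥(T : Subgroup Y))
    by_cases hAV : A ≤ V'
    · refine ⟨A₂, ⟨hA₂c, fun B hB => ?_⟩, fun h => ht'V (h ht'A)⟩
      have h1 := hA.2 B hB
      have h2 : Nat.card A ≤ Nat.card V' := Subgroup.card_le_of_le hAV
      omega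
    · exact ⟨A, hA, hAV⟩
  set J : Subgroup Y := Cfsg.thompsonSubgroupAOf (T : Subgroup Y) with hJ
  have hJT : J ≤ (T : Subgroup Y) := by
    rw [hJ]; unfold Cfsg.thompsonSubgroupAOf
    exact Subgroup.map_subtype_le _
  have hAJ : ∀ A ∈ Cfsg.maxAbelianSubgroups ↥(T : Subgroup Y), ∀ a ∈ A, (a : Y) ∈ J := by
    intro A hA a ha
    rw [hJ]; unfold Cfsg.thompsonSubgroupAOf Cfsg.thompsonSubgroupA
    exact Subgroup.mem_map_of_mem _ ((le_sSup hA : A ≤ _) ha)
  set U : Subgroup Y := Cfsg.centerThompsonAOf (T : Subgroup Y) with hU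
  have hUdef : U = J ⊓ Subgroup.centralizer (J : Set Y) := rfl
  -- `V` is not inside `U`
  obtain ⟨w, hwV, hwU⟩ : ∃ w ∈ V, w ∉ U := by
    by_contra hcon
    push Not at hcon
    have hVU : V ≤ U := hcon
    have hVC : V ≤ Subgroup.centralizer (J : Set Y) := fun v hv => (hUdef ▸ hVU hv).2
    have hJV : J ≤ V := (Subgroup.le_centralizer_iff.mp hVC).trans hCV
    apply hAV
    intro a ha
    exact Subgroup.mem_subgroupOf.mpr (hJV (hAJ A hAmax a ha))
  have hw1 : w ≠ 1 := fun h => hwU (h ▸ U.one_mem)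
  -- the centre of `T` lies in `U ⊓ V`
  haveI : Nontrivial ↥(T : Subgroup Y) := ⟨⟨z', 1, fun h => hz₁1 (congrArg Subtype.val h)⟩⟩
  haveI := hTp.center_nontrivial
  obtain ⟨c, hc1⟩ := exists_ne (1 : Subgroup.center ↥(T : Subgroup Y))
  have hcc : ∀ x : ↥(T : Subgroup Y), x * c.1 = c.1 * x := fun x =>
    (Subgroup.mem_center_iff.mp c.2 x)
  set z : Y := ((c : ↥(T : Subgroup Y)) : Y) with hz
  have hz1 : z ≠ 1 := by
    intro h
    apply hc1
    apply Subtype.ext
    apply Subtype.ext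
    exact h
  have hzT : ∀ y ∈ (T : Subgroup Y), y * z = z * y := fun y hy =>
    congrArg Subtype.val (hcc ⟨y, hy⟩)
  have hzV : z ∈ V := by
    apply hCV
    rw [Subgroup.mem_centralizer_iff]
    intro v hv
    exact hzT v (hVT T hv)
  have hzU : z ∈ U := by
    rw [hUdef]
    refine Subgroup.mem_inf.mpr ⟨?_, ?_⟩
    · have hcA : (c : ↥(T : Subgroup Y)) ∈ A := by
        rw [← Cfsg.Agent.Lib.Helper19.maxAbelian_centralizer_eq hAmax, Subgroup.mem_centralizer_iff]
        intro a ha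
        exact hcc a
      exact hAJ A hAmax _ hcA
    · rw [Subgroup.mem_centralizer_iff]
      intro j hj
      exact hzT j (hJT hj)
  -- conclusion
  rintro ⟨T', hUT', hall⟩
  obtain ⟨g, hg⟩ := htrans z hzV hz1 w hwV hw1
  have hsub : ({z} : Set Y) ⊆ ((T' : Subgroup Y) : Set Y) := by
    intro a ha
    rw [Set.mem_singleton_iff] at ha
    rw [ha]
    exact hVT T' hzV
  obtain ⟨-, h2⟩ := hall {z} hsub
  obtain ⟨x, hx, hxz⟩ := h2 g (by
    rintro _ ⟨a, ha, rfl⟩
    rw [Set.mem_singleton_iff] at ha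
    rw [ha]
    show g * z * g⁻¹ ∈ (T' : Subgroup Y)
    rw [hg]
    exact hVT T' hwV)
  have h3 := hxz z rfl
  rw [hg] at h3
  apply hwU
  rw [h3]
  exact (Subgroup.mem_normalizer_iff.mp hx z).mp hzU

end Cfsg.Agent.Lib.Helper17
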