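import Cfsg.Agent.Lib.Helper17.QdFail
import Cfsg.Agent.Lib.Helper17.SL2Dickson
import Cfsg.Agent.S2762

set_option autoImplicit false
set_option maxHeartbeats 1000000
set_option linter.unusedVariables false
set_option linter.unusedSimpArgs false
set_option linter.style.haveILetI false

/-!
In a group isomorphic to `Qd(p)` the centre of the Thompson subgroup (abelian version) of a Sylow
`p`-subgroup does not control strong fusion.
-/

namespace Cfsg.Agent.Lib.Helper17

open Cfsg.Agent.S2762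

universe u

theorem sl2_vec_from_e1 {F : Type*} [Field F] (u : Fin 2 → F) (hu : u ≠ 0) :
    ∃ s : Matrix.SpecialLinearGroup (Fin 2) F,
      (s : Matrix (Fin 2) (Fin 2) F).mulVec ![1, 0] = u := by
  by_cases h0 : u 0 = 0
  · have h1 : u 1 ≠ 0 := by
      intro h1
      apply hu
      funext i
      fin_cases i
      · exact h0
      · exact h1
    refine ⟨⟨!![0, -(u 1)⁻¹; u 1, 0], ?_⟩, ?_⟩
    · rw [Matrix.det_fin_two_of]
      field_simp
      ring
    · funext i
      fin_cases i
      · simp [Matrix.mulVec, dotProduct, Fin.sum_univ_two, h0]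
      · simp [Matrix.mulVec, dotProduct, Fin.sum_univ_two]
  · refine ⟨⟨!![u 0, 0; u 1, (u 0)⁻¹], ?_⟩, ?_⟩
    · rw [Matrix.det_fin_two_of]
      field_simp
      ring
    · funext i
      fin_cases i
      · simp [Matrix.mulVec, dotProduct, Fin.sum_univ_two]
      · simp [Matrix.mulVec, dotProduct, Fin.sum_univ_two]

theorem sl2_trans_vec {F : Type*} [Field F] (u v : Fin 2 → F) (hu : u ≠ 0) (hv : v ≠ 0) :
    ∃ s : Matrix.SpecialLinearGroup (Fin 2) F, (s : Matrix (Fin 2) (Fin 2) F).mulVec u = v := by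
  obtain ⟨su, hsu⟩ := sl2_vec_from_e1 u hu
  obtain ⟨sv, hsv⟩ := sl2_vec_from_e1 v hv
  refine ⟨sv * su⁻¹, ?_⟩
  have h1 : ((su⁻¹ : Matrix.SpecialLinearGroup (Fin 2) F) : Matrix (Fin 2) (Fin 2) F).mulVec u
      = ![1, 0] := by
    rw [← hsu, Matrix.mulVec_mulVec, ← Matrix.SpecialLinearGroup.coe_mul, inv_mul_cancel,
      Matrix.SpecialLinearGroup.coe_one, Matrix.one_mulVec]
  rw [Matrix.SpecialLinearGroup.coe_mul, ← Matrix.mulVec_mulVec, h1, hsv]

theorem qd_zjA_not_sf {Y : Type u} [Group Y] [Finite Y] {p : ℕ} [hp : Fact p.Prime]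
    (e : Y ≃* ↥(Cfsg.qd p)) (T : Sylow p Y) :
    ¬ Cfsg.ControlsStrongFusion p (Cfsg.centerThompsonAOf (T : Subgroup Y)) := by
  classical
  haveI : NeZero p := ⟨hp.out.ne_zero⟩
  let e' : Y ≃* ↥(Cfsg.qdOver (ZMod p)) := e
  set π : Y →* Matrix.SpecialLinearGroup (Fin 2) (ZMod p) :=
    (piHom (ZMod p)).comp e'.toMonoidHom with hπ
  have hπa : ∀ y : Y, π y = piHom (ZMod p) (e' y) := fun y => rfl
  set V : Subgroup Y := π.ker with hVdef
  have hV : ∀ a ∈ V, ∃ u : Fin 2 → ZMod p, e' a = transQ u := by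
    intro a ha
    have h1 : e' a ∈ (piHom (ZMod p)).ker := by
      rw [MonoidHom.mem_ker, ← hπa]; exact MonoidHom.mem_ker.mp ha
    exact ⟨_, eq_transQ_of_mem_ker h1⟩
  have hVmem : ∀ u : Fin 2 → ZMod p, e'.symm (transQ u) ∈ V := by
    intro u
    rw [hVdef, MonoidHom.mem_ker, hπa, MulEquiv.apply_symm_apply]
    exact MonoidHom.mem_ker.mp (transQ_mem_ker u)
  have hVab : ∀ a ∈ V, ∀ b ∈ V, a * b = b * a := by
    intro a ha b hb
    obtain ⟨u, hu⟩ := hV a ha
    obtain ⟨v, hv⟩ := hV b hb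
    apply e'.injective
    rw [map_mul, map_mul, hu, hv, transQ_mul, transQ_mul, add_comm]
  have hVp : IsPGroup p V := by
    rintro ⟨a, ha⟩
    obtain ⟨u, hu⟩ := hV a ha
    refine ⟨1, Subtype.ext ?_⟩
    show a ^ p ^ 1 = 1
    apply e'.injective
    rw [pow_one, map_pow, hu, transQ_pow, map_one, ← Nat.cast_smul_eq_nsmul (ZMod p),
      CharP.cast_eq_zero, zero_smul, transQ_zero]
  have hcard : Nat.card V ≤ p ^ 2 := by
    choose f hf using fun a : V => hV a.1 a.2
    have hinj : Function.Injective f := by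
      intro a b hab
      apply Subtype.ext
      apply e'.injective
      rw [hf a, hf b, hab]
    have h1 := Nat.card_le_card_of_injective f hinj
    have h2 : Nat.card (Fin 2 → ZMod p) = p ^ 2 := by
      rw [Nat.card_fun, Nat.card_zmod, Nat.card_fin]
    rw [h2] at h1
    exact h1
  have hCV : Subgroup.centralizer (V : Set Y) ≤ V := by
    intro y hy
    rw [Subgroup.mem_centralizer_iff] at hy
    rw [hVdef, MonoidHom.mem_ker]
    set s := π y with hs
    apply eq_one_of_mulVec
    intro u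
    have hk : e' y * (iotaHom (ZMod p) s)⁻¹ ∈ (piHom (ZMod p)).ker := by
      rw [MonoidHom.mem_ker, map_mul, map_inv, pi_iota, hs, hπa, mul_inv_cancel]
    obtain ⟨c, hc⟩ : ∃ c : Fin 2 → ZMod p, e' y * (iotaHom (ZMod p) s)⁻¹ = transQ c :=
      ⟨_, eq_transQ_of_mem_ker hk⟩
    have hM : e' y = transQ c * iotaHom (ZMod p) s := by
      rw [← hc, inv_mul_cancel_right]
    have h1 := hy (e'.symm (transQ u)) (hVmem u)
    have h2 : transQ u * e' y = e' y * transQ u := by
      have := congrArg e' h1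
      rw [map_mul, map_mul, MulEquiv.apply_symm_apply] at this
      exact this
    rw [hM, mul_assoc, iota_mul_trans, ← mul_assoc, ← mul_assoc, transQ_mul, transQ_mul] at h2
    have h3 := transQ_injective (mul_right_cancel h2)
    have h4 : u + c = ((s : Matrix (Fin 2) (Fin 2) (ZMod p)).mulVec u) + c := by
      rw [h3, add_comm]
    exact (add_right_cancel h4).symm
  have htrans : ∀ z ∈ V, z ≠ 1 → ∀ w ∈ V, w ≠ 1 → ∃ g : Y, g * z * g⁻¹ = w := by
    intro z hz hz1 w hw hw1
    obtain ⟨u, hu⟩ := hV z hz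
    obtain ⟨v, hv⟩ := hV w hw
    have hu0 : u ≠ 0 := by
      rintro rfl
      rw [transQ_zero] at hu
      exact hz1 (e'.injective (hu.trans (map_one e').symm))
    have hv0 : v ≠ 0 := by
      rintro rfl
      rw [transQ_zero] at hv
      exact hw1 (e'.injective (hv.trans (map_one e').symm))
    obtain ⟨s, hs⟩ := sl2_trans_vec u v hu0 hv0
    refine ⟨e'.symm (iotaHom (ZMod p) s), ?_⟩
    apply e'.injective
    rw [map_mul, map_mul, map_inv, MulEquiv.apply_symm_apply, hu, hv, iota_mul_trans, hs,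
      mul_inv_cancel_right]
  have hτ : e'.symm (iotaHom (ZMod p) (uu 1)) ∉ V := by
    intro h
    rw [hVdef, MonoidHom.mem_ker, hπa, MulEquiv.apply_symm_apply, pi_iota] at h
    have h01 := uu_01 (K := ZMod p) 1
    rw [h, sl2_one_01] at h01
    exact zero_ne_one h01
  have hτp : (e'.symm (iotaHom (ZMod p) (uu 1))) ^ p = 1 := by
    rw [← map_pow, ← map_pow, uu_pow, CharP.cast_eq_zero, zero_mul, uu_zero, map_one, map_one]
  have hz₀1 : e'.symm (transQ (![1, 0] : Fin 2 → ZMod p)) ≠ 1 := by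
    intro h
    have h1 : transQ (![1, 0] : Fin 2 → ZMod p) = 1 := by
      have := congrArg e' h
      rw [MulEquiv.apply_symm_apply, map_one] at this
      exact this
    rw [← transQ_zero] at h1
    have h2 := congrFun (transQ_injective h1) 0
    simp at h2
  have hcomm : e'.symm (iotaHom (ZMod p) (uu 1)) * e'.symm (transQ (![1, 0] : Fin 2 → ZMod p)) =
      e'.symm (transQ (![1, 0] : Fin 2 → ZMod p)) * e'.symm (iotaHom (ZMod p) (uu 1)) := by
    rw [← map_mul, ← map_mul, iota_mul_trans]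
    congr 2
    congr 1
    funext i
    fin_cases i
    · simp [Matrix.mulVec, dotProduct, Fin.sum_univ_two, uu]
    · simp [Matrix.mulVec, dotProduct, Fin.sum_univ_two, uu]
  exact zjA_not_sf V hVab hVp hcard hCV htrans _ _ hτ hτp (hVmem _) hz₀1 hcomm T

end Cfsg.Agent.Lib.Helper17
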