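import Mathlib
import Cfsg.Prelude.Def_LocalEven
import Cfsg.Prelude.Def_Transfer
import Cfsg.Agent.Lib.Helper17.QuadPSolv
import Cfsg.Agent.Lib.Helper17.QuadSub

set_option autoImplicit false
set_option linter.unusedSimpArgs false
set_option linter.unusedVariables false
set_option linter.style.haveILetI false

/-!
Quadratic elements of a `p`-solvable subgroup `H` normalizing an elementary abelian subgroup `V`:
unless `p = 3` and `SL(2,3)` is involved in `H`, such an element lies in a normal subgroup of `H`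
all of whose elements have a `p`-power centralizing `V`.
-/

namespace Cfsg.Agent.Lib.Helper17

theorem quad_psolv_subgroup {G : Type*} [Group G] [Finite G] {p : ℕ} [Fact p.Prime] (hp : p ≠ 2)
    (V H : Subgroup G) (hV : Cfsg.IsElementaryAbelian p V)
    (hHV : H ≤ Subgroup.normalizer (V : Set G)) (hsol : Cfsg.IsPSolvable p H)
    (a : G) (haH : a ∈ H) (ha : ∀ v ∈ V, a * (a * v * a⁻¹ * v⁻¹) * a⁻¹ = a * v * a⁻¹ * v⁻¹)
    (hyp : ∀ N : Subgroup ↥H, N.Normal → (⟨a, haH⟩ : ↥H) ∈ N →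
      ¬ (∀ x ∈ N, ∃ k : ℕ, ∀ v ∈ V, (x : G) ^ p ^ k * v = v * (x : G) ^ p ^ k)) :
    p = 3 ∧ Cfsg.Involves (Matrix.SpecialLinearGroup (Fin 2) (ZMod 3)) ↥H := by
  classical
  obtain ⟨hVc, hVp⟩ := hV
  letI : CommGroup ↥V :=
    { (inferInstance : Group ↥V) with mul_comm := fun x y => hVc.is_comm.comm x y }
  obtain ⟨φ, hφ⟩ : ∃ φ : ↥H →* MulAut ↥V,
      ∀ (h : ↥H) (v : ↥V), ((φ h v : ↥V) : G) = h * v * (h : G)⁻¹ :=
    ⟨(V.normalizerMonoidHom).comp (Subgroup.inclusion hHV), fun _ _ => rfl⟩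
  have hAp : ∀ v : ↥V, v ^ p = 1 := by
    intro v
    apply Subtype.ext
    rw [Subgroup.coe_pow, hVp _ v.2]
    rfl
  have hq : QuadAct φ ⟨a, haH⟩ := by
    intro v
    apply Subtype.ext
    rw [hφ, Subgroup.coe_div, hφ, div_eq_mul_inv]
    exact ha v v.2
  refine quad_psolv hp hAp φ hsol ⟨a, haH⟩ hq ?_
  intro N hNn haN hN
  apply hyp N hNn haN
  intro x hx
  obtain ⟨k, hk⟩ := hN x hx
  refine ⟨k, ?_⟩
  intro v hv
  have h1 : φ (x ^ p ^ k) ⟨v, hv⟩ = ⟨v, hv⟩ := by rw [map_pow, hk]; rfl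
  have h2 := congrArg Subtype.val h1
  rw [hφ, Subgroup.coe_pow] at h2
  obtain ⟨y, hy⟩ : ∃ y : G, y = (x : G) ^ p ^ k := ⟨_, rfl⟩
  rw [← hy] at h2 ⊢
  calc y * v = (y * v * y⁻¹) * y := by group
    _ = v * y := by rw [h2]

end Cfsg.Agent.Lib.Helper17
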