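import Mathlib

set_option autoImplicit false

namespace Cfsg.Agent.Lib.Helper17

open scoped IsMulCommutative
open scoped commutatorElement

/-- Relative trace argument: if `R` normalizes the abelian group `V` of exponent `p` and `v ∈ V`
is centralized by a Sylow `p`-subgroup of `R`, then `v ∈ [V, R] C_V(R)`. -/
theorem mem_commutator_sup_centralizer_of_sylow {G : Type*} [Group G] {p : ℕ} [Fact p.Prime]
    (V R : Subgroup G) [Finite R] [hVc : IsMulCommutative V] (hVp : ∀ v ∈ V, v ^ p = 1)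
    (hRV : R ≤ Subgroup.normalizer (V : Set G)) (S : Sylow p ↥R) (v : G) (hvV : v ∈ V)
    (hvT : ∀ s ∈ (S : Subgroup ↥R), ((s : ↥R) : G) * v = v * ((s : ↥R) : G)) :
    v ∈ ⁅V, R⁆ ⊔ (V ⊓ Subgroup.centralizer (R : Set G)) := by
  classical
  have hm : Nat.Coprime (Nat.card (↥R ⧸ (S : Subgroup ↥R))) p := by
    have h1 := S.not_dvd_index
    rw [Subgroup.index] at h1
    exact ((Nat.Prime.coprime_iff_not_dvd Fact.out).mpr h1).symm
  haveI : Fintype (↥R ⧸ (S : Subgroup ↥R)) := Fintype.ofFinite _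
  have hconjV : ∀ r : ↥R, ∀ u : ↥V, (r : G) * (u : G) * (r : G)⁻¹ ∈ V :=
    fun r u => (Subgroup.mem_normalizer_iff.mp (hRV r.2) u).mp u.2
  let F : ↥R ⧸ (S : Subgroup ↥R) → ↥V :=
    fun q => ⟨(q.out : G) * v * (q.out : G)⁻¹, hconjV q.out ⟨v, hvV⟩⟩
  have hF : ∀ r : ↥R, F (QuotientGroup.mk r) = ⟨(r : G) * v * (r : G)⁻¹, hconjV r ⟨v, hvV⟩⟩ := by
    intro r
    apply Subtype.ext
    show (((QuotientGroup.mk r : ↥R ⧸ (S : Subgroup ↥R)).out : ↥R) : G) * v *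
      (((QuotientGroup.mk r : ↥R ⧸ (S : Subgroup ↥R)).out : ↥R) : G)⁻¹ = (r : G) * v * (r : G)⁻¹
    obtain ⟨s, hs⟩ := QuotientGroup.mk_out_eq_mul (S : Subgroup ↥R) r
    rw [hs]
    have hcomm := hvT s s.2
    simp only [Subgroup.coe_mul, mul_inv_rev]
    calc (r : G) * ((s : ↥R) : G) * v * (((s : ↥R) : G)⁻¹ * (r : G)⁻¹)
        = (r : G) * (((s : ↥R) : G) * v) * ((s : ↥R) : G)⁻¹ * (r : G)⁻¹ := by group
      _ = (r : G) * (v * ((s : ↥R) : G)) * ((s : ↥R) : G)⁻¹ * (r : G)⁻¹ := by rw [hcomm]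
      _ = (r : G) * v * (r : G)⁻¹ := by group
  have hwR : ((∏ q, F q : ↥V) : G) ∈ Subgroup.centralizer (R : Set G) := by
    rw [Subgroup.mem_centralizer_iff]
    intro r₀ hr₀
    let cj : ↥V →* ↥V :=
      { toFun := fun u => ⟨r₀ * u * r₀⁻¹, hconjV ⟨r₀, hr₀⟩ u⟩
        map_one' := by apply Subtype.ext; simp
        map_mul' := by intro a b; apply Subtype.ext; simp [mul_assoc] }
    have h1 : cj (∏ q, F q) = ∏ q, F q := by
      rw [map_prod]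
      have h2 : ∀ q, cj (F q) = F ((⟨r₀, hr₀⟩ : ↥R) • q) := by
        intro q
        obtain ⟨r, rfl⟩ := QuotientGroup.mk_surjective q
        have h3 : (⟨r₀, hr₀⟩ : ↥R) • (QuotientGroup.mk r : ↥R ⧸ (S : Subgroup ↥R)) =
            QuotientGroup.mk (⟨r₀, hr₀⟩ * r) := rfl
        rw [h3, hF, hF]
        apply Subtype.ext
        simp [cj, mul_assoc]
      simp_rw [h2]
      exact Fintype.prod_equiv (MulAction.toPerm (⟨r₀, hr₀⟩ : ↥R)) _ _ (fun q => rfl)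
    have h3 : r₀ * ((∏ q, F q : ↥V) : G) * r₀⁻¹ = ((∏ q, F q : ↥V) : G) := congrArg Subtype.val h1
    calc r₀ * ((∏ q, F q : ↥V) : G) = (r₀ * ((∏ q, F q : ↥V) : G) * r₀⁻¹) * r₀ := by group
      _ = ((∏ q, F q : ↥V) : G) * r₀ := by rw [h3]
  have hc : ∀ q, (⟨v, hvV⟩ : ↥V)⁻¹ * F q ∈ (⁅V, R⁆).subgroupOf V := by
    intro q
    rw [Subgroup.mem_subgroupOf]
    show v⁻¹ * ((q.out : G) * v * (q.out : G)⁻¹) ∈ ⁅V, R⁆
    have h1 : v⁻¹ * ((q.out : G) * v * (q.out : G)⁻¹) = ⁅v⁻¹, (q.out : G)⁆ := by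
      rw [commutatorElement_def]; group
    rw [h1]
    exact Subgroup.commutator_mem_commutator (V.inv_mem hvV) q.out.2
  have hprod : (∏ q, F q : ↥V) = (⟨v, hvV⟩ : ↥V) ^ (Nat.card (↥R ⧸ (S : Subgroup ↥R))) *
      ∏ q, ((⟨v, hvV⟩ : ↥V)⁻¹ * F q) := by
    rw [Finset.prod_mul_distrib, Finset.prod_const, Finset.card_univ, ← Nat.card_eq_fintype_card,
      inv_pow, mul_inv_cancel_left]
  have hcprod : ∏ q, ((⟨v, hvV⟩ : ↥V)⁻¹ * F q) ∈ (⁅V, R⁆).subgroupOf V :=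
    Subgroup.prod_mem _ (fun q _ => hc q)
  have hvm : v ^ (Nat.card (↥R ⧸ (S : Subgroup ↥R))) ∈
      ⁅V, R⁆ ⊔ (V ⊓ Subgroup.centralizer (R : Set G)) := by
    have h1 : (⟨v, hvV⟩ : ↥V) ^ (Nat.card (↥R ⧸ (S : Subgroup ↥R))) =
        (∏ q, F q : ↥V) * (∏ q, ((⟨v, hvV⟩ : ↥V)⁻¹ * F q))⁻¹ := by
      rw [hprod, mul_inv_cancel_right]
    have h2 : v ^ (Nat.card (↥R ⧸ (S : Subgroup ↥R))) =
        ((∏ q, F q : ↥V) : G) * ((∏ q, ((⟨v, hvV⟩ : ↥V)⁻¹ * F q) : ↥V) : G)⁻¹ := by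
      have := congrArg Subtype.val h1
      simpa using this
    rw [h2]
    exact Subgroup.mul_mem _
      ((le_sup_right : V ⊓ Subgroup.centralizer (R : Set G) ≤ _)
        (Subgroup.mem_inf.mpr ⟨(∏ q, F q : ↥V).2, hwR⟩))
      ((le_sup_left : ⁅V, R⁆ ≤ _) (Subgroup.inv_mem _ (Subgroup.mem_subgroupOf.mp hcprod)))
  have hvp : v ^ p = 1 := hVp v hvV
  have hb : (1 : ℤ) = (Nat.card (↥R ⧸ (S : Subgroup ↥R)) : ℤ) *
      Nat.gcdA (Nat.card (↥R ⧸ (S : Subgroup ↥R))) p +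
      (p : ℤ) * Nat.gcdB (Nat.card (↥R ⧸ (S : Subgroup ↥R))) p := by
    have h1 := Nat.gcd_eq_gcd_ab (Nat.card (↥R ⧸ (S : Subgroup ↥R))) p
    rw [Nat.Coprime] at hm
    rw [hm] at h1
    exact_mod_cast h1
  have hfin : v = (v ^ (Nat.card (↥R ⧸ (S : Subgroup ↥R)))) ^
      (Nat.gcdA (Nat.card (↥R ⧸ (S : Subgroup ↥R))) p) := by
    calc v = v ^ (1 : ℤ) := (zpow_one v).symm
      _ = v ^ ((Nat.card (↥R ⧸ (S : Subgroup ↥R)) : ℤ) *
            Nat.gcdA (Nat.card (↥R ⧸ (S : Subgroup ↥R))) p +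
            (p : ℤ) * Nat.gcdB (Nat.card (↥R ⧸ (S : Subgroup ↥R))) p) := by rw [← hb]
      _ = (v ^ (Nat.card (↥R ⧸ (S : Subgroup ↥R)))) ^
            (Nat.gcdA (Nat.card (↥R ⧸ (S : Subgroup ↥R))) p) *
          (v ^ p) ^ (Nat.gcdB (Nat.card (↥R ⧸ (S : Subgroup ↥R))) p) := by
        rw [zpow_add, zpow_mul, zpow_mul, zpow_natCast, zpow_natCast]
      _ = _ := by rw [hvp, one_zpow, mul_one]
  rw [hfin]
  exact Subgroup.zpow_mem _ hvm _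

end Cfsg.Agent.Lib.Helper17
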