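import Cfsg.Agent.Lib.Helper17.SL2Dickson3

set_option autoImplicit false
set_option maxHeartbeats 2000000
set_option linter.unusedVariables false
set_option linter.unusedSimpArgs false
set_option linter.style.haveILetI false

/-!
Elements of `p`-power order in two-dimensional special linear groups of characteristic `p`, and
some commutation lemmas.
-/

namespace Cfsg.Agent.Lib.Helper17

section

variable {K : Type*} [Field K]

local notation "SL₂" => Matrix.SpecialLinearGroup (Fin 2) K

/-- elements of `p`-power order have order dividing `p` -/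
theorem sl2_pow_p_of_pow_pk (p : ℕ) [hp : Fact p.Prime] [CharP K p] (w : SL₂) (k : ℕ)
    (hw : w ^ p ^ k = 1) : w ^ p = 1 := by
  obtain ⟨M, hM⟩ : ∃ M : Matrix (Fin 2) (Fin 2) K, M = w.1 := ⟨_, rfl⟩
  have hMp : M ^ p ^ k = 1 := by
    rw [hM, ← Matrix.SpecialLinearGroup.coe_pow, hw]
    rfl
  obtain ⟨N, hN⟩ : ∃ N : Matrix (Fin 2) (Fin 2) K, N = M - 1 := ⟨_, rfl⟩
  have hNp : N ^ p ^ k = 0 := by
    rw [hN, sub_pow_char_pow_of_commute p k (Commute.one_right M), hMp, one_pow, sub_self]
  have hdet : N.det = 0 := by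
    have h1 := congrArg Matrix.det hNp
    rw [Matrix.det_pow, Matrix.det_zero] at h1
    exact eq_zero_of_pow_eq_zero h1
  have hsq : N * N = N.trace • N := by
    rw [mat2_sq, hdet, zero_smul, sub_zero]
  have hpow : ∀ j : ℕ, N ^ (j + 1) = N.trace ^ j • N := by
    intro j
    induction j with
    | zero => rw [pow_zero, one_smul, zero_add, pow_one]
    | succ j ih => rw [pow_succ, ih, smul_mul_assoc, hsq, smul_smul, pow_succ]
  have hNN : N * N = 0 := by
    obtain ⟨j, hj⟩ : ∃ j, p ^ k = j + 1 :=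
      ⟨p ^ k - 1, by have := Nat.pos_of_ne_zero (pow_ne_zero k hp.1.ne_zero); omega⟩
    rw [hj, hpow] at hNp
    rcases smul_eq_zero.mp hNp with h1 | h1
    · rw [hsq, eq_zero_of_pow_eq_zero h1, zero_smul]
    · rw [h1, mul_zero]
  have hNp' : N ^ p = 0 := by
    obtain ⟨j, hj⟩ : ∃ j, p = 2 + j := ⟨p - 2, by have := hp.1.two_le; omega⟩
    rw [hj, pow_add, pow_two, hNN, zero_mul]
  have hM1 : M = 1 + N := by rw [hN]; abel
  have hMp1 : M ^ p = 1 := by
    rw [hM1, add_pow_char_of_commute p (Commute.one_left N), one_pow, hNp', add_zero]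
  apply Subtype.ext
  rw [Matrix.SpecialLinearGroup.coe_pow, ← hM, hMp1]
  rfl

theorem negOne_comm (g : SL₂) : negOne * g = g * negOne := by
  apply sl2_ext' <;>
    simp only [sl2_mul_apply, negOne_00, negOne_01, negOne_10, negOne_11] <;> ring

/-- an element commuting with its conjugate by an upper unitriangular element is upper
triangular -/
theorem conj_uu_comm (h2 : (2 : K) ≠ 0) (a : K) (ha : a ≠ 0) (M : SL₂)
    (hc : M * (uu a * M * (uu a)⁻¹) = (uu a * M * (uu a)⁻¹) * M) : M.1 1 0 = 0 := by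
  have h := congrArg (fun g : SL₂ => g.1 1 0) hc
  simp only [sl2_mul_apply, sl2_inv_00, sl2_inv_01, sl2_inv_10, sl2_inv_11, uu_00, uu_01, uu_10,
    uu_11] at h
  have h1 : (2 * a) * (M.1 1 0 * M.1 1 0) = 0 := by linear_combination h
  rcases mul_eq_zero.mp h1 with h3 | h3
  · exfalso
    rcases mul_eq_zero.mp h3 with h4 | h4
    · exact h2 h4
    · exact ha h4
  · exact mul_self_eq_zero.mp h3

/-- an element commuting with its conjugate by a lower unitriangular element is lower
triangular -/
theorem conj_ll_comm (h2 : (2 : K) ≠ 0) (b : K) (hb : b ≠ 0) (M : SL₂)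
    (hc : M * (ll b * M * (ll b)⁻¹) = (ll b * M * (ll b)⁻¹) * M) : M.1 0 1 = 0 := by
  have h := congrArg (fun g : SL₂ => g.1 0 1) hc
  simp only [sl2_mul_apply, sl2_inv_00, sl2_inv_01, sl2_inv_10, sl2_inv_11, ll_00, ll_01, ll_10,
    ll_11] at h
  have h1 : (2 * b) * (M.1 0 1 * M.1 0 1) = 0 := by linear_combination h
  rcases mul_eq_zero.mp h1 with h3 | h3
  · exfalso
    rcases mul_eq_zero.mp h3 with h4 | h4
    · exact h2 h4
    · exact hb h4
  · exact mul_self_eq_zero.mp h3

/-- an element commuting with an upper unitriangular element and with a conjugate of it by a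
lower unitriangular element is scalar -/
theorem scalar_of_comm (a b : K) (ha : a ≠ 0) (hb : b ≠ 0) (g : SL₂)
    (h1 : uu a * g = g * uu a)
    (h2 : (ll b * uu a * (ll b)⁻¹) * g = g * (ll b * uu a * (ll b)⁻¹)) :
    g = 1 ∨ g = negOne := by
  obtain ⟨g10, g0011⟩ := (comm_uu_iff a ha g).mp h1
  have h3 : uu a * ((ll b)⁻¹ * g * ll b) = ((ll b)⁻¹ * g * ll b) * uu a := by
    have e1 : uu a * ((ll b)⁻¹ * g * ll b)
        = (ll b)⁻¹ * ((ll b * uu a * (ll b)⁻¹) * g) * ll b := by group
    have e2 : ((ll b)⁻¹ * g * ll b) * uu a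
        = (ll b)⁻¹ * (g * (ll b * uu a * (ll b)⁻¹)) * ll b := by group
    rw [e1, e2, h2]
  have h4 := ((comm_uu_iff a ha _).mp h3).1
  simp only [sl2_mul_apply, sl2_inv_00, sl2_inv_01, sl2_inv_10, sl2_inv_11, ll_00, ll_01, ll_10,
    ll_11] at h4
  rw [g10, g0011] at h4
  have h5 : b * b * g.1 0 1 = 0 := by linear_combination -h4
  have g01 : g.1 0 1 = 0 := by
    rcases mul_eq_zero.mp h5 with h6 | h6
    · exfalso
      exact hb (mul_self_eq_zero.mp h6)
    · exact h6
  have hd := sl2_det' g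
  rw [g01, g10, ← g0011] at hd
  have h7 : (g.1 0 0 - 1) * (g.1 0 0 + 1) = 0 := by linear_combination hd
  rcases mul_eq_zero.mp h7 with h8 | h8
  · left
    apply sl2_ext'
    · rw [sl2_one_00]; linear_combination h8
    · rw [sl2_one_01, g01]
    · rw [sl2_one_10, g10]
    · rw [sl2_one_11, ← g0011]; linear_combination h8
  · right
    apply sl2_ext'
    · rw [negOne_00]; linear_combination h8
    · rw [negOne_01, g01]
    · rw [negOne_10, g10]
    · rw [negOne_11, ← g0011]; linear_combination h8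

end

end Cfsg.Agent.Lib.Helper17
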