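import Mathlib
import Cfsg.Agent.Lib.Helper17.GL2Sq

set_option autoImplicit false

/-!
Transport from `GL_n` to `SL_n`: if the determinant-one part of a Sylow `2`-subgroup of
`GL_n(F)` has squares in its own commutator subgroup, then so does every Sylow `2`-subgroup of
`SL_n(F)`.
-/

namespace Cfsg.Agent.Lib.Helper17.SLofGL

open scoped commutatorElement

theorem sl_sylow_sq_of_gl {F : Type*} [Field F] [Fintype F] (n : ℕ) (B : Sylow 2 (Matrix.GeneralLinearGroup (Fin n) F)) (hB : ∀ x ∈ (B : Subgroup (Matrix.GeneralLinearGroup (Fin n) F)) ⊓ (Matrix.GeneralLinearGroup.det : Matrix.GeneralLinearGroup (Fin n) F →* Fˣ).ker, x ^ 2 ∈ ⁅(B : Subgroup (Matrix.GeneralLinearGroup (Fin n) F)) ⊓ (Matrix.GeneralLinearGroup.det : Matrix.GeneralLinearGroup (Fin n) F →* Fˣ).ker, (B : Subgroup (Matrix.GeneralLinearGroup (Fin n) F)) ⊓ (Matrix.GeneralLinearGroup.det : Matrix.GeneralLinearGroup (Fin n) F →* Fˣ).ker⁆) (P : Sylow 2 (Matrix.SpecialLinearGroup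 (Fin n) F)) : ∀ x : (P : Subgroup (Matrix.SpecialLinearGroup (Fin n) F)), x ^ 2 ∈ commutator (P : Subgroup (Matrix.SpecialLinearGroup (Fin n) F)) := by
  classical
  have hp2 : Fact (Nat.Prime 2) := ⟨Nat.prime_two⟩
  obtain ⟨K, hKdef⟩ : ∃ K : Subgroup (Matrix.GeneralLinearGroup (Fin n) F),
      K = (B : Subgroup (Matrix.GeneralLinearGroup (Fin n) F)) ⊓ (Matrix.GeneralLinearGroup.det : Matrix.GeneralLinearGroup (Fin n) F →* Fˣ).ker := ⟨_, rfl⟩
  rw [← hKdef] at hB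
  have hK' : ∀ k : ↥K, k ^ 2 ∈ commutator ↥K := by
    have key : (commutator ↥K).map K.subtype = ⁅K, K⁆ := by
      rw [commutator_def, Subgroup.map_commutator, ← MonoidHom.range_eq_map,
        Subgroup.range_subtype]
    intro k
    have h1 := hB (k : Matrix.GeneralLinearGroup (Fin n) F) k.2
    rw [← key] at h1
    obtain ⟨c, hc, hck⟩ := h1
    have e : c = k ^ 2 := Subtype.ext hck
    rw [← e]
    exact hc
  obtain ⟨ι, hιdef⟩ : ∃ ι : Matrix.SpecialLinearGroup (Fin n) F →*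
      Matrix.GeneralLinearGroup (Fin n) F, ι = Matrix.SpecialLinearGroup.toGL := ⟨_, rfl⟩
  have hιinj : Function.Injective ι := by
    rw [hιdef]
    exact Matrix.SpecialLinearGroup.toGL_injective
  have hrange : ∀ g : Matrix.GeneralLinearGroup (Fin n) F,
      g ∈ ι.range ↔ Matrix.GeneralLinearGroup.det g = 1 := by
    intro g
    rw [hιdef]
    exact Cfsg.Agent.Lib.Helper17.GL2Sq.mem_range_toGL_iff g
  have hNn : ι.range.Normal := by
    rw [hιdef]
    exact Cfsg.Agent.Lib.Helper17.GL2Sq.range_toGL_normal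
  have hS1p : IsPGroup 2 ((B : Subgroup (Matrix.GeneralLinearGroup (Fin n) F)).comap ι) :=
    B.isPGroup'.comap_of_injective ι hιinj
  have hS1idx : ¬ 2 ∣ ((B : Subgroup (Matrix.GeneralLinearGroup (Fin n) F)).comap ι).index := by
    rw [Subgroup.index_comap, ← Subgroup.inf_relIndex_right]
    exact Cfsg.Agent.Lib.Helper21.not_dvd_relIndex_sylow_inf_normal B ι.range
  obtain ⟨P1, hP1def⟩ : ∃ P1 : Sylow 2 (Matrix.SpecialLinearGroup (Fin n) F),
      P1 = hS1p.toSylow hS1idx := ⟨_, rfl⟩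
  have hP1mem : ∀ y : Matrix.SpecialLinearGroup (Fin n) F,
      y ∈ (P1 : Subgroup (Matrix.SpecialLinearGroup (Fin n) F)) ↔
        ι y ∈ (B : Subgroup (Matrix.GeneralLinearGroup (Fin n) F)) := by
    intro y
    rw [hP1def]
    show y ∈ hS1p.toSylow hS1idx ↔ _
    rw [IsPGroup.mem_toSylow, Subgroup.mem_comap]
  have hmemK : ∀ y : ↥(P1 : Subgroup (Matrix.SpecialLinearGroup (Fin n) F)),
      ι (y : Matrix.SpecialLinearGroup (Fin n) F) ∈ K := by
    intro y
    rw [hKdef]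
    exact Subgroup.mem_inf.mpr ⟨(hP1mem y).mp y.2,
      MonoidHom.mem_ker.mpr ((hrange _).mp ⟨(y : Matrix.SpecialLinearGroup (Fin n) F), rfl⟩)⟩
  obtain ⟨ψ, hψ⟩ : ∃ ψ : ↥(P1 : Subgroup (Matrix.SpecialLinearGroup (Fin n) F)) →* ↥K,
      ∀ y, (ψ y : Matrix.GeneralLinearGroup (Fin n) F) = ι (y : Matrix.SpecialLinearGroup (Fin n) F) :=
    ⟨(ι.comp (P1 : Subgroup (Matrix.SpecialLinearGroup (Fin n) F)).subtype).codRestrict K hmemK, fun y => rfl⟩
  have hψinj : Function.Injective ψ := by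
    intro a b hab
    have h1 : ι (a : Matrix.SpecialLinearGroup (Fin n) F) = ι (b : Matrix.SpecialLinearGroup (Fin n) F) := by
      rw [← hψ a, ← hψ b, hab]
    exact Subtype.ext (hιinj h1)
  have hψsurj : Function.Surjective ψ := by
    intro k
    have hk := hKdef.le k.2
    obtain ⟨hkB, hkk⟩ := Subgroup.mem_inf.mp hk
    obtain ⟨y, hy⟩ := (hrange (k : Matrix.GeneralLinearGroup (Fin n) F)).mpr (MonoidHom.mem_ker.mp hkk)
    have hyP : y ∈ (P1 : Subgroup (Matrix.SpecialLinearGroup (Fin n) F)) := by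
      rw [hP1mem, hy]
      exact hkB
    exact ⟨⟨y, hyP⟩, Subtype.ext ((hψ _).trans hy)⟩
  have hP1sq : ∀ u : ↥(P1 : Subgroup (Matrix.SpecialLinearGroup (Fin n) F)),
      u ^ 2 ∈ commutator ↥(P1 : Subgroup (Matrix.SpecialLinearGroup (Fin n) F)) := by
    obtain ⟨e, he⟩ : ∃ e : ↥(P1 : Subgroup (Matrix.SpecialLinearGroup (Fin n) F)) ≃* ↥K, ∀ y, e y = ψ y :=
      ⟨MulEquiv.ofBijective ψ ⟨hψinj, hψsurj⟩, fun y => rfl⟩
    exact Cfsg.Agent.Lib.Helper26.GenOrdP.pow_mem_commutator_of_surjective e.symm.toMonoidHom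
      e.symm.surjective 2 hK'
  have e2 := Sylow.equiv P1 P
  exact Cfsg.Agent.Lib.Helper26.GenOrdP.pow_mem_commutator_of_surjective e2.toMonoidHom
    e2.surjective 2 hP1sq

end Cfsg.Agent.Lib.Helper17.SLofGL
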