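import Mathlib

set_option autoImplicit false

namespace Cfsg.Agent.Lib.Helper17

open Polynomial

section Singer
variable {F : Type*} [Field F] [Fintype F]

/-- cardinality of `AdjoinRoot f` over a finite field -/
theorem card_adjoinRoot (f : F[X]) (hf : f ≠ 0) :
    Nat.card (AdjoinRoot f) = Fintype.card F ^ f.natDegree := by
  have : Module.Finite F (AdjoinRoot f) := (AdjoinRoot.powerBasis hf).finite
  have : Finite (AdjoinRoot f) := Module.finite_of_finite F
  have : Fintype (AdjoinRoot f) := Fintype.ofFinite _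
  rw [Nat.card_eq_fintype_card, Module.card_eq_pow_finrank (K := F) (V := AdjoinRoot f),
    (AdjoinRoot.powerBasis hf).finrank, AdjoinRoot.powerBasis_dim]

theorem minpoly_irreducible_of_order {p q : ℕ} [Fact p.Prime] [CharP F p]
    (hF : Fintype.card F = q) {n r : ℕ} (hn : 1 ≤ n) (hr : r.Prime) (hrp : r ≠ p)
    (hi : orderOf (q : ZMod r) = n) (A : Matrix (Fin n) (Fin n) F) (hAr : A ^ r = 1)
    (hA1 : A ≠ 1) : Irreducible (minpoly F A) ∧ (minpoly F A).natDegree = n := by
  classical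
  have hi0 : Nonempty (Fin n) := ⟨⟨0, hn⟩⟩
  have hint : IsIntegral F A := Algebra.IsIntegral.isIntegral A
  have hm0 : minpoly F A ≠ 0 := minpoly.ne_zero hint
  obtain ⟨Ψ, hΨ⟩ : ∃ Ψ : F[X], Ψ = ∑ i ∈ Finset.range r, X ^ i := ⟨_, rfl⟩
  have hgeom : (X - 1) * Ψ = X ^ r - 1 := by
    rw [hΨ]
    exact mul_geom_sum X r
  have hm_dvd : minpoly F A ∣ (X - 1) * Ψ := by
    rw [hgeom]
    apply minpoly.dvd
    simp [hAr]
  have hncop : ¬ IsCoprime (minpoly F A) Ψ := by
    intro hcop
    have h1 : minpoly F A ∣ X - 1 := hcop.dvd_of_dvd_mul_right hm_dvd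
    have h2 : aeval A (X - 1 : F[X]) = 0 := (minpoly.dvd_iff (A := F) (x := A)).mp h1
    simp at h2
    exact hA1 (sub_eq_zero.mp h2)
  have hgcd : ¬ IsUnit (EuclideanDomain.gcd (minpoly F A) Ψ) := by
    rwa [EuclideanDomain.gcd_isUnit_iff]
  have hgcd0 : EuclideanDomain.gcd (minpoly F A) Ψ ≠ 0 := by
    intro h
    exact hm0 (EuclideanDomain.gcd_eq_zero_iff.mp h).1
  obtain ⟨f, hfirr, hfdvd⟩ := WfDvdMonoid.exists_irreducible_factor hgcd hgcd0
  have hfm : f ∣ minpoly F A := hfdvd.trans (EuclideanDomain.gcd_dvd_left _ _)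
  have hfΨ : f ∣ Ψ := hfdvd.trans (EuclideanDomain.gcd_dvd_right _ _)
  have : Fact (Irreducible f) := ⟨hfirr⟩
  have hf0 : f ≠ 0 := hfirr.ne_zero
  obtain ⟨ξ, hξ⟩ : ∃ ξ : AdjoinRoot f, ξ = AdjoinRoot.root f := ⟨_, rfl⟩
  have hΨξ : ∑ i ∈ Finset.range r, ξ ^ i = 0 := by
    have h := AdjoinRoot.aeval_eq (f := f) Ψ
    rw [AdjoinRoot.mk_eq_zero.mpr hfΨ, hΨ] at h
    rw [← h, hξ]
    simp
  have hξr : ξ ^ r = 1 := by
    have h := mul_geom_sum ξ r
    rw [hΨξ, mul_zero] at h
    exact sub_eq_zero.mp h.symm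
  have : CharP (AdjoinRoot f) p :=
    charP_of_injective_algebraMap (algebraMap F (AdjoinRoot f)).injective p
  have hξ1 : ξ ≠ 1 := by
    intro h1
    rw [h1] at hΨξ
    simp only [one_pow, Finset.sum_const, Finset.card_range, nsmul_eq_mul, mul_one] at hΨξ
    have h2 := (CharP.cast_eq_zero_iff (AdjoinRoot f) p r).mp hΨξ
    exact hrp ((Nat.prime_dvd_prime_iff_eq Fact.out hr).mp h2).symm
  have hξ0 : ξ ≠ 0 := by
    intro h0
    rw [h0, zero_pow hr.ne_zero] at hξr
    exact zero_ne_one hξr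
  have : Fact r.Prime := ⟨hr⟩
  have hord : orderOf (Units.mk0 ξ hξ0) = r := by
    apply orderOf_eq_prime
    · apply Units.ext
      rw [Units.val_pow_eq_pow_val]
      exact hξr
    · intro h
      exact hξ1 (congrArg Units.val h)
  have : Module.Finite F (AdjoinRoot f) := (AdjoinRoot.powerBasis hf0).finite
  have : Finite (AdjoinRoot f) := Module.finite_of_finite F
  have : Fintype (AdjoinRoot f) := Fintype.ofFinite _
  have hdvd : r ∣ q ^ f.natDegree - 1 := by
    have h1 : orderOf (Units.mk0 ξ hξ0) ∣ Fintype.card (AdjoinRoot f)ˣ := orderOf_dvd_card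
    rw [hord, Fintype.card_units, ← Nat.card_eq_fintype_card, card_adjoinRoot f hf0, hF] at h1
    exact h1
  have hq1 : 1 ≤ q ^ f.natDegree := Nat.one_le_pow _ _ (by rw [← hF]; exact Fintype.card_pos)
  have hpow : (q : ZMod r) ^ f.natDegree = 1 := by
    have h1 : ((q ^ f.natDegree - 1 : ℕ) : ZMod r) = 0 := (ZMod.natCast_eq_zero_iff _ _).mpr hdvd
    rw [Nat.cast_sub hq1, Nat.cast_pow, Nat.cast_one] at h1
    exact sub_eq_zero.mp h1
  have hn_dvd : n ∣ f.natDegree := by
    rw [← hi]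
    exact orderOf_dvd_of_pow_eq_one hpow
  have hfpos : 0 < f.natDegree := hfirr.natDegree_pos
  have h_le1 : n ≤ f.natDegree := Nat.le_of_dvd hfpos hn_dvd
  have h_le2 : f.natDegree ≤ (minpoly F A).natDegree := Polynomial.natDegree_le_of_dvd hfm hm0
  have h_le3 : (minpoly F A).natDegree ≤ n := by
    have h1 := Matrix.minpoly_dvd_charpoly A
    have h2 := Polynomial.natDegree_le_of_dvd h1 (Matrix.charpoly_monic A).ne_zero
    rw [Matrix.charpoly_natDegree_eq_dim, Fintype.card_fin] at h2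
    exact h2
  refine ⟨?_, by omega⟩
  obtain ⟨c, hc⟩ := hfm
  have hc0 : c ≠ 0 := by
    rintro rfl
    rw [mul_zero] at hc
    exact hm0 hc
  have hcdeg : c.natDegree = 0 := by
    have h := Polynomial.natDegree_mul hf0 hc0
    rw [← hc] at h
    omega
  have hcu : IsUnit c := by
    rw [Polynomial.eq_C_of_natDegree_eq_zero hcdeg] at hc0 ⊢
    exact Polynomial.isUnit_C.mpr (IsUnit.mk0 _ (by simpa using hc0))
  rw [hc]
  exact (irreducible_mul_isUnit hcu).mpr hfirr

theorem singer_centralizer {p q : ℕ} [Fact p.Prime] [CharP F p] (hF : Fintype.card F = q)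
    {n r : ℕ} (hn : 1 ≤ n) (hr : r.Prime) (hrp : r ≠ p) (hi : orderOf (q : ZMod r) = n)
    (x : GL (Fin n) F) (hx : orderOf x = r) :
    IsCyclic ↥(Subgroup.centralizer ({x} : Set (GL (Fin n) F))) ∧
      Nat.card ↥(Subgroup.centralizer ({x} : Set (GL (Fin n) F))) = q ^ n - 1 := by
  classical
  have hi0 : Nonempty (Fin n) := ⟨⟨0, hn⟩⟩
  obtain ⟨A, hA⟩ : ∃ A : Matrix (Fin n) (Fin n) F, A = (x : Matrix (Fin n) (Fin n) F) :=
    ⟨_, rfl⟩
  have hAr : A ^ r = 1 := by
    rw [hA, ← Units.val_pow_eq_pow_val, ← hx, pow_orderOf_eq_one, Units.val_one]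
  have hA1 : A ≠ 1 := by
    intro h
    have h1 : x = 1 := Units.ext (hA ▸ h)
    rw [h1, orderOf_one] at hx
    exact hr.one_lt.ne hx
  obtain ⟨hirr, hdeg⟩ := minpoly_irreducible_of_order hF hn hr hrp hi A hAr hA1
  have : Fact (Irreducible (minpoly F A)) := ⟨hirr⟩
  have hm0 : minpoly F A ≠ 0 := hirr.ne_zero
  obtain ⟨ev, hev_mk⟩ : ∃ ev : AdjoinRoot (minpoly F A) →ₐ[F] Matrix (Fin n) (Fin n) F,
      ∀ g : F[X], ev (AdjoinRoot.mk _ g) = Polynomial.aeval A g := by
    refine ⟨Ideal.Quotient.liftₐ (Ideal.span {minpoly F A}) (Polynomial.aeval A) ?_, ?_⟩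
    · intro a ha
      rw [Ideal.mem_span_singleton] at ha
      exact (minpoly.dvd_iff (A := F) (x := A)).mp ha
    · intro g
      rfl
  have hev_root : ev (AdjoinRoot.root _) = A := by
    rw [← AdjoinRoot.mk_X, hev_mk, Polynomial.aeval_X]
  have hev_inj : Function.Injective ev :=
    (ev : AdjoinRoot (minpoly F A) →+* Matrix (Fin n) (Fin n) F).injective
  have : Module.Finite F (AdjoinRoot (minpoly F A)) := (AdjoinRoot.powerBasis hm0).finite
  have hfr : Module.finrank F (AdjoinRoot (minpoly F A)) = n := by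
    rw [(AdjoinRoot.powerBasis hm0).finrank, AdjoinRoot.powerBasis_dim, hdeg]
  let v₀ : Fin n → F := Pi.single ⟨0, hn⟩ 1
  have hv₀ : v₀ ≠ 0 := by
    intro h
    have := congrFun h ⟨0, hn⟩
    simp [v₀] at this
  let T : AdjoinRoot (minpoly F A) →ₗ[F] (Fin n → F) :=
    { toFun := fun a => Matrix.mulVec (ev a) v₀
      map_add' := by
        intro a b
        rw [map_add, Matrix.add_mulVec]
      map_smul' := by
        intro c a
        rw [map_smul, Matrix.smul_mulVec]
        rfl }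
  have hT : ∀ a, T a = Matrix.mulVec (ev a) v₀ := fun a => rfl
  have hTinj : Function.Injective T := by
    rw [← LinearMap.ker_eq_bot, LinearMap.ker_eq_bot']
    intro a ha
    by_contra ha0
    apply hv₀
    have h1 : Matrix.mulVec (ev a⁻¹ * ev a) v₀ = 0 := by
      rw [← Matrix.mulVec_mulVec, ← hT, ha, Matrix.mulVec_zero]
    rwa [← map_mul, inv_mul_cancel₀ ha0, map_one, Matrix.one_mulVec] at h1
  have hTsurj : Function.Surjective T :=
    (LinearMap.injective_iff_surjective_of_finrank_eq_finrank (by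
      rw [hfr, Module.finrank_fintype_fun_eq_card, Fintype.card_fin])).mp hTinj
  have hcomm_ev : ∀ (Y : Matrix (Fin n) (Fin n) F), Y * A = A * Y → ∀ b, Y * ev b = ev b * Y := by
    intro Y hY b
    obtain ⟨g, rfl⟩ := AdjoinRoot.mk_surjective b
    rw [hev_mk]
    have h2 : Polynomial.aeval A g ∈ Algebra.adjoin F {A} :=
      Polynomial.aeval_mem_adjoin_singleton F A
    have h3 : Algebra.adjoin F {A} ≤ Subalgebra.centralizer F {Y} := by
      apply Algebra.adjoin_le
      intro Z hZ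
      rw [Set.mem_singleton_iff] at hZ
      subst hZ
      rw [SetLike.mem_coe, Subalgebra.mem_centralizer_iff]
      intro W hW
      rw [Set.mem_singleton_iff] at hW
      subst hW
      exact hY
    have h4 := h3 h2
    rw [Subalgebra.mem_centralizer_iff] at h4
    exact h4 Y rfl
  have hrange : ∀ Y : Matrix (Fin n) (Fin n) F, Y * A = A * Y → ∃ a, ev a = Y := by
    intro Y hY
    obtain ⟨a, ha⟩ := hTsurj (Matrix.mulVec Y v₀)
    rw [hT] at ha
    refine ⟨a, ?_⟩
    apply Matrix.mulVec_injective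
    funext w
    obtain ⟨b, rfl⟩ := hTsurj w
    show Matrix.mulVec (ev a) (T b) = Matrix.mulVec Y (T b)
    rw [hT, Matrix.mulVec_mulVec, Matrix.mulVec_mulVec, hcomm_ev Y hY b, ← Matrix.mulVec_mulVec,
      ← Matrix.mulVec_mulVec, ← ha, Matrix.mulVec_mulVec, Matrix.mulVec_mulVec, ← map_mul,
      ← map_mul, mul_comm]
  let ψ : (AdjoinRoot (minpoly F A))ˣ →* GL (Fin n) F :=
    Units.map (ev : AdjoinRoot (minpoly F A) →* Matrix (Fin n) (Fin n) F)
  have hψ : ∀ u, ((ψ u : GL (Fin n) F) : Matrix (Fin n) (Fin n) F)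
      = ev (u : AdjoinRoot (minpoly F A)) := fun u => rfl
  have hψinj : Function.Injective ψ := by
    intro u v huv
    apply Units.ext
    apply hev_inj
    rw [← hψ, ← hψ, huv]
  have hψrange : ψ.range = Subgroup.centralizer ({x} : Set (GL (Fin n) F)) := by
    ext g
    rw [Subgroup.mem_centralizer_iff]
    constructor
    · rintro ⟨u, rfl⟩ h hh
      rw [Set.mem_singleton_iff] at hh
      subst hh
      apply Units.ext
      rw [Units.val_mul, Units.val_mul, hψ, ← hA]
      have h1 : ev (AdjoinRoot.root _) * ev (u : AdjoinRoot (minpoly F A))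
          = ev (u : AdjoinRoot (minpoly F A)) * ev (AdjoinRoot.root _) := by
        rw [← map_mul, ← map_mul, mul_comm]
      rw [hev_root] at h1
      exact h1
    · intro hg
      have hg' : (g : Matrix (Fin n) (Fin n) F) * A = A * (g : Matrix (Fin n) (Fin n) F) := by
        have h1 := hg x rfl
        rw [hA, ← Units.val_mul, ← Units.val_mul, h1]
      obtain ⟨a, ha⟩ := hrange _ hg'
      have ha0 : a ≠ 0 := by
        rintro rfl
        rw [map_zero] at ha
        have h1 := Matrix.GeneralLinearGroup.det_ne_zero g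
        rw [← ha] at h1
        exact h1 Matrix.det_zero
      exact ⟨Units.mk0 a ha0, Units.ext ha⟩
  have : Finite (AdjoinRoot (minpoly F A)) := Module.finite_of_finite F
  constructor
  · rw [← hψrange]
    exact isCyclic_of_surjective ψ.rangeRestrict ψ.rangeRestrict_surjective
  · have hc : Nat.card ↥ψ.range = Nat.card (AdjoinRoot (minpoly F A))ˣ :=
      Nat.card_congr (Equiv.ofInjective ψ hψinj).symm
    rw [← hψrange, hc, Nat.card_units, card_adjoinRoot _ hm0, hdeg, hF]

end Singer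

end Cfsg.Agent.Lib.Helper17
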