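import Cfsg.Agent.Lib.Helper17.PReduced
import Cfsg.Agent.Lib.Helper17.SylowNormal
import Cfsg.Agent.Lib.Helper17.Frattini
import Cfsg.Agent.Lib.Helper18.Basic
import Cfsg.Agent.Lib.Helper18.Subnormal
import Cfsg.Agent.Lib.Helper14.FamilyCtl
import Cfsg.Prelude.Def_TwoFusion
import Cfsg.Prelude.Def_LocalEven

set_option autoImplicit false

namespace Cfsg.Agent.Lib.Helper17

open Cfsg
open Cfsg.Agent.Lib

section localFactor

/-- Local analysis: in a finite group `L` with a normal `p`-subgroup `P`, a normal subgroup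
`E ≤ P` and a subgroup `B` of a Sylow subgroup `T` stabilizing the series `P ≥ E ≥ 1`, every
element is a product of an element normalizing a subgroup `S₁` with `P B ≤ S₁ ≤ T` and an element
centralizing `P`. -/
theorem local_factor {L : Type*} [Group L] [Finite L] {p : ℕ} [Fact p.Prime] (T : Sylow p L)
    (P E B : Subgroup L) [hPn : P.Normal] [hEn : E.Normal] (hP : IsPGroup p P) (hEP : E ≤ P)
    (hBT : B ≤ T)
    (hB1 : ∀ b ∈ B, ∀ a ∈ P, b * a * b⁻¹ * a⁻¹ ∈ E) (hB2 : ∀ b ∈ B, ∀ e ∈ E, b * e = e * b) :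
    ∃ S₁ : Subgroup L, P ≤ S₁ ∧ B ≤ S₁ ∧ S₁ ≤ T ∧
      ∀ g : L, ∃ a ∈ Subgroup.normalizer (S₁ : Set L),
        ∃ c ∈ Subgroup.centralizer (P : Set L), g = a * c := by
  let X : Subgroup L :=
    { carrier := {m | (∀ a ∈ P, m * a * m⁻¹ * a⁻¹ ∈ E) ∧ ∀ e ∈ E, m * e = e * m}
      one_mem' := ⟨fun a _ => by simp, fun e _ => by simp⟩
      mul_mem' := by
        rintro m₁ m₂ ⟨h1, h1'⟩ ⟨h2, h2'⟩
        refine ⟨fun a ha => ?_, fun e he => ?_⟩
        · have e1 : m₁ * m₂ * a * (m₁ * m₂)⁻¹ * a⁻¹ =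
              (m₁ * (m₂ * a * m₂⁻¹ * a⁻¹) * m₁⁻¹) * (m₁ * a * m₁⁻¹ * a⁻¹) := by group
          rw [e1]
          exact E.mul_mem (hEn.conj_mem _ (h2 a ha) m₁) (h1 a ha)
        · rw [mul_assoc, h2' e he, ← mul_assoc, h1' e he, mul_assoc]
      inv_mem' := by
        rintro m ⟨h1, h1'⟩
        refine ⟨fun a ha => ?_, fun e he => ?_⟩
        · have ha' : m⁻¹ * a * m ∈ P := by simpa using hPn.conj_mem a ha m⁻¹
          have h3 := h1 _ ha'
          have e1 : m⁻¹ * a * m⁻¹⁻¹ * a⁻¹ =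
              (m * (m⁻¹ * a * m) * m⁻¹ * (m⁻¹ * a * m)⁻¹)⁻¹ := by group
          rw [e1]; exact E.inv_mem h3
        · have h3 := h1' e he
          calc m⁻¹ * e = m⁻¹ * (e * m) * m⁻¹ := by group
            _ = m⁻¹ * (m * e) * m⁻¹ := by rw [h3]
            _ = e * m⁻¹ := by group }
  have hXn : X.Normal := by
    constructor
    rintro m ⟨h1, h1'⟩ g
    refine ⟨fun a ha => ?_, fun e he => ?_⟩
    · have ha' : g⁻¹ * a * g ∈ P := by simpa using hPn.conj_mem a ha g⁻¹
      have e1 : g * m * g⁻¹ * a * (g * m * g⁻¹)⁻¹ * a⁻¹ =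
          g * (m * (g⁻¹ * a * g) * m⁻¹ * (g⁻¹ * a * g)⁻¹) * g⁻¹ := by group
      rw [e1]; exact hEn.conj_mem _ (h1 _ ha') g
    · have he' : g⁻¹ * e * g ∈ E := by simpa using hEn.conj_mem e he g⁻¹
      have h3 := h1' _ he'
      calc g * m * g⁻¹ * e = g * (m * (g⁻¹ * e * g)) * g⁻¹ := by group
        _ = g * ((g⁻¹ * e * g) * m) * g⁻¹ := by rw [h3]
        _ = e * (g * m * g⁻¹) := by group
  have hCX : Subgroup.centralizer (P : Set L) ≤ X := by
    intro c hc
    rw [Subgroup.mem_centralizer_iff] at hc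
    refine ⟨fun a ha => ?_, fun e he => ?_⟩
    · have e1 : c * a * c⁻¹ * a⁻¹ = 1 := by rw [← hc a ha]; group
      rw [e1]; exact E.one_mem
    · exact (hc e (hEP he)).symm
  have hBX : B ≤ X := fun b hb => ⟨hB1 b hb, hB2 b hb⟩
  have hXp' : ∀ x ∈ X, (orderOf x).Coprime p → x ∈ Subgroup.centralizer (P : Set L) := by
    rintro x ⟨h1, h1'⟩ hx
    rw [Subgroup.mem_centralizer_iff]
    apply Helper18.commute_of_coprime_of_series (N := E) hP hx
    · rw [Subgroup.normalizer_eq_top_iff.mpr hPn]; trivial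
    · intro w hw
      have e1 : w * x * w⁻¹ * x⁻¹ = w * (x * w⁻¹ * x⁻¹ * w⁻¹⁻¹) * w⁻¹ := by group
      rw [e1]; exact hEn.conj_mem _ (h1 _ (P.inv_mem hw)) w
    · intro n hn; exact (h1' n hn).symm
  have hDp : ∀ d ∈ P ⊔ X, ∃ k : ℕ, d ^ (p ^ k) ∈ Subgroup.centralizer (P : Set L) := by
    intro d hd
    obtain ⟨n, hn⟩ := Helper18.exists_pow_coprime_order (p := p) (isOfFinOrder_of_finite d)
    refine ⟨n, hXp' _ ?_ hn⟩
    rw [← SetLike.mem_coe, Subgroup.mul_normal] at hd
    obtain ⟨u, hu, x, hx, rfl⟩ := Set.mem_mul.mp hd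
    obtain ⟨j, hj⟩ := Helper18.exists_pow_eq_one_of_mem hP hu
    have h1 : (u * x) ^ (p ^ j) ∈ X := by
      rw [← QuotientGroup.eq_one_iff, QuotientGroup.mk_pow, QuotientGroup.mk_mul,
        (QuotientGroup.eq_one_iff x).mpr hx, mul_one, ← QuotientGroup.mk_pow, hj]
      rfl
    apply Helper18.mem_of_pow_mem_of_coprime (n := j) _ hn
    rw [pow_right_comm]; exact X.pow_mem h1 _
  have hX'n : (P ⊔ X).Normal := inferInstance
  have hmul := exists_sylow_mul_of_pGroup_mod (Subgroup.centralizer (P : Set L)) T (P ⊔ X) hX'n hDp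
  refine ⟨(T : Subgroup L) ⊓ (P ⊔ X), le_inf (hP.le_sylow_of_normal T) le_sup_left,
    le_inf hBT (hBX.trans le_sup_right), inf_le_left, fun g => ?_⟩
  obtain ⟨a, ha, c', hc', rfl⟩ := frattini_sylow_inf_normal T (P ⊔ X) g
  obtain ⟨t, ht, n, hn, rfl⟩ := hmul c' hc'
  have htX : t ∈ P ⊔ X := by
    have e1 : t = (t * n) * n⁻¹ := by group
    rw [e1]
    exact Subgroup.mul_mem _ hc' (Subgroup.inv_mem _ ((hCX.trans le_sup_right) hn))
  exact ⟨a * t, Subgroup.mul_mem _ ha (Subgroup.le_normalizer (Subgroup.mem_inf.mpr ⟨ht, htX⟩)),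
    n, hn, by group⟩

end localFactor

section ambient

variable {G : Type*} [Group G]

/-- in a group with strongly closed `A ≤ S`: an element conjugating `A` into `S` both ways
normalizes `A` -/
theorem mem_normalizer_of_stronglyClosed {A S : Subgroup G} (hsc : IsStronglyClosed A S) {g : G}
    (h1 : ∀ x ∈ A, g * x * g⁻¹ ∈ S) (h2 : ∀ x ∈ A, g⁻¹ * x * g ∈ S) :
    g ∈ Subgroup.normalizer (A : Set G) := by
  rw [Subgroup.mem_normalizer_iff]
  intro x
  constructor
  · intro hx
    exact hsc.2 x hx g (h1 x hx)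
  · intro hx
    have h3 := hsc.2 _ hx g⁻¹ (by simpa using h2 _ hx)
    have e1 : g⁻¹ * (g * x * g⁻¹) * g⁻¹⁻¹ = x := by group
    rwa [e1] at h3

theorem local_factor_ambient [Finite G] {p : ℕ} [Fact p.Prime] (S : Sylow p G)
    (A : Subgroup G) (hAc : ∀ a ∈ A, ∀ b ∈ A, a * b = b * a)
    (hsc : IsStronglyClosed A (S : Subgroup G)) (U : Subgroup G) (hUS : U ≤ S)
    (hfn : ¬ p ∣ ((S : Subgroup G) ⊓ Subgroup.normalizer (U : Set G)).relIndex
      (Subgroup.normalizer (U : Set G))) :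
    ∃ S₁ : Subgroup G, U ≤ S₁ ∧ A ⊓ Subgroup.normalizer (U : Set G) ≤ S₁ ∧
      S₁ ≤ (S : Subgroup G) ∧
      ∀ g ∈ Subgroup.normalizer (U : Set G), ∃ a ∈ Subgroup.normalizer (S₁ : Set G),
        ∃ c ∈ Subgroup.centralizer (U : Set G), g = a * c := by
  have hTp : IsPGroup p ↥(((S : Subgroup G) ⊓ Subgroup.normalizer (U : Set G)).subgroupOf
      (Subgroup.normalizer (U : Set G))) := (S.isPGroup'.to_le inf_le_left).comap_subtype
  have hfn' : ¬ p ∣ (((S : Subgroup G) ⊓ Subgroup.normalizer (U : Set G)).subgroupOf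
      (Subgroup.normalizer (U : Set G))).index := hfn
  have hkey : ∀ m ∈ Subgroup.normalizer (U : Set G), ∀ x ∈ U ⊓ A, m * x * m⁻¹ ∈ U ⊓ A := by
    intro m hm x hx
    obtain ⟨hxU, hxA⟩ := Subgroup.mem_inf.mp hx
    have h1 : m * x * m⁻¹ ∈ U := (Subgroup.mem_normalizer_iff.mp hm x).mp hxU
    exact Subgroup.mem_inf.mpr ⟨h1, hsc.2 x hxA m (hUS h1)⟩
  have hEn : ((U ⊓ A).subgroupOf (Subgroup.normalizer (U : Set G))).Normal := by
    apply Subgroup.normal_subgroupOf_of_le_normalizer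
    apply le_normalizer_of_map_conj_le
    intro m hm
    rintro _ ⟨x, hx, rfl⟩
    exact hkey m hm x hx
  have hPn : (U.subgroupOf (Subgroup.normalizer (U : Set G))).Normal := inferInstance
  have hP : IsPGroup p ↥(U.subgroupOf (Subgroup.normalizer (U : Set G))) :=
    (S.isPGroup'.to_le hUS).comap_subtype
  have hEP : (U ⊓ A).subgroupOf (Subgroup.normalizer (U : Set G)) ≤
      U.subgroupOf (Subgroup.normalizer (U : Set G)) := by
    intro x hx
    rw [Subgroup.mem_subgroupOf] at hx ⊢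
    exact (Subgroup.mem_inf.mp hx).1
  have hBT : (A ⊓ Subgroup.normalizer (U : Set G)).subgroupOf (Subgroup.normalizer (U : Set G)) ≤
      ((hTp.toSylow hfn' : Sylow p ↥(Subgroup.normalizer (U : Set G))) :
        Subgroup ↥(Subgroup.normalizer (U : Set G))) := by
    intro x hx
    rw [IsPGroup.toSylow_coe, Subgroup.mem_subgroupOf]
    rw [Subgroup.mem_subgroupOf] at hx
    exact Subgroup.mem_inf.mpr ⟨hsc.1 (Subgroup.mem_inf.mp hx).1, (Subgroup.mem_inf.mp hx).2⟩
  have hB1 : ∀ b ∈ (A ⊓ Subgroup.normalizer (U : Set G)).subgroupOf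
      (Subgroup.normalizer (U : Set G)),
      ∀ a ∈ U.subgroupOf (Subgroup.normalizer (U : Set G)),
      b * a * b⁻¹ * a⁻¹ ∈ (U ⊓ A).subgroupOf (Subgroup.normalizer (U : Set G)) := by
    intro b hb a ha
    rw [Subgroup.mem_subgroupOf] at hb ha ⊢
    obtain ⟨hbA, hbN⟩ := Subgroup.mem_inf.mp hb
    have h1 : (b : G) * a * (b : G)⁻¹ ∈ U := (Subgroup.mem_normalizer_iff.mp hbN _).mp ha
    have h2 : (a : G) * (b : G)⁻¹ * (a : G)⁻¹ ∈ A :=
      hsc.2 _ (A.inv_mem hbA) a
        ((S : Subgroup G).mul_mem ((S : Subgroup G).mul_mem (hUS ha)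
          ((S : Subgroup G).inv_mem (hsc.1 hbA))) ((S : Subgroup G).inv_mem (hUS ha)))
    have e1 : ((b * a * b⁻¹ * a⁻¹ : ↥(Subgroup.normalizer (U : Set G))) : G) =
        (b : G) * ((a : G) * (b : G)⁻¹ * (a : G)⁻¹) := by
      simp only [Subgroup.coe_mul, Subgroup.coe_inv]; group
    have e2 : ((b * a * b⁻¹ * a⁻¹ : ↥(Subgroup.normalizer (U : Set G))) : G) =
        ((b : G) * a * (b : G)⁻¹) * (a : G)⁻¹ := by
      simp only [Subgroup.coe_mul, Subgroup.coe_inv]
    refine Subgroup.mem_inf.mpr ⟨?_, ?_⟩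
    · rw [e2]; exact U.mul_mem h1 (U.inv_mem ha)
    · rw [e1]; exact A.mul_mem hbA h2
  have hB2 : ∀ b ∈ (A ⊓ Subgroup.normalizer (U : Set G)).subgroupOf
      (Subgroup.normalizer (U : Set G)),
      ∀ e ∈ (U ⊓ A).subgroupOf (Subgroup.normalizer (U : Set G)), b * e = e * b := by
    intro b hb e he
    rw [Subgroup.mem_subgroupOf] at hb he
    apply Subtype.ext
    exact hAc _ (Subgroup.mem_inf.mp hb).1 _ (Subgroup.mem_inf.mp he).2
  obtain ⟨S₁', hPS₁, hBS₁, hS₁T, hfac⟩ := local_factor (hTp.toSylow hfn')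
    (U.subgroupOf (Subgroup.normalizer (U : Set G)))
    ((U ⊓ A).subgroupOf (Subgroup.normalizer (U : Set G)))
    ((A ⊓ Subgroup.normalizer (U : Set G)).subgroupOf (Subgroup.normalizer (U : Set G)))
    hP hEP hBT hB1 hB2
  refine ⟨S₁'.map (Subgroup.normalizer (U : Set G)).subtype, ?_, ?_, ?_, ?_⟩
  · intro u hu
    exact ⟨⟨u, Subgroup.le_normalizer hu⟩, hPS₁ (Subgroup.mem_subgroupOf.mpr hu), rfl⟩
  · intro x hx
    exact ⟨⟨x, (Subgroup.mem_inf.mp hx).2⟩, hBS₁ (Subgroup.mem_subgroupOf.mpr hx), rfl⟩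
  · rintro _ ⟨x, hx, rfl⟩
    have h1 := hS₁T hx
    rw [IsPGroup.toSylow_coe, Subgroup.mem_subgroupOf] at h1
    exact (Subgroup.mem_inf.mp h1).1
  · intro g hg
    obtain ⟨a, ha, c, hc, heq⟩ := hfac ⟨g, hg⟩
    refine ⟨(a : G), ?_, (c : G), ?_, congrArg Subtype.val heq⟩
    · exact Subgroup.le_normalizer_map (Subgroup.normalizer (U : Set G)).subtype
        (Subgroup.mem_map_of_mem _ ha)
    · rw [Subgroup.mem_centralizer_iff] at hc ⊢
      intro u hu
      have h1 := hc ⟨u, Subgroup.le_normalizer hu⟩ (Subgroup.mem_subgroupOf.mpr hu)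
      exact congrArg Subtype.val h1

/-- conjugation by `g` on `P` is induced by an element of `N(A)` -/
def Good (A P : Subgroup G) (g : G) : Prop :=
  ∃ n ∈ Subgroup.normalizer (A : Set G), ∀ a ∈ P, g * a * g⁻¹ = n * a * n⁻¹

theorem Good.mono {A P P' : Subgroup G} {g : G} (h : Good A P g) (hP : P' ≤ P) : Good A P' g := by
  obtain ⟨n, hn, h1⟩ := h
  exact ⟨n, hn, fun a ha => h1 a (hP ha)⟩

theorem Good.trans {A P P' : Subgroup G} {g h : G} (h1 : Good A P g)
    (hP' : P.map (MulAut.conj g).toMonoidHom = P') (h2 : Good A P' h) : Good A P (h * g) := by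
  obtain ⟨n₁, hn₁, e₁⟩ := h1
  obtain ⟨n₂, hn₂, e₂⟩ := h2
  refine ⟨n₂ * n₁, Subgroup.mul_mem _ hn₂ hn₁, fun a ha => ?_⟩
  have h3 : g * a * g⁻¹ ∈ P' := by rw [← hP']; exact Helper14.conj_mem_map_conj ha
  have h4 := e₂ _ h3
  calc h * g * a * (h * g)⁻¹ = h * (g * a * g⁻¹) * h⁻¹ := by group
    _ = n₂ * (g * a * g⁻¹) * n₂⁻¹ := h4
    _ = n₂ * (n₁ * a * n₁⁻¹) * n₂⁻¹ := by rw [e₁ a ha]
    _ = n₂ * n₁ * a * (n₂ * n₁)⁻¹ := by group

theorem Good.inv {A P P' : Subgroup G} {g : G} (h1 : Good A P g)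
    (hP' : P.map (MulAut.conj g).toMonoidHom = P') : Good A P' g⁻¹ := by
  obtain ⟨n, hn, e⟩ := h1
  refine ⟨n⁻¹, Subgroup.inv_mem _ hn, fun b hb => ?_⟩
  rw [← hP', Helper14.mem_map_conj_iff] at hb
  have h3 := e _ hb
  have e1 : g * (g⁻¹ * b * g) * g⁻¹ = b := by group
  rw [e1] at h3
  have h5 : n⁻¹ * b * n = g⁻¹ * b * g := by
    calc n⁻¹ * b * n = n⁻¹ * (n * (g⁻¹ * b * g) * n⁻¹) * n := by rw [← h3]
      _ = g⁻¹ * b * g := by group
  simp only [inv_inv]; exact h5.symm

theorem good_of_mem_normalizer {A : Subgroup G} (P : Subgroup G) {g : G}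
    (hg : g ∈ Subgroup.normalizer (A : Set G)) : Good A P g :=
  ⟨g, hg, fun _ _ => rfl⟩

theorem good_all [Finite G] {p : ℕ} [Fact p.Prime] (S : Sylow p G)
    (A : Subgroup G) (hAc : ∀ a ∈ A, ∀ b ∈ A, a * b = b * a)
    (hsc : IsStronglyClosed A (S : Subgroup G)) :
    ∀ (k : ℕ) (P : Subgroup G), P ≤ (S : Subgroup G) →
      Nat.card (S : Subgroup G) - Nat.card P = k → ∀ g : G,
      P.map (MulAut.conj g).toMonoidHom ≤ (S : Subgroup G) → Good A P g := by
  have hSNA : (S : Subgroup G) ≤ Subgroup.normalizer (A : Set G) := by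
    intro s hs
    apply mem_normalizer_of_stronglyClosed hsc
    · intro x hx
      exact (S : Subgroup G).mul_mem ((S : Subgroup G).mul_mem hs (hsc.1 hx))
        ((S : Subgroup G).inv_mem hs)
    · intro x hx
      exact (S : Subgroup G).mul_mem ((S : Subgroup G).mul_mem ((S : Subgroup G).inv_mem hs)
        (hsc.1 hx)) hs
  intro k
  induction k using Nat.strong_induction_on with
  | _ k ih =>
    intro P hPS hk g hPg
    have hbig : ∀ P' : Subgroup G, P' ≤ (S : Subgroup G) → Nat.card P < Nat.card P' → ∀ g' : G,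
        P'.map (MulAut.conj g').toMonoidHom ≤ (S : Subgroup G) → Good A P' g' := by
      intro P' hP'S hlt g' hg'
      have h1 := Subgroup.card_le_of_le hP'S
      have h2 := Subgroup.card_le_of_le hPS
      exact ih (Nat.card (S : Subgroup G) - Nat.card P') (by omega) P' hP'S rfl g' hg'
    by_cases hPeq : P = (S : Subgroup G)
    · apply good_of_mem_normalizer
      have hgS : (S : Subgroup G).map (MulAut.conj g).toMonoidHom = (S : Subgroup G) := by
        rw [hPeq] at hPg
        exact Subgroup.eq_of_le_of_card_ge hPg (by rw [Helper14.card_map_conj])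
      have hgN : g ∈ Subgroup.normalizer ((S : Subgroup G) : Set G) :=
        Helper14.mem_normalizer_of_map_conj_eq hgS
      apply mem_normalizer_of_stronglyClosed hsc
      · intro x hx
        exact (Subgroup.mem_normalizer_iff.mp hgN x).mp (hsc.1 hx)
      · intro x hx
        have h3 := (Subgroup.mem_normalizer_iff.mp ((Subgroup.normalizer _).inv_mem hgN) x).mp
          (hsc.1 hx)
        simpa using h3
    · obtain ⟨h₁, hU_S, hfn⟩ := Helper14.exists_fullyNormalized_conj S hPS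
      obtain ⟨h, hhU, hhN⟩ := Helper14.exists_conj_normalizer_le S hfn (A := P) (h := h₁) rfl
      have hcardU : Nat.card ↥(P.map (MulAut.conj h₁).toMonoidHom) = Nat.card P :=
        Helper14.card_map_conj P h₁
      have hlt : Nat.card P < Nat.card ↥((S : Subgroup G) ⊓ Subgroup.normalizer (P : Set G)) :=
        Helper14.card_lt_card_normalizer S.isPGroup' hPS hPeq
      have g1 : Good A P h :=
        (hbig _ inf_le_left hlt h (hhN.trans inf_le_left)).mono (le_inf hPS Subgroup.le_normalizer)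
      have hcardQ : Nat.card ↥(P.map (MulAut.conj g).toMonoidHom) = Nat.card P :=
        Helper14.card_map_conj P g
      have hQne : P.map (MulAut.conj g).toMonoidHom ≠ (S : Subgroup G) := by
        intro hQ
        apply hPeq
        apply Subgroup.eq_of_le_of_card_ge hPS
        rw [← hcardQ, hQ]
      have hQU : (P.map (MulAut.conj g).toMonoidHom).map (MulAut.conj (h * g⁻¹)).toMonoidHom =
          P.map (MulAut.conj h₁).toMonoidHom := by
        rw [Helper14.map_conj_map_conj, ← hhU]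
        have e1 : h * g⁻¹ * g = h := by group
        rw [e1]
      obtain ⟨k', hkU, hkN⟩ := Helper14.exists_conj_normalizer_le S hfn
        (A := P.map (MulAut.conj g).toMonoidHom) (h := h * g⁻¹) hQU
      have hltQ : Nat.card P < Nat.card ↥((S : Subgroup G) ⊓
          Subgroup.normalizer ((P.map (MulAut.conj g).toMonoidHom : Subgroup G) : Set G)) := by
        rw [← hcardQ]
        exact Helper14.card_lt_card_normalizer S.isPGroup' hPg hQne
      have g2 : Good A (P.map (MulAut.conj g).toMonoidHom) k' :=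
        (hbig _ inf_le_left hltQ k' (hkN.trans inf_le_left)).mono
          (le_inf hPg Subgroup.le_normalizer)
      have hxU : (P.map (MulAut.conj h₁).toMonoidHom).map
          (MulAut.conj (k' * g * h⁻¹)).toMonoidHom = P.map (MulAut.conj h₁).toMonoidHom := by
        nth_rewrite 1 [← hhU]
        rw [Helper14.map_conj_map_conj]
        have e1 : k' * g * h⁻¹ * h = k' * g := by group
        rw [e1, ← Helper14.map_conj_map_conj, hkU]
      have hx : k' * g * h⁻¹ ∈ Subgroup.normalizer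
          ((P.map (MulAut.conj h₁).toMonoidHom : Subgroup G) : Set G) :=
        Helper14.mem_normalizer_of_map_conj_eq hxU
      have g3 : Good A (P.map (MulAut.conj h₁).toMonoidHom) (k' * g * h⁻¹) := by
        by_cases hAU : A ≤ P.map (MulAut.conj h₁).toMonoidHom
        · apply good_of_mem_normalizer
          apply mem_normalizer_of_stronglyClosed hsc
          · intro a ha
            exact hU_S ((Subgroup.mem_normalizer_iff.mp hx a).mp (hAU ha))
          · intro a ha
            have h3 := (Subgroup.mem_normalizer_iff.mp ((Subgroup.normalizer _).inv_mem hx) a).mp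
              (hAU ha)
            exact hU_S (by simpa using h3)
        · obtain ⟨S₁, hUS₁, hAS₁, hS₁S, hfac⟩ := local_factor_ambient S A hAc hsc _ hU_S hfn
          obtain ⟨a, ha, c, hc, hxac⟩ := hfac _ hx
          have hS₁lt : Nat.card P < Nat.card S₁ := by
            rw [← hcardU]
            have hne : P.map (MulAut.conj h₁).toMonoidHom ≠
                P.map (MulAut.conj h₁).toMonoidHom ⊔ A :=
              fun h => hAU (le_sup_right.trans h.symm.le)
            obtain ⟨y, hy, hyU⟩ := Helper14.exists_mem_normalizer_not_mem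
              (S := P.map (MulAut.conj h₁).toMonoidHom ⊔ A)
              (P := P.map (MulAut.conj h₁).toMonoidHom)
              (S.isPGroup'.to_le (sup_le hU_S hsc.1)) le_sup_left hne
            obtain ⟨hyUA, hyN⟩ := Subgroup.mem_inf.mp hy
            obtain ⟨u, hu, a₀, ha₀, rfl⟩ :=
              Helper18.mem_sup_of_le_normalizer (hU_S.trans hSNA) hyUA
            have ha₀N : a₀ ∈ Subgroup.normalizer
                ((P.map (MulAut.conj h₁).toMonoidHom : Subgroup G) : Set G) := by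
              have e1 : a₀ = u⁻¹ * (u * a₀) := by group
              rw [e1]
              exact Subgroup.mul_mem _ (Subgroup.inv_mem _ (Subgroup.le_normalizer hu)) hyN
            have ha₀U : a₀ ∉ P.map (MulAut.conj h₁).toMonoidHom :=
              fun h => hyU (Subgroup.mul_mem _ hu h)
            have ha₀S₁ : a₀ ∈ S₁ := hAS₁ (Subgroup.mem_inf.mpr ⟨ha₀, ha₀N⟩)
            by_contra hcon
            push Not at hcon
            have hUeq := Subgroup.eq_of_le_of_card_ge hUS₁ hcon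
            exact ha₀U (hUeq ▸ ha₀S₁)
          have g4 : Good A S₁ a := hbig S₁ hS₁S hS₁lt a (by
            rw [Helper14.map_conj_eq_self_of_mem_normalizer ha]; exact hS₁S)
          obtain ⟨n, hn, hna⟩ := g4
          refine ⟨n, hn, fun u hu => ?_⟩
          rw [← hna u (hUS₁ hu), hxac]
          have hcu := Subgroup.mem_centralizer_iff.mp hc u hu
          calc a * c * u * (a * c)⁻¹ = a * (c * u) * c⁻¹ * a⁻¹ := by group
            _ = a * (u * c) * c⁻¹ * a⁻¹ := by rw [hcu]
            _ = a * u * a⁻¹ := by group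
      have g2' : Good A (P.map (MulAut.conj h₁).toMonoidHom) k'⁻¹ := g2.inv hkU
      have g13 : Good A P (k' * g * h⁻¹ * h) := g1.trans hhU g3
      have hP3 : P.map (MulAut.conj (k' * g * h⁻¹ * h)).toMonoidHom =
          P.map (MulAut.conj h₁).toMonoidHom := by
        rw [← Helper14.map_conj_map_conj, hhU, hxU]
      have g132 : Good A P (k'⁻¹ * (k' * g * h⁻¹ * h)) := g13.trans hP3 g2'
      have e : k'⁻¹ * (k' * g * h⁻¹ * h) = g := by group
      rwa [e] at g132

/-- an abelian strongly closed subgroup of a Sylow subgroup controls strong fusion -/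
theorem controlsStrongFusion_of_stronglyClosed_abelian [Finite G] {p : ℕ} [Fact p.Prime]
    (S : Sylow p G) (A : Subgroup G) (hA : IsMulCommutative ↥A)
    (hsc : IsStronglyClosed A (S : Subgroup G)) : ControlsStrongFusion p A := by
  have hAc : ∀ a ∈ A, ∀ b ∈ A, a * b = b * a :=
    fun a ha b hb => congrArg Subtype.val (hA.is_comm.comm ⟨a, ha⟩ ⟨b, hb⟩)
  refine ⟨S, hsc.1, fun X hX => ⟨hX, fun g hg => ?_⟩⟩
  have hP : Subgroup.closure X ≤ (S : Subgroup G) := (Subgroup.closure_le _).mpr hX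
  have hPg : (Subgroup.closure X).map (MulAut.conj g).toMonoidHom ≤ (S : Subgroup G) := by
    rw [MonoidHom.map_closure, Subgroup.closure_le]
    rintro _ ⟨a, ha, rfl⟩
    exact hg ⟨a, ha, rfl⟩
  obtain ⟨n, hn, h1⟩ := good_all S A hAc hsc _ _ hP rfl g hPg
  exact ⟨n, hn, fun a ha => h1 a (Subgroup.subset_closure ha)⟩

end ambient

end Cfsg.Agent.Lib.Helper17
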