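import Mathlib
import Cfsg.Agent.Lib.Helper17.RestrictScalars

set_option autoImplicit false

namespace Cfsg.Agent.Lib.Helper17

section Sp
variable {F K : Type*} [Field F] [Field K] [Algebra F K]

/-- coordinates for the field-extension embedding of symplectic groups -/
noncomputable def spPsi {l l₂ : Type*} (e : l × Fin 2 ≃ l₂) (c c' : K ≃ₗ[F] (Fin 2 → F)) :
    (l ⊕ l → K) ≃ₗ[F] (l₂ ⊕ l₂ → F) where
  toFun u := Sum.elim (fun k => c (u (Sum.inl (e.symm k).1)) (e.symm k).2)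
    (fun k => c' (u (Sum.inr (e.symm k).1)) (e.symm k).2)
  invFun x := Sum.elim (fun i => c.symm (fun s => x (Sum.inl (e (i, s)))))
    (fun i => c'.symm (fun s => x (Sum.inr (e (i, s)))))
  map_add' u v := by
    funext k
    rcases k with k | k <;> simp
  map_smul' r u := by
    funext k
    rcases k with k | k <;> simp
  left_inv u := by
    funext i
    rcases i with i | i
    · simp only [Sum.elim_inl, Equiv.symm_apply_apply]
      exact c.symm_apply_apply _
    · simp only [Sum.elim_inr, Equiv.symm_apply_apply]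
      exact c'.symm_apply_apply _
  right_inv x := by
    funext k
    rcases k with k | k
    · simp only [Sum.elim_inl, LinearEquiv.apply_symm_apply, Prod.mk.eta, Equiv.apply_symm_apply]
    · simp only [Sum.elim_inr, LinearEquiv.apply_symm_apply, Prod.mk.eta, Equiv.apply_symm_apply]

theorem spPsi_inl {l l₂ : Type*} (e : l × Fin 2 ≃ l₂) (c c' : K ≃ₗ[F] (Fin 2 → F))
    (u : l ⊕ l → K) (k : l₂) :
    spPsi e c c' u (Sum.inl k) = c (u (Sum.inl (e.symm k).1)) (e.symm k).2 := rfl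

theorem spPsi_inr {l l₂ : Type*} (e : l × Fin 2 ≃ l₂) (c c' : K ≃ₗ[F] (Fin 2 → F))
    (u : l ⊕ l → K) (k : l₂) :
    spPsi e c c' u (Sum.inr k) = c' (u (Sum.inr (e.symm k).1)) (e.symm k).2 := rfl

theorem stdSymp_spPsi {l l₂ : Type*} [Fintype l] [Fintype l₂] (e : l × Fin 2 ≃ l₂)
    (c c' : K ≃ₗ[F] (Fin 2 → F)) (τ : K →ₗ[F] F)
    (hcc' : ∀ x y, ∑ s, c x s * c' y s = τ (x * y)) (u v : l ⊕ l → K) :
    stdSymp (spPsi e c c' u) (spPsi e c c' v) = τ (stdSymp u v) := by
  unfold stdSymp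
  simp only [spPsi_inl, spPsi_inr]
  rw [Equiv.sum_comp e.symm (fun p : l × Fin 2 =>
    c' (u (Sum.inr p.1)) p.2 * c (v (Sum.inl p.1)) p.2 - c (u (Sum.inl p.1)) p.2 * c' (v (Sum.inr p.1)) p.2),
    Fintype.sum_prod_type, map_sum]
  apply Finset.sum_congr rfl
  intro i _
  rw [Finset.sum_sub_distrib, map_sub, mul_comm (u (Sum.inr i)) (v (Sum.inl i)), ← hcc', ← hcc']
  congr 1
  apply Finset.sum_congr rfl
  intro s _
  ring

end Sp

theorem symplectic_embed {K F : Type*} [Field K] [Fintype K] [Field F] [Fintype F] {q : ℕ}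
    (hK : Fintype.card K = q ^ 2) (hF : Fintype.card F = q) (a : ℕ) :
    ∃ φ : ↥(Matrix.symplecticGroup (Fin a) K) →* ↥(Matrix.symplecticGroup (Fin (2 * a)) F),
      Function.Injective φ := by
  classical
  obtain ⟨j⟩ := exists_ringHom_card_sq hF hK
  let _ : Algebra F K := j.toAlgebra
  have hfr : Module.finrank F K = 2 := finrank_eq_two_of_card hF hK
  have : Module.Finite F K := Module.Finite.of_finite
  let b : Module.Basis (Fin 2) F K := Module.finBasisOfFinrankEq F K hfr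
  let c : K ≃ₗ[F] (Fin 2 → F) := b.equivFun
  let τ : K →ₗ[F] F := (LinearMap.proj 0).comp c.toLinearMap
  have hτ : ∀ x, τ x = c x 0 := fun x => rfl
  let c'lin : K →ₗ[F] (Fin 2 → F) := LinearMap.pi (fun s => τ.comp (LinearMap.mulLeft F (b s)))
  have hc'lin : ∀ y s, c'lin y s = τ (b s * y) := fun y s => rfl
  have hsum : ∀ x y, ∑ s, c x s * c'lin y s = τ (x * y) := by
    intro x y
    have hx : ∑ s, c x s • b s = x := b.sum_equivFun x
    conv_rhs => rw [← hx]
    rw [Finset.sum_mul, map_sum]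
    apply Finset.sum_congr rfl
    intro s _
    rw [hc'lin, smul_mul_assoc, map_smul, smul_eq_mul]
  have hc'inj : Function.Injective c'lin := by
    rw [← LinearMap.ker_eq_bot, LinearMap.ker_eq_bot']
    intro y hy
    by_contra hy0
    have h1 : ∀ x, τ (x * y) = 0 := by
      intro x
      rw [← hsum, hy]
      simp
    have h2 := h1 (b 0 * y⁻¹)
    rw [mul_assoc, inv_mul_cancel₀ hy0, mul_one, hτ] at h2
    have h3 : c (b 0) 0 = 1 := by
      show b.equivFun (b 0) 0 = 1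
      rw [b.equivFun_self]; simp
    rw [h3] at h2
    exact one_ne_zero h2
  let c' : K ≃ₗ[F] (Fin 2 → F) := LinearMap.linearEquivOfInjective c'lin hc'inj (by
    rw [hfr, Module.finrank_fintype_fun_eq_card, Fintype.card_fin])
  have hcc' : ∀ x y, ∑ s, c x s * c' y s = τ (x * y) := by
    intro x y
    rw [← hsum]
    rfl
  let e : Fin a × Fin 2 ≃ Fin (2 * a) := (Equiv.prodComm _ _).trans finProdFinEquiv
  let Ψ : (Fin a ⊕ Fin a → K) ≃ₗ[F] (Fin (2 * a) ⊕ Fin (2 * a) → F) := spPsi e c c'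
  have hΨ : ∀ u v, stdSymp (Ψ u) (Ψ v) = τ (stdSymp u v) := stdSymp_spPsi e c c' τ hcc'
  have hmem : ∀ A : ↥(Matrix.symplecticGroup (Fin a) K),
      rsHom Ψ (A : Matrix (Fin a ⊕ Fin a) (Fin a ⊕ Fin a) K)
        ∈ Matrix.symplecticGroup (Fin (2 * a)) F := by
    intro A
    apply mem_symplectic_of_preserves
    intro x y
    obtain ⟨u, rfl⟩ := Ψ.surjective x
    obtain ⟨v, rfl⟩ := Ψ.surjective y
    show stdSymp ((rsMat Ψ A).mulVec (Ψ u)) ((rsMat Ψ A).mulVec (Ψ v)) = _
    rw [rsMat_mulVec, rsMat_mulVec, hΨ, hΨ, preserves_of_mem_symplectic _ A.2]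
  refine ⟨((rsHom Ψ).comp (Matrix.symplecticGroup (Fin a) K).subtype).codRestrict _ hmem, ?_⟩
  intro A B hAB
  have h : rsMat Ψ (A : Matrix (Fin a ⊕ Fin a) (Fin a ⊕ Fin a) K)
      = rsMat Ψ (B : Matrix (Fin a ⊕ Fin a) (Fin a ⊕ Fin a) K) := congrArg Subtype.val hAB
  exact Subtype.ext (rsMat_injective Ψ h)

end Cfsg.Agent.Lib.Helper17
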