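import Mathlib
import Cfsg.Agent.Lib.Helper16.SpinCrit
import Cfsg.Agent.Lib.Helper17.PlusClass

/-!
Witt's theorem for totally singular subspaces, by reflections: two totally singular subspaces of
the same dimension are conjugate under a product of reflections in vectors of norm one.
With the parity and spinor norm corrections this gives transitivity of `Ω`.
-/

set_option autoImplicit false
set_option linter.unusedSectionVars false

namespace Cfsg.Agent.Lib.Helper17

open Cfsg.Agent.Lib.Helper16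

section TSWitt

variable {F : Type*} [Field F] {ι : Type} [Fintype ι] [DecidableEq ι]
variable (Q : QuadraticForm F (ι → F))

/-- One reflection carries a singular vector `a` to a singular vector `b` with `f(b, a) = -1`. -/
theorem ts_move (a b : ι → F) (ha : Q a = 0) (hb : Q b = 0)
    (hab : QuadraticMap.polar ⇑Q b a = -1) :
    Q (b - a) = 1 ∧ cdAct Q (reflT Q (b - a)) a = b ∧
      ∀ x, QuadraticMap.polar ⇑Q a x = 0 → QuadraticMap.polar ⇑Q b x = 0 →
        cdAct Q (reflT Q (b - a)) x = x := by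
  have hQv : Q (b - a) = 1 := by
    rw [cd_Q_sub, ha, hb, hab]
    ring
  have hv : Q (b - a) ≠ 0 := by
    rw [hQv]
    exact one_ne_zero
  have hact : ∀ x, cdAct Q (reflT Q (b - a)) x
      = x - QuadraticMap.polar ⇑Q (b - a) x • (b - a) := by
    intro x
    rw [reflT_of Q _ hv, cdAct_refl Q _ (b - a) rfl, hQv, inv_one, one_mul]
  refine ⟨hQv, ?_, ?_⟩
  · rw [hact, QuadraticMap.polar_sub_left, hab, cd_polar_self, ha, mul_zero, sub_zero, neg_smul,
      one_smul]
    abel
  · intro x hax hbx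
    rw [hact, QuadraticMap.polar_sub_left, hax, hbx, sub_zero, zero_smul, sub_zero]

theorem map_actLin_eq_of_stab (g : ↥(Cfsg.isometryGroup F ⇑Q)) (W : Submodule F (ι → F))
    (h : ∀ x ∈ W, cdAct Q g x ∈ W) : W.map (actLin Q g) = W := by
  apply Submodule.eq_of_le_of_finrank_eq
  · intro y hy
    obtain ⟨x, hx, rfl⟩ := Submodule.mem_map.mp hy
    exact h x hx
  · exact finrank_map_actLin Q g W

theorem ts_map (g : ↥(Cfsg.isometryGroup F ⇑Q)) (U : Submodule F (ι → F))
    (hU : ∀ u ∈ U, Q u = 0) : ∀ u ∈ U.map (actLin Q g), Q u = 0 := by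
  intro u hu
  obtain ⟨x, hx, rfl⟩ := Submodule.mem_map.mp hu
  rw [actLin_apply, cdAct_iso]
  exact hU x hx

/-- The intersection grows when an isometry fixes it pointwise and carries a further vector
into the target. -/
theorem ts_gain (U W : Submodule F (ι → F)) (g : ↥(Cfsg.isometryGroup F ⇑Q))
    (hfix : ∀ i ∈ W ⊓ U, cdAct Q g i = i) (u w' : ι → F) (hu : u ∈ U)
    (hgu : cdAct Q g u = w') (hw' : w' ∈ W) (hw'U : w' ∉ U) :
    Module.finrank F ↥(W ⊓ U) + 1 ≤ Module.finrank F ↥(W ⊓ U.map (actLin Q g)) := by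
  have hle : (W ⊓ U) ⊔ Submodule.span F {w'} ≤ W ⊓ U.map (actLin Q g) := by
    apply sup_le
    · intro i hi
      exact ⟨hi.1, Submodule.mem_map.mpr ⟨i, hi.2, hfix i hi⟩⟩
    · rw [Submodule.span_singleton_le_iff_mem]
      exact ⟨hw', Submodule.mem_map.mpr ⟨u, hu, hgu⟩⟩
  have hw'0 : w' ≠ 0 := by
    rintro rfl
    exact hw'U U.zero_mem
  have hdisj : (W ⊓ U) ⊓ Submodule.span F {w'} = ⊥ := by
    rw [eq_bot_iff]
    rintro x ⟨hx1, hx2⟩
    obtain ⟨a, rfl⟩ := Submodule.mem_span_singleton.mp hx2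
    by_cases ha : a = 0
    · rw [ha, zero_smul]
      exact Submodule.zero_mem _
    · exfalso
      apply hw'U
      have e : w' = a⁻¹ • (a • w') := by rw [smul_smul, inv_mul_cancel₀ ha, one_smul]
      rw [e]
      exact U.smul_mem _ hx1.2
  have h1 := Submodule.finrank_sup_add_finrank_inf_eq (W ⊓ U) (Submodule.span F {w'})
  rw [hdisj, finrank_bot, add_zero, finrank_span_singleton hw'0] at h1
  rw [← h1]
  exact Submodule.finrank_mono hle

theorem ts_step (hQ : (QuadraticMap.polarBilin Q).Nondegenerate) (U W : Submodule F (ι → F))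
    (hU : ∀ u ∈ U, Q u = 0) (hW : ∀ w ∈ W, Q w = 0)
    (hfr : Module.finrank F ↥U = Module.finrank F ↥W) (hne : ¬ U ≤ W) :
    ∃ vs : List (ι → F), (∀ v ∈ vs, Q v = 1) ∧
      Module.finrank F ↥(W ⊓ U) + 1
        ≤ Module.finrank F ↥(W ⊓ U.map (actLin Q ((vs.map (reflT Q)).prod))) := by
  have hpc : ∀ a b : ι → F, QuadraticMap.polar ⇑Q a b = QuadraticMap.polar ⇑Q b a :=
    fun a b => QuadraticMap.polar_comm _ a b
  by_cases h1 : ∃ u ∈ U, ∃ w ∈ W, QuadraticMap.polar ⇑Q w u ≠ 0
  · obtain ⟨u, hu, w, hw, hwu⟩ := h1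
    have hw'W : (-(QuadraticMap.polar ⇑Q w u)⁻¹) • w ∈ W := W.smul_mem _ hw
    have hw'u : QuadraticMap.polar ⇑Q ((-(QuadraticMap.polar ⇑Q w u)⁻¹) • w) u = -1 := by
      rw [QuadraticMap.polar_smul_left, smul_eq_mul, neg_mul, inv_mul_cancel₀ hwu]
    obtain ⟨hQv, hmove, hfix⟩ := ts_move Q u _ (hU u hu) (hW _ hw'W) hw'u
    refine ⟨[(-(QuadraticMap.polar ⇑Q w u)⁻¹) • w - u], ?_, ?_⟩
    · intro v hv
      rw [List.mem_singleton] at hv
      rw [hv]
      exact hQv
    · rw [List.map_singleton, List.prod_singleton]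
      refine ts_gain Q U W _ ?_ u _ hu hmove hw'W ?_
      · intro i hi
        exact hfix i (ts_polar Q U hU u i hu hi.2) (ts_polar Q W hW _ i hw'W hi.1)
      · intro hmem
        have h0 := ts_polar Q U hU _ u hmem hu
        rw [hw'u] at h0
        exact one_ne_zero (neg_eq_zero.mp h0)
  · push Not at h1
    obtain ⟨u, hu, huW⟩ : ∃ u ∈ U, u ∉ W := by
      by_contra hcon
      push Not at hcon
      exact hne hcon
    obtain ⟨w, hw, hwU⟩ : ∃ w ∈ W, w ∉ U := by
      by_contra hcon
      push Not at hcon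
      have hWU : W ≤ U := hcon
      have heq : W = U := Submodule.eq_of_le_of_finrank_eq hWU hfr.symm
      exact hne heq.ge
    have hrefl : (QuadraticMap.polarBilin Q).IsRefl := by
      intro a b hab
      change QuadraticMap.polar ⇑Q b a = 0
      rw [hpc]
      exact hab
    have hoo := LinearMap.BilinForm.orthogonal_orthogonal hQ hrefl (W ⊓ U)
    -- a vector orthogonal to the intersection and to neither `u` nor `w`
    have hex : ∀ z, z ∉ W ⊓ U → ∃ y, (∀ i ∈ W ⊓ U, QuadraticMap.polar ⇑Q y i = 0) ∧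
        QuadraticMap.polar ⇑Q y z ≠ 0 := by
      intro z hz
      by_contra hcon
      push Not at hcon
      apply hz
      rw [← hoo, LinearMap.BilinForm.mem_orthogonal_iff]
      intro y hy
      rw [LinearMap.BilinForm.mem_orthogonal_iff] at hy
      apply hcon y
      intro i hi
      have h3 := hy i hi
      change QuadraticMap.polar ⇑Q i y = 0 at h3
      rw [hpc]
      exact h3
    obtain ⟨y₁, hy₁I, hy₁u⟩ := hex u (fun h => huW h.1)
    obtain ⟨y₂, hy₂I, hy₂w⟩ := hex w (fun h => hwU h.2)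
    obtain ⟨y, hyI, hyu, hyw⟩ : ∃ y, (∀ i ∈ W ⊓ U, QuadraticMap.polar ⇑Q y i = 0) ∧
        QuadraticMap.polar ⇑Q y u ≠ 0 ∧ QuadraticMap.polar ⇑Q y w ≠ 0 := by
      by_cases h2 : QuadraticMap.polar ⇑Q y₁ w = 0
      · by_cases h3 : QuadraticMap.polar ⇑Q y₂ u = 0
        · refine ⟨y₁ + y₂, ?_, ?_, ?_⟩
          · intro i hi
            rw [QuadraticMap.polar_add_left, hy₁I i hi, hy₂I i hi, add_zero]
          · rw [QuadraticMap.polar_add_left, h3, add_zero]
            exact hy₁u
          · rw [QuadraticMap.polar_add_left, h2, zero_add]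
            exact hy₂w
        · exact ⟨y₂, hy₂I, h3, hy₂w⟩
      · exact ⟨y₁, hy₁I, hy₁u, h2⟩
    have huw : QuadraticMap.polar ⇑Q u w = 0 := by
      rw [hpc]
      exact h1 u hu w hw
    have huu : QuadraticMap.polar ⇑Q u u = 0 := ts_polar Q U hU u u hu hu
    -- the singular vector `t`
    obtain ⟨t, hQt, htu, htw, htI⟩ : ∃ t, Q t = 0 ∧ QuadraticMap.polar ⇑Q t u = -1 ∧
        QuadraticMap.polar ⇑Q t w ≠ 0 ∧ ∀ i ∈ W ⊓ U, QuadraticMap.polar ⇑Q t i = 0 := by
      have hQt₀ : Q (y - (Q y / QuadraticMap.polar ⇑Q y u) • u) = 0 := by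
        rw [quad_sub_smul, hU u hu, hpc u y]
        field_simp
        ring
      have ht₀u : QuadraticMap.polar ⇑Q (y - (Q y / QuadraticMap.polar ⇑Q y u) • u) u
          = QuadraticMap.polar ⇑Q y u := by
        rw [QuadraticMap.polar_sub_left, QuadraticMap.polar_smul_left, huu, smul_zero, sub_zero]
      have ht₀w : QuadraticMap.polar ⇑Q (y - (Q y / QuadraticMap.polar ⇑Q y u) • u) w
          = QuadraticMap.polar ⇑Q y w := by
        rw [QuadraticMap.polar_sub_left, QuadraticMap.polar_smul_left, huw, smul_zero, sub_zero]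
      have ht₀I : ∀ i ∈ W ⊓ U,
          QuadraticMap.polar ⇑Q (y - (Q y / QuadraticMap.polar ⇑Q y u) • u) i = 0 := by
        intro i hi
        rw [QuadraticMap.polar_sub_left, QuadraticMap.polar_smul_left, hyI i hi,
          ts_polar Q U hU u i hu hi.2, smul_zero, sub_zero]
      refine ⟨(-(QuadraticMap.polar ⇑Q y u)⁻¹) • (y - (Q y / QuadraticMap.polar ⇑Q y u) • u),
        ?_, ?_, ?_, ?_⟩
      · rw [QuadraticMap.map_smul, hQt₀, smul_zero]
      · rw [QuadraticMap.polar_smul_left, ht₀u, smul_eq_mul, neg_mul, inv_mul_cancel₀ hyu]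
      · rw [QuadraticMap.polar_smul_left, ht₀w, smul_eq_mul]
        exact mul_ne_zero (neg_ne_zero.mpr (inv_ne_zero hyu)) hyw
      · intro i hi
        rw [QuadraticMap.polar_smul_left, ht₀I i hi, smul_zero]
    obtain ⟨hQv₁, hmove₁, hfix₁⟩ := ts_move Q u t (hU u hu) hQt htu
    have hwt : QuadraticMap.polar ⇑Q w t ≠ 0 := by
      rw [hpc]
      exact htw
    have hw'W : (-(QuadraticMap.polar ⇑Q w t)⁻¹) • w ∈ W := W.smul_mem _ hw
    have hw't : QuadraticMap.polar ⇑Q ((-(QuadraticMap.polar ⇑Q w t)⁻¹) • w) t = -1 := by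
      rw [QuadraticMap.polar_smul_left, smul_eq_mul, neg_mul, inv_mul_cancel₀ hwt]
    obtain ⟨hQv₂, hmove₂, hfix₂⟩ := ts_move Q t _ hQt (hW _ hw'W) hw't
    refine ⟨[(-(QuadraticMap.polar ⇑Q w t)⁻¹) • w - t, t - u], ?_, ?_⟩
    · intro v hv
      rcases List.mem_cons.mp hv with h | h
      · rw [h]
        exact hQv₂
      · rw [List.mem_singleton] at h
        rw [h]
        exact hQv₁
    · rw [List.map_cons, List.map_singleton, List.prod_cons, List.prod_singleton]
      refine ts_gain Q U W _ ?_ u _ hu ?_ hw'W ?_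
      · intro i hi
        rw [cdAct_mul, hfix₁ i (ts_polar Q U hU u i hu hi.2) (htI i hi),
          hfix₂ i (htI i hi) (ts_polar Q W hW _ i hw'W hi.1)]
      · rw [cdAct_mul, hmove₁, hmove₂]
      · intro hmem
        apply hwU
        have e : w = (-(QuadraticMap.polar ⇑Q w t)) • ((-(QuadraticMap.polar ⇑Q w t)⁻¹) • w) := by
          rw [smul_smul, neg_mul_neg, mul_inv_cancel₀ hwt, one_smul]
        rw [e]
        exact U.smul_mem _ hmem

/-- Witt's theorem for totally singular subspaces, by reflections in vectors of norm one. -/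
theorem ts_witt (hQ : (QuadraticMap.polarBilin Q).Nondegenerate) :
    ∀ (d : ℕ) (U W : Submodule F (ι → F)), (∀ u ∈ U, Q u = 0) → (∀ w ∈ W, Q w = 0) →
      Module.finrank F ↥U = Module.finrank F ↥W →
      Module.finrank F ↥W ≤ Module.finrank F ↥(W ⊓ U) + d →
      ∃ vs : List (ι → F), (∀ v ∈ vs, Q v = 1) ∧
        U.map (actLin Q ((vs.map (reflT Q)).prod)) = W := by
  intro d
  induction d with
  | zero =>
    intro U W hU hW hfr hd
    have h1 : W ⊓ U = W := Submodule.eq_of_le_of_finrank_le inf_le_left (by omega)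
    have h2 : W ≤ U := by
      rw [← h1]
      exact inf_le_right
    have h3 : W = U := Submodule.eq_of_le_of_finrank_eq h2 hfr.symm
    refine ⟨[], by simp, ?_⟩
    rw [List.map_nil, List.prod_nil, actLin_one, Submodule.map_id, h3]
  | succ d ih =>
    intro U W hU hW hfr hd
    by_cases hle : U ≤ W
    · have h3 : U = W := Submodule.eq_of_le_of_finrank_eq hle hfr
      refine ⟨[], by simp, ?_⟩
      rw [List.map_nil, List.prod_nil, actLin_one, Submodule.map_id, h3]
    · obtain ⟨vs₁, hvs₁, hgain⟩ := ts_step Q hQ U W hU hW hfr hle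
      obtain ⟨vs₂, hvs₂, hmap⟩ := ih (U.map (actLin Q ((vs₁.map (reflT Q)).prod))) W
        (ts_map Q _ U hU) hW (by rw [finrank_map_actLin, hfr]) (by omega)
      refine ⟨vs₂ ++ vs₁, ?_, ?_⟩
      · intro v hv
        rcases List.mem_append.mp hv with h | h
        · exact hvs₂ v h
        · exact hvs₁ v h
      · rw [List.map_append, List.prod_append, actLin_mul, Submodule.map_comp, hmap]

/-- A totally singular subspace of less than half the dimension has a nonsingular vector in its
orthogonal. -/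
theorem exists_nonsing_perp (hQ : (QuadraticMap.polarBilin Q).Nondegenerate)
    (W : Submodule F (ι → F)) (_hW : ∀ w ∈ W, Q w = 0)
    (hk : 2 * Module.finrank F ↥W < Fintype.card ι) :
    ∃ v, (∀ w ∈ W, QuadraticMap.polar ⇑Q v w = 0) ∧ Q v ≠ 0 := by
  have hpc : ∀ a b : ι → F, QuadraticMap.polar ⇑Q a b = QuadraticMap.polar ⇑Q b a :=
    fun a b => QuadraticMap.polar_comm _ a b
  have hrefl : (QuadraticMap.polarBilin Q).IsRefl := by
    intro a b hab
    change QuadraticMap.polar ⇑Q b a = 0
    rw [hpc]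
    exact hab
  by_contra hcon
  push Not at hcon
  have hts : ∀ v ∈ LinearMap.BilinForm.orthogonal (QuadraticMap.polarBilin Q) W, Q v = 0 := by
    intro v hv
    rw [LinearMap.BilinForm.mem_orthogonal_iff] at hv
    apply hcon v
    intro w hw
    have h3 := hv w hw
    change QuadraticMap.polar ⇑Q w v = 0 at h3
    rw [hpc]
    exact h3
  have hle : LinearMap.BilinForm.orthogonal (QuadraticMap.polarBilin Q) W ≤ W := by
    have hoo := LinearMap.BilinForm.orthogonal_orthogonal hQ hrefl W
    intro v hv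
    rw [← hoo, LinearMap.BilinForm.mem_orthogonal_iff]
    intro n hn
    exact ts_polar Q _ hts n v hn hv
  have hfr := LinearMap.BilinForm.finrank_orthogonal hQ W
  rw [Module.finrank_fintype_fun_eq_card] at hfr
  have h4 := Submodule.finrank_mono hle
  omega

theorem exists_hyp_partner (hQ : (QuadraticMap.polarBilin Q).Nondegenerate) (w : ι → F)
    (hw0 : w ≠ 0) (hw : Q w = 0) :
    ∃ w', Q w' = 0 ∧ QuadraticMap.polar ⇑Q w w' = 1 := by
  obtain ⟨y, hy⟩ : ∃ y, QuadraticMap.polar ⇑Q w y ≠ 0 := by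
    by_contra hc
    push Not at hc
    exact hw0 (hQ.1 w hc)
  have hy₁ : QuadraticMap.polar ⇑Q w ((QuadraticMap.polar ⇑Q w y)⁻¹ • y) = 1 := by
    rw [QuadraticMap.polar_smul_right, smul_eq_mul, inv_mul_cancel₀ hy]
  generalize (QuadraticMap.polar ⇑Q w y)⁻¹ • y = y₁ at hy₁
  refine ⟨y₁ - Q y₁ • w, ?_, ?_⟩
  · rw [quad_sub_smul, hw, hy₁]
    ring
  · rw [QuadraticMap.polar_sub_right, QuadraticMap.polar_smul_right, cd_polar_self, hw, hy₁]
    simp

/-- A hyperbolic rotation as a product of two reflections. -/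
theorem hyp_rot (w w' : ι → F) (hw : Q w = 0) (hw' : Q w' = 0)
    (hww' : QuadraticMap.polar ⇑Q w w' = 1) (c : F) (hc : c ≠ 0) :
    Q (w + w') = 1 ∧ Q (w + c • w') = c ∧ ∀ x, QuadraticMap.polar ⇑Q w x = 0 →
      cdAct Q (reflT Q (w + w') * reflT Q (w + c • w')) x
        = x + ((c - 1) * QuadraticMap.polar ⇑Q w' x) • w := by
  have hpc : ∀ a b : ι → F, QuadraticMap.polar ⇑Q a b = QuadraticMap.polar ⇑Q b a :=
    fun a b => QuadraticMap.polar_comm _ a b
  have hQa : Q (w + w') = 1 := by
    rw [QuadraticMap.map_add (⇑Q), hw, hw', hww']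
    ring
  have hQb : Q (w + c • w') = c := by
    rw [QuadraticMap.map_add (⇑Q), QuadraticMap.map_smul, hw, hw', QuadraticMap.polar_smul_right,
      hww']
    simp
  refine ⟨hQa, hQb, ?_⟩
  intro x hx
  have ha0 : Q (w + w') ≠ 0 := by
    rw [hQa]
    exact one_ne_zero
  have hb0 : Q (w + c • w') ≠ 0 := by
    rw [hQb]
    exact hc
  have hww : QuadraticMap.polar ⇑Q w w = 0 := by rw [cd_polar_self, hw, mul_zero]
  have hw'w' : QuadraticMap.polar ⇑Q w' w' = 0 := by rw [cd_polar_self, hw', mul_zero]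
  have hw'w : QuadraticMap.polar ⇑Q w' w = 1 := by
    rw [hpc]
    exact hww'
  have e1 : QuadraticMap.polar ⇑Q (w + c • w') x = c * QuadraticMap.polar ⇑Q w' x := by
    rw [QuadraticMap.polar_add_left, QuadraticMap.polar_smul_left, hx, zero_add, smul_eq_mul]
  have e2 : QuadraticMap.polar ⇑Q (w + w') (x - QuadraticMap.polar ⇑Q w' x • (w + c • w'))
      = -(QuadraticMap.polar ⇑Q w' x * c) := by
    simp only [QuadraticMap.polar_sub_right, QuadraticMap.polar_smul_right,
      QuadraticMap.polar_add_left, QuadraticMap.polar_add_right, hx, hww, hw'w', hww', hw'w,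
      smul_eq_mul]
    ring
  have r1 : ∀ y, cdAct Q (reflT Q (w + c • w')) y
      = y - ((Q (w + c • w'))⁻¹ * QuadraticMap.polar ⇑Q (w + c • w') y) • (w + c • w') := by
    intro y
    rw [reflT_of Q _ hb0]
    exact cdAct_refl Q _ (w + c • w') rfl y
  have r2 : ∀ y, cdAct Q (reflT Q (w + w')) y
      = y - ((Q (w + w'))⁻¹ * QuadraticMap.polar ⇑Q (w + w') y) • (w + w') := by
    intro y
    rw [reflT_of Q _ ha0]
    exact cdAct_refl Q _ (w + w') rfl y
  rw [cdAct_mul, r1, hQb, e1, ← mul_assoc, inv_mul_cancel₀ hc, one_mul, r2, hQa, inv_one, one_mul,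
    e2]
  module

/-- `Ω` is transitive on totally singular subspaces of a given dimension less than half the
dimension of the space. -/
theorem ts_trans_omega [Fintype F] (hQ : (QuadraticMap.polarBilin Q).Nondegenerate)
    (h : Fintype.card F ≠ 2 ∨ Fintype.card ι ≠ 4) (U W : Submodule F (ι → F))
    (hfr : Module.finrank F ↥U = Module.finrank F ↥W)
    (hk : 2 * Module.finrank F ↥W < Fintype.card ι)
    (hU : ∀ u ∈ U, Q u = 0) (hW : ∀ w ∈ W, Q w = 0) :
    ∃ g : ↥(Cfsg.isometryGroup F ⇑Q), g ∈ Cfsg.Omega F ⇑Q ∧ U.map (actLin Q g) = W := by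
  obtain ⟨vs, hvs, hmap⟩ := ts_witt Q hQ (Module.finrank F ↥W) U W hU hW hfr (by omega)
  have hvs' : ∀ v ∈ vs, Q v ≠ 0 := fun v hv => by
    rw [hvs v hv]
    exact one_ne_zero
  -- parity correction
  obtain ⟨vs₁, hvs₁, hmap₁, heven₁⟩ : ∃ vs₁ : List (ι → F), (∀ v ∈ vs₁, Q v ≠ 0) ∧
      U.map (actLin Q ((vs₁.map (reflT Q)).prod)) = W ∧ Even vs₁.length := by
    by_cases he : Even vs.length
    · exact ⟨vs, hvs', hmap, he⟩
    · obtain ⟨v₀, hv₀W, hv₀⟩ := exists_nonsing_perp Q hQ W hW hk
      refine ⟨v₀ :: vs, ?_, ?_, ?_⟩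
      · intro v hv
        rcases List.mem_cons.mp hv with h | h
        · rw [h]
          exact hv₀
        · exact hvs' v h
      · rw [List.map_cons, List.prod_cons, actLin_mul, Submodule.map_comp, hmap]
        apply map_actLin_eq_of_stab
        intro x hx
        rw [reflT_of Q v₀ hv₀, cdAct_refl Q _ v₀ rfl, hv₀W x hx, mul_zero, zero_smul, sub_zero]
        exact hx
      · rw [List.length_cons]
        exact Nat.even_add_one.mpr he
  by_cases h2 : (2 : F) = 0
  · have hchar : CharP F 2 := CharTwo.of_one_ne_zero_of_two_eq_zero one_ne_zero h2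
    have hex' : (∃ β : F, β ≠ 0 ∧ β ≠ 1) ∨ Fintype.card ι ≠ 4 := by
      rcases h with h | h
      · exact Or.inl (c2_fin_hex h)
      · exact Or.inr h
    obtain ⟨n, hn⟩ := heven₁
    exact ⟨_, c2P_le_commutator Q hQ c2_fin_hsq hex'
      (reflT_list_even_mem Q n vs₁ (by omega) hvs₁), hmap₁⟩
  · by_cases hcard : 2 ≤ Fintype.card ι
    · -- spinor norm correction
      obtain ⟨vs₂, hvs₂, hmap₂, heven₂, hsq₂⟩ : ∃ vs₂ : List (ι → F), (∀ v ∈ vs₂, Q v ≠ 0) ∧
          U.map (actLin Q ((vs₂.map (reflT Q)).prod)) = W ∧ Even vs₂.length ∧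
          IsSquare (vs₂.map (fun v => Q v)).prod := by
        by_cases hs : IsSquare (vs₁.map (fun v => Q v)).prod
        · exact ⟨vs₁, hvs₁, hmap₁, heven₁, hs⟩
        · by_cases hW0 : W = ⊥
          · have hU0 : U = ⊥ := by
              have h3 : Module.finrank F ↥U = 0 := by rw [hfr, hW0, finrank_bot]
              exact Submodule.finrank_eq_zero.mp h3
            refine ⟨[], by simp, ?_, by simp, ?_⟩
            · rw [List.map_nil, List.prod_nil, actLin_one, Submodule.map_id, hU0, hW0]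
            · rw [List.map_nil, List.prod_nil]
              exact IsSquare.one
          · obtain ⟨w, hwW, hw0⟩ := (Submodule.ne_bot_iff W).mp hW0
            obtain ⟨w', hQw', hww'⟩ := exists_hyp_partner Q hQ w hw0 (hW w hwW)
            have hchar : ringChar F ≠ 2 := by
              intro hr
              apply h2
              have h3 := ringChar.Nat.cast_ringChar (R := F)
              rw [hr] at h3
              exact_mod_cast h3
            obtain ⟨c, hc⟩ := FiniteField.exists_nonsquare hchar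
            have hc0 : c ≠ 0 := by
              rintro rfl
              exact hc IsSquare.zero
            obtain ⟨hQa, hQb, hrot⟩ := hyp_rot Q w w' (hW w hwW) hQw' hww' c hc0
            refine ⟨(w + w') :: (w + c • w') :: vs₁, ?_, ?_, ?_, ?_⟩
            · intro v hv
              rcases List.mem_cons.mp hv with h | h
              · rw [h, hQa]
                exact one_ne_zero
              · rcases List.mem_cons.mp h with h | h
                · rw [h, hQb]
                  exact hc0
                · exact hvs₁ v h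
            · rw [List.map_cons, List.map_cons, List.prod_cons, List.prod_cons, ← mul_assoc,
                actLin_mul, Submodule.map_comp, hmap₁]
              apply map_actLin_eq_of_stab
              intro x hx
              rw [hrot x (ts_polar Q W hW w x hwW hx)]
              exact W.add_mem hx (W.smul_mem _ hwW)
            · obtain ⟨n, hn⟩ := heven₁
              exact ⟨n + 1, by simp only [List.length_cons]; omega⟩
            · rw [List.map_cons, List.map_cons, List.prod_cons, List.prod_cons, hQa, hQb, one_mul]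
              exact isSquare_mul_of_not hc0 (fun h0 => hs (h0 ▸ IsSquare.zero)) hc hs
      exact ⟨_, (spinor_criterion Q h2 hQ hcard _ vs₂ hvs₂ (reflT_list_coe Q vs₂ hvs₂)).mpr
        ⟨heven₂, hsq₂⟩, hmap₂⟩
    · have hW0 : W = ⊥ := Submodule.finrank_eq_zero.mp (by omega)
      have hU0 : U = ⊥ := Submodule.finrank_eq_zero.mp (by omega)
      refine ⟨1, Subgroup.one_mem _, ?_⟩
      rw [actLin_one, Submodule.map_id, hU0, hW0]

end TSWitt

end Cfsg.Agent.Lib.Helper17
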