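import Mathlib
import Cfsg.Agent.Lib.Helper1.Cores
import Cfsg.Agent.Lib.Helper17.HWLocal

set_option autoImplicit false

namespace Cfsg.Agent.Lib.Helper17

open Finset

section trc

variable {G : Type*} [Group G] {A : Type*} [CommGroup A] (H : Subgroup G) (ϑ : G → A)

/-- The cocycle of the transfer into `H`, composed with `ϑ`. -/
noncomputable def trc (g : G) (q : G ⧸ H) : A := ϑ ((g • q).out⁻¹ * g * q.out)

theorem trc_mem (g : G) (q : G ⧸ H) : (g • q).out⁻¹ * g * q.out ∈ H := by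
  rw [mul_assoc, ← QuotientGroup.eq, QuotientGroup.out_eq']
  conv_lhs => rw [← QuotientGroup.out_eq' q]
  rfl

theorem trc_mul (hϑ : ∀ x ∈ H, ∀ y ∈ H, ϑ (x * y) = ϑ x * ϑ y) (g h : G) (q : G ⧸ H) :
    trc H ϑ (g * h) q = trc H ϑ g (h • q) * trc H ϑ h q := by
  unfold trc
  rw [← hϑ _ (trc_mem H g (h • q)) _ (trc_mem H h q), mul_smul]
  congr 1
  group

theorem trc_one (hϑ : ∀ x ∈ H, ∀ y ∈ H, ϑ (x * y) = ϑ x * ϑ y) (q : G ⧸ H) :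
    trc H ϑ 1 q = 1 := by
  have hϑ1 : ϑ 1 = 1 := by
    have h1 := hϑ 1 H.one_mem 1 H.one_mem
    rw [mul_one] at h1
    exact mul_eq_left.mp h1.symm
  unfold trc
  rw [one_smul, mul_one, inv_mul_cancel, hϑ1]

theorem trc_pow (hϑ : ∀ x ∈ H, ∀ y ∈ H, ϑ (x * y) = ϑ x * ϑ y) (u : G) (n : ℕ) (q : G ⧸ H) :
    trc H ϑ (u ^ n) q = ∏ i ∈ range n, trc H ϑ u (u ^ i • q) := by
  induction n with
  | zero =>
    rw [pow_zero, Finset.prod_range_zero]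
    exact trc_one H ϑ hϑ q
  | succ n ih => rw [pow_succ', trc_mul H ϑ hϑ, ih, Finset.prod_range_succ, mul_comm]

omit [CommGroup A] in
theorem trc_fixed (g : G) (q : G ⧸ H) (hfix : g • q = q) :
    trc H ϑ g q = ϑ (q.out⁻¹ * g * q.out) := by
  unfold trc
  rw [hfix]

theorem tr_prod_smul {X : Type*} [MulAction G X] (Ω : Finset X) (h : G)
    (hΩ : ∀ q, h • q ∈ Ω ↔ q ∈ Ω) (F : X → A) : ∏ q ∈ Ω, F (h • q) = ∏ q ∈ Ω, F q := by
  apply Finset.prod_bij (fun q _ => h • q)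
  · intro q hq
    exact (hΩ q).mpr hq
  · intro a _ b _ hab
    exact MulAction.injective h hab
  · intro b hb
    exact ⟨h⁻¹ • b, (hΩ _).mp (by rwa [smul_inv_smul]), smul_inv_smul h b⟩
  · intro q _
    rfl

theorem tr_orbit_mem_iff {X : Type*} [MulAction G X] (K : Subgroup G) (q₀ : X) {v : G}
    (hv : v ∈ K) (q : X) : (∃ a ∈ K, a • q₀ = v • q) ↔ ∃ a ∈ K, a • q₀ = q := by
  constructor
  · rintro ⟨a, ha, h⟩
    exact ⟨v⁻¹ * a, K.mul_mem (K.inv_mem hv) ha, by rw [mul_smul, h, inv_smul_smul]⟩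
  · rintro ⟨a, ha, h⟩
    exact ⟨v * a, K.mul_mem hv ha, by rw [mul_smul, h]⟩

theorem trc_block (hϑ : ∀ x ∈ H, ∀ y ∈ H, ϑ (x * y) = ϑ x * ϑ y) (Ω₁ : Finset (G ⧸ H))
    (u w : G) (hu : ∀ q, (w⁻¹ * u * w) • q ∈ Ω₁ ↔ q ∈ Ω₁) :
    ∏ q ∈ Ω₁, trc H ϑ u (w • q) = ∏ q ∈ Ω₁, trc H ϑ (w⁻¹ * u * w) q := by
  have h1 : ∀ q, trc H ϑ u (w • q) * trc H ϑ w q =
      trc H ϑ w ((w⁻¹ * u * w) • q) * trc H ϑ (w⁻¹ * u * w) q := by
    intro q
    rw [← trc_mul H ϑ hϑ, ← trc_mul H ϑ hϑ]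
    congr 1
    group
  have h2 : (∏ q ∈ Ω₁, trc H ϑ u (w • q)) * ∏ q ∈ Ω₁, trc H ϑ w q =
      (∏ q ∈ Ω₁, trc H ϑ w q) * ∏ q ∈ Ω₁, trc H ϑ (w⁻¹ * u * w) q := by
    rw [← prod_mul_distrib, prod_congr rfl (fun q _ => h1 q), prod_mul_distrib,
      tr_prod_smul Ω₁ _ hu (trc H ϑ w)]
  rw [mul_comm] at h2
  exact mul_left_cancel h2

theorem trc_free [Finite G] {p : ℕ} [Fact p.Prime]
    (hϑ : ∀ x ∈ H, ∀ y ∈ H, ϑ (x * y) = ϑ x * ϑ y) (u : G) (hup : ∃ k : ℕ, u ^ p ^ k = 1)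
    (Ω : Finset (G ⧸ H)) (hΩ : ∀ q, u • q ∈ Ω ↔ q ∈ Ω) (hnofix : ∀ q ∈ Ω, u • q ≠ q)
    (hfree : ∀ q : G ⧸ H, ∀ n : ℕ, p ∣ n → u ^ n • q = q → trc H ϑ (u ^ n) q = 1) :
    ∏ q ∈ Ω, trc H ϑ u q = 1 := by
  classical
  have hp : p.Prime := Fact.out
  let _i1 : Fintype (G ⧸ H) := Fintype.ofFinite _
  let _i2 : Fintype (MulAction.orbitRel.Quotient (Subgroup.zpowers u) (G ⧸ H)) :=
    Fintype.ofFinite _
  have hΩpow : ∀ (i : ℕ) q, u ^ i • q ∈ Ω ↔ q ∈ Ω := by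
    intro i
    induction i with
    | zero =>
      intro q
      rw [pow_zero, one_smul]
    | succ i ih =>
      intro q
      rw [pow_succ', mul_smul, hΩ, ih]
  rw [← Fintype.prod_ite_mem Ω (trc H ϑ u)]
  rw [hw_decomp H u (fun q => if q ∈ Ω then trc H ϑ u q else 1)]
  apply Finset.prod_eq_one
  intro qb _
  obtain ⟨q, hq⟩ : ∃ q : G ⧸ H, q = qb.out := ⟨_, rfl⟩
  rw [← hq]
  by_cases hqΩ : q ∈ Ω
  · have h1 : ∀ i ∈ range (Function.minimalPeriod (u • ·) q),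
        (if u ^ i • q ∈ Ω then trc H ϑ u (u ^ i • q) else 1) = trc H ϑ u (u ^ i • q) := by
      intro i _
      rw [if_pos ((hΩpow i q).mpr hqΩ)]
    rw [Finset.prod_congr rfl h1, ← trc_pow H ϑ hϑ u _ q]
    apply hfree
    · obtain ⟨k, hk⟩ := hup
      have hdvd : Function.minimalPeriod (u • ·) q ∣ p ^ k := by
        apply Function.IsPeriodicPt.minimalPeriod_dvd
        show (u • ·)^[p ^ k] q = q
        rw [smul_iterate, hk]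
        exact one_smul _ _
      obtain ⟨j, hj, hmp⟩ := (Nat.dvd_prime_pow hp).mp hdvd
      rw [hmp]
      rcases Nat.eq_zero_or_pos j with rfl | hjpos
      · exfalso
        have h2 : Function.IsFixedPt (u • ·) q :=
          Function.minimalPeriod_eq_one_iff_isFixedPt.mp (by rw [hmp, pow_zero])
        exact hnofix q hqΩ h2
      · exact dvd_pow_self p hjpos.ne'
    · have h3 : (u • ·)^[Function.minimalPeriod (u • ·) q] q = q :=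
        Function.isPeriodicPt_minimalPeriod (u • ·) q
      rw [smul_iterate] at h3
      exact h3
  · apply Finset.prod_eq_one
    intro i _
    rw [if_neg (fun h => hqΩ ((hΩpow i q).mp h))]

end trc

theorem tr_coset_rep {G : Type*} [Group G] [Finite G] {p : ℕ} [Fact p.Prime] (Y P₁ : Subgroup G)
    (hnorm : ∀ y ∈ Y, ∀ a ∈ P₁, y⁻¹ * a * y ∈ P₁) (hidx : P₁.relIndex Y = p)
    (z : G) (hzY : z ∈ Y) (hz : z ∉ P₁) :
    (∀ y ∈ Y, ∃ i < p, (z ^ i)⁻¹ * y ∈ P₁) ∧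
      (∀ i < p, ∀ j < p, (z ^ j)⁻¹ * z ^ i ∈ P₁ → i = j) := by
  have hp : p.Prime := Fact.out
  have hN : (P₁.subgroupOf Y).Normal := by
    constructor
    intro n hn g
    rw [Subgroup.mem_subgroupOf] at hn ⊢
    have h1 := hnorm ((g⁻¹ : ↥Y) : G) (g⁻¹).2 n hn
    simpa using h1
  have hcard : Nat.card (↥Y ⧸ P₁.subgroupOf Y) = p := by
    rw [← Subgroup.index_eq_card]
    exact hidx
  obtain ⟨zb, hzb⟩ : ∃ zb : ↥Y ⧸ P₁.subgroupOf Y,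
      zb = ((⟨z, hzY⟩ : ↥Y) : ↥Y ⧸ P₁.subgroupOf Y) := ⟨_, rfl⟩
  have hzb1 : zb ≠ 1 := by
    rw [hzb]
    intro h
    rw [QuotientGroup.eq_one_iff] at h
    exact hz (Subgroup.mem_subgroupOf.mp h)
  have hzbp : zb ^ p = 1 := by
    rw [← hcard]
    exact pow_card_eq_one'
  have hord : orderOf zb = p := orderOf_eq_prime hzbp hzb1
  have hmk : ∀ (i : ℕ) (y : G) (hy : y ∈ Y),
      zb ^ i = ((⟨y, hy⟩ : ↥Y) : ↥Y ⧸ P₁.subgroupOf Y) ↔ (z ^ i)⁻¹ * y ∈ P₁ := by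
    intro i y hy
    rw [hzb, ← QuotientGroup.mk_pow, QuotientGroup.eq, Subgroup.mem_subgroupOf]
    rfl
  constructor
  · intro y hy
    have htop := zpowers_eq_top_of_prime_card hcard hzb1
    have hmem : ((⟨y, hy⟩ : ↥Y) : ↥Y ⧸ P₁.subgroupOf Y) ∈ Subgroup.zpowers zb := by
      rw [htop]
      exact Subgroup.mem_top _
    rw [← mem_powers_iff_mem_zpowers] at hmem
    obtain ⟨n, hn⟩ := hmem
    refine ⟨n % p, Nat.mod_lt _ hp.pos, ?_⟩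
    rw [← hmk _ y hy, ← hn]
    have h1 := pow_mod_natCard zb n
    rw [hcard] at h1
    exact h1
  · intro i hi j hj h
    have h1 : zb ^ i = ((⟨z ^ i, Y.pow_mem hzY i⟩ : ↥Y) : ↥Y ⧸ P₁.subgroupOf Y) :=
      (hmk i (z ^ i) _).mpr (by rw [inv_mul_cancel]; exact P₁.one_mem)
    have h2 : zb ^ j = ((⟨z ^ i, Y.pow_mem hzY i⟩ : ↥Y) : ↥Y ⧸ P₁.subgroupOf Y) :=
      (hmk j (z ^ i) _).mpr h
    have h3 : zb ^ i = zb ^ j := h1.trans h2.symm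
    exact pow_injOn_Iio_orderOf (by rw [hord]; exact hi) (by rw [hord]; exact hj) h3

theorem trc_orbit {G : Type*} [Group G] [Finite G] {A : Type*} [CommGroup A] {p : ℕ}
    [Fact p.Prime] (H : Subgroup G) (ϑ : G → A)
    (hϑ : ∀ x ∈ H, ∀ y ∈ H, ϑ (x * y) = ϑ x * ϑ y)
    (Y W : Subgroup G) (hY : IsPGroup p Y) (hWY : W ≤ Y) (u : G) (huY : u ∈ Y)
    (hgen : ∀ M : Subgroup G, W ≤ M → u ∈ M → Y ≤ M)
    (hstar : ∀ P₁ : Subgroup G, P₁ ≤ Y → (∀ y ∈ Y, ∀ a ∈ P₁, y⁻¹ * a * y ∈ P₁) →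
      P₁.relIndex Y = p → ∀ σ : G → A, (∀ a ∈ P₁, ∀ b ∈ P₁, σ (a * b) = σ a * σ b) →
      ∀ y ∈ P₁, ∀ z ∈ W, z ∉ P₁ → ∏ i ∈ range p, σ ((z ^ i)⁻¹ * y * z ^ i) = 1)
    (hfree : ∀ q : G ⧸ H, ∀ n : ℕ, p ∣ n → u ^ n • q = q → trc H ϑ (u ^ n) q = 1)
    (q₀ : G ⧸ H) (hq₀ : ∃ y ∈ Y, y • q₀ ≠ q₀) (Ω : Finset (G ⧸ H))
    (hΩ : ∀ q, q ∈ Ω ↔ ∃ y ∈ Y, y • q₀ = q) :
    ∏ q ∈ Ω, trc H ϑ u q = 1 := by
  classical
  have hp : p.Prime := Fact.out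
  have hΩinv : ∀ v ∈ Y, ∀ q, v • q ∈ Ω ↔ q ∈ Ω := by
    intro v hv q
    rw [hΩ, hΩ]
    exact tr_orbit_mem_iff Y q₀ hv q
  by_cases hc : ∃ P₁ : Subgroup G, P₁ ≤ Y ∧ (∀ y ∈ Y, ∀ a ∈ P₁, y⁻¹ * a * y ∈ P₁) ∧
      P₁.relIndex Y = p ∧ (∀ d ∈ Y, d • q₀ = q₀ → d ∈ P₁) ∧ u ∈ P₁
  · obtain ⟨P₁, hP₁Y, hnorm, hidx, hD, huP₁⟩ := hc
    have hWP : ¬ W ≤ P₁ := by
      intro hle
      have h1 := hgen P₁ hle huP₁
      have h2 : P₁.relIndex Y = 1 := Subgroup.relIndex_eq_one.mpr h1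
      rw [hidx] at h2
      exact hp.one_lt.ne' h2
    obtain ⟨z, hzW, hzP₁⟩ := SetLike.not_le_iff_exists.mp hWP
    have hzY := hWY hzW
    obtain ⟨hrep, hinj⟩ := tr_coset_rep Y P₁ hnorm hidx z hzY hzP₁
    obtain ⟨Ω₁, hΩ₁def⟩ : ∃ Ω₁ : Finset (G ⧸ H),
        Ω₁ = Ω.filter (fun q => ∃ a ∈ P₁, a • q₀ = q) := ⟨_, rfl⟩
    have hΩ₁ : ∀ q, q ∈ Ω₁ ↔ ∃ a ∈ P₁, a • q₀ = q := by
      intro q
      rw [hΩ₁def, Finset.mem_filter, hΩ]
      constructor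
      · exact fun h => h.2
      · rintro ⟨a, ha, h⟩
        exact ⟨⟨a, hP₁Y ha, h⟩, a, ha, h⟩
    have hΩ₁inv : ∀ v ∈ P₁, ∀ q, v • q ∈ Ω₁ ↔ q ∈ Ω₁ := by
      intro v hv q
      rw [hΩ₁, hΩ₁]
      exact tr_orbit_mem_iff P₁ q₀ hv q
    have hzi : ∀ i : ℕ, z ^ i ∈ Y := fun i => Y.pow_mem hzY i
    have hconj : ∀ i : ℕ, (z ^ i)⁻¹ * u * z ^ i ∈ P₁ := fun i => hnorm _ (hzi i) u huP₁
    have hsplit : ∏ q ∈ Ω, trc H ϑ u q =
        ∏ i ∈ range p, ∏ q ∈ Ω₁, trc H ϑ u (z ^ i • q) := by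
      rw [← Finset.prod_product']
      symm
      apply Finset.prod_bij (fun x _ => z ^ x.1 • x.2)
      · intro x hx
        obtain ⟨hx1, hx2⟩ := Finset.mem_product.mp hx
        obtain ⟨a, ha, hq⟩ := (hΩ₁ _).mp hx2
        rw [hΩ]
        exact ⟨z ^ x.1 * a, Y.mul_mem (hzi _) (hP₁Y ha), by rw [mul_smul, hq]⟩
      · intro x hx x' hx' hxx'
        obtain ⟨hx1, hx2⟩ := Finset.mem_product.mp hx
        obtain ⟨hx1', hx2'⟩ := Finset.mem_product.mp hx'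
        obtain ⟨a, ha, hq⟩ := (hΩ₁ _).mp hx2
        obtain ⟨a', ha', hq'⟩ := (hΩ₁ _).mp hx2'
        have hxx'' : z ^ x.1 • x.2 = z ^ x'.1 • x'.2 := hxx'
        have hxx3 := hxx''
        rw [← hq, ← hq', ← mul_smul, ← mul_smul] at hxx3
        have h1 : (z ^ x'.1 * a')⁻¹ * (z ^ x.1 * a) ∈ P₁ := by
          apply hD
          · exact Y.mul_mem (Y.inv_mem (Y.mul_mem (hzi _) (hP₁Y ha')))
              (Y.mul_mem (hzi _) (hP₁Y ha))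
          · rw [mul_smul, hxx3, inv_smul_smul]
        have h2 : (z ^ x'.1)⁻¹ * z ^ x.1 ∈ P₁ := by
          have h3 := P₁.mul_mem (P₁.mul_mem ha' h1) (P₁.inv_mem ha)
          have e : a' * ((z ^ x'.1 * a')⁻¹ * (z ^ x.1 * a)) * a⁻¹ = (z ^ x'.1)⁻¹ * z ^ x.1 := by
            group
          rwa [e] at h3
        have h4 := hinj x.1 (Finset.mem_range.mp hx1) x'.1 (Finset.mem_range.mp hx1') h2
        have h5 : x.2 = x'.2 := by
          rw [h4] at hxx''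
          exact MulAction.injective _ hxx''
        exact Prod.ext h4 h5
      · intro q hq
        obtain ⟨y, hy, rfl⟩ := (hΩ q).mp hq
        obtain ⟨i, hi, hia⟩ := hrep y hy
        refine ⟨(i, ((z ^ i)⁻¹ * y) • q₀), ?_, ?_⟩
        · exact Finset.mem_product.mpr ⟨Finset.mem_range.mpr hi, (hΩ₁ _).mpr ⟨_, hia, rfl⟩⟩
        · show z ^ i • ((z ^ i)⁻¹ * y) • q₀ = y • q₀
          rw [← mul_smul]
          congr 1
          group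
      · intro x _
        rfl
    obtain ⟨σ, hσdef⟩ : ∃ σ : G → A, σ = fun v => ∏ q ∈ Ω₁, trc H ϑ v q := ⟨_, rfl⟩
    have hσmul : ∀ a ∈ P₁, ∀ b ∈ P₁, σ (a * b) = σ a * σ b := by
      intro a ha b hb
      rw [hσdef]
      show ∏ q ∈ Ω₁, trc H ϑ (a * b) q = (∏ q ∈ Ω₁, trc H ϑ a q) * ∏ q ∈ Ω₁, trc H ϑ b q
      rw [← tr_prod_smul Ω₁ b (hΩ₁inv b hb) (trc H ϑ a), ← Finset.prod_mul_distrib]
      exact Finset.prod_congr rfl (fun q _ => trc_mul H ϑ hϑ a b q)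
    rw [hsplit]
    have h7 := hstar P₁ hP₁Y hnorm hidx σ hσmul u huP₁ z hzW hzP₁
    rw [← h7]
    apply Finset.prod_congr rfl
    intro i _
    rw [hσdef]
    exact trc_block H ϑ hϑ Ω₁ u (z ^ i) (hΩ₁inv _ (hconj i))
  · obtain ⟨k, hk⟩ := hY ⟨u, huY⟩
    have hk' : u ^ p ^ k = 1 := by simpa using congrArg Subtype.val hk
    apply trc_free H ϑ hϑ u ⟨k, hk'⟩ Ω (hΩinv u huY) ?_ hfree
    intro q hq hfix
    apply hc
    obtain ⟨y, hy, rfl⟩ := (hΩ q).mp hq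
    have hDne : (Y ⊓ MulAction.stabilizer G q₀).subgroupOf Y ≠ ⊤ := by
      intro htop
      obtain ⟨y', hy', hne⟩ := hq₀
      apply hne
      have h1 : (⟨y', hy'⟩ : ↥Y) ∈ (Y ⊓ MulAction.stabilizer G q₀).subgroupOf Y := by
        rw [htop]
        exact Subgroup.mem_top _
      exact (Subgroup.mem_inf.mp (Subgroup.mem_subgroupOf.mp h1)).2
    obtain ⟨M', hM', hDM'⟩ := (eq_top_or_exists_le_coatom _).resolve_left hDne
    have hM'n := Cfsg.Agent.Lib.Helper1.coatom_normal_of_pgroup hY hM'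
    have hM'i := Cfsg.Agent.Lib.Helper1.coatom_index_of_pgroup hY hM'
    have hmemP : ∀ a (ha : a ∈ Y), a ∈ M'.map Y.subtype ↔ (⟨a, ha⟩ : ↥Y) ∈ M' := by
      intro a ha
      constructor
      · rintro ⟨a', ha', rfl⟩
        exact ha'
      · intro h
        exact ⟨_, h, rfl⟩
    have hD : ∀ d ∈ Y, d • q₀ = q₀ → d ∈ M'.map Y.subtype := by
      intro d hd hfixd
      rw [hmemP d hd]
      apply hDM'
      exact Subgroup.mem_subgroupOf.mpr (Subgroup.mem_inf.mpr ⟨hd, hfixd⟩)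
    have hnorm : ∀ y ∈ Y, ∀ a ∈ M'.map Y.subtype, y⁻¹ * a * y ∈ M'.map Y.subtype := by
      intro y hy a ha
      obtain ⟨a', ha', rfl⟩ := ha
      have h1 := hM'n.conj_mem a' ha' (⟨y, hy⟩ : ↥Y)⁻¹
      rw [inv_inv] at h1
      exact ⟨_, h1, rfl⟩
    refine ⟨M'.map Y.subtype, Subgroup.map_subtype_le _, hnorm, ?_, hD, ?_⟩
    · show ((M'.map Y.subtype).subgroupOf Y).index = p
      have e : (M'.map Y.subtype).subgroupOf Y = M' :=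
        Subgroup.comap_map_eq_self_of_injective (Subgroup.subtype_injective Y) M'
      rw [e]
      exact hM'i
    · have h1 : (y⁻¹ * u * y) • q₀ = q₀ := by
        rw [mul_smul, mul_smul, hfix, inv_smul_smul]
      have h2 := hD _ (Y.mul_mem (Y.mul_mem (Y.inv_mem hy) huY) hy) h1
      have h3 := hnorm y⁻¹ (Y.inv_mem hy) _ h2
      have e : y⁻¹⁻¹ * (y⁻¹ * u * y) * y⁻¹ = u := by group
      rwa [e] at h3

end Cfsg.Agent.Lib.Helper17
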