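import Mathlib
import Cfsg.Prelude.Def_Transfer
import Cfsg.Agent.Lib.Helper14.SylowAux
import Cfsg.Agent.Lib.Helper14.ConjAux
import Cfsg.Agent.Lib.Helper17.TrCore

set_option autoImplicit false

namespace Cfsg.Agent.Lib.Helper17

open Cfsg Cfsg.Agent.Lib.Helper14 Finset

universe u

theorem tr_fusion {G : Type u} [Group G] [Finite G] {p : ℕ} [Fact p.Prime] (P : Sylow p G)
    (W : Subgroup G) (hW : Cfsg.IsWeaklyClosed W (P : Subgroup G))
    {A : Type*} [CommGroup A] (hA : ∀ a : A, a ^ p = 1)
    (hstar : ∀ Y P₁ : Subgroup G, W ≤ Y → Y ≤ (P : Subgroup G) → P₁ ≤ Y →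
      (∀ y ∈ Y, ∀ a ∈ P₁, y⁻¹ * a * y ∈ P₁) → P₁.relIndex Y = p →
      ∀ σ : G → A, (∀ a ∈ P₁, ∀ b ∈ P₁, σ (a * b) = σ a * σ b) →
      ∀ y ∈ P₁, ∀ z ∈ W, z ∉ P₁ → ∏ i ∈ range p, σ ((z ^ i)⁻¹ * y * z ^ i) = 1)
    (ϑ : G → A)
    (hϑ : ∀ x ∈ Subgroup.normalizer (W : Set G), ∀ y ∈ Subgroup.normalizer (W : Set G),
      ϑ (x * y) = ϑ x * ϑ y) :
    ∀ t ∈ (P : Subgroup G), ∀ g : G, g⁻¹ * t * g ∈ (P : Subgroup G) →
      ϑ (g⁻¹ * t * g) = ϑ t := by
  classical
  have hp : p.Prime := Fact.out
  obtain ⟨H, hHdef⟩ : ∃ H : Subgroup G, H = Subgroup.normalizer (W : Set G) := ⟨_, rfl⟩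
  rw [← hHdef] at hϑ
  have hWP : W ≤ (P : Subgroup G) := hW.1
  have hwc : ∀ g : G, W.map (MulAut.conj g).toMonoidHom ≤ (P : Subgroup G) → g ∈ H := by
    intro g hg
    rw [hHdef]
    exact mem_normalizer_of_map_conj_eq (hW.2 g hg)
  have hPH : (P : Subgroup G) ≤ H := by
    intro u hu
    apply hwc
    rintro _ ⟨q, hq, rfl⟩
    show MulAut.conj u q ∈ (P : Subgroup G)
    rw [MulAut.conj_apply]
    exact (P : Subgroup G).mul_mem ((P : Subgroup G).mul_mem hu (hWP hq))
      ((P : Subgroup G).inv_mem hu)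
  have hHconj : ∀ m ∈ H, ∀ y ∈ H, ϑ (m⁻¹ * y * m) = ϑ y := by
    intro m hm y hy
    have h2 := hϑ m hm (m⁻¹ * y * m) (H.mul_mem (H.mul_mem (H.inv_mem hm) hy) hm)
    have e : m * (m⁻¹ * y * m) = y * m := by group
    rw [e, hϑ y hy m hm, mul_comm] at h2
    exact (mul_left_cancel h2).symm
  have hPidx : ¬ p ∣ (P : Subgroup G).relIndex H := fun hd =>
    P.not_dvd_index (dvd_trans hd (Subgroup.relIndex_dvd_index_of_le hPH))
  have hϑ1 : ϑ 1 = 1 := by
    have h1 := hϑ 1 H.one_mem 1 H.one_mem
    rw [mul_one] at h1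
    exact mul_eq_left.mp h1.symm
  have hϑpow : ∀ x ∈ H, ∀ k : ℕ, ϑ (x ^ k) = ϑ x ^ k := by
    intro x hx k
    induction k with
    | zero => rw [pow_zero, pow_zero, hϑ1]
    | succ k ih => rw [pow_succ, pow_succ, hϑ _ (H.pow_mem hx k) _ hx, ih]
  let _i1 : Fintype (G ⧸ H) := Fintype.ofFinite _
  obtain ⟨τ, hτdef⟩ : ∃ τ : G → A, τ = fun g => ∏ q : G ⧸ H, trc H ϑ g q := ⟨_, rfl⟩
  have hτmul : ∀ g h : G, τ (g * h) = τ g * τ h := by
    intro g h
    rw [hτdef]
    show ∏ q : G ⧸ H, trc H ϑ (g * h) q =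
      (∏ q : G ⧸ H, trc H ϑ g q) * ∏ q : G ⧸ H, trc H ϑ h q
    rw [← tr_prod_smul Finset.univ h (fun q => by simp) (trc H ϑ g), ← Finset.prod_mul_distrib]
    exact Finset.prod_congr rfl (fun q _ => trc_mul H ϑ hϑ g h q)
  have hτconj : ∀ g t : G, τ (g⁻¹ * t * g) = τ t := by
    intro g t
    have h1 := hτmul g (g⁻¹ * t * g)
    have e : g * (g⁻¹ * t * g) = t * g := by group
    rw [e, hτmul, mul_comm] at h1
    exact (mul_left_cancel h1).symm
  obtain ⟨base, hbase⟩ : ∃ base : G ⧸ H, base = ((1 : G) : G ⧸ H) := ⟨_, rfl⟩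
  have hbfix : ∀ y ∈ H, y • base = base := by
    intro y hy
    rw [hbase, MulAction.Quotient.smul_mk, smul_eq_mul, mul_one, QuotientGroup.eq, mul_one]
    exact H.inv_mem hy
  have hbfix' : ∀ s : G, (s : G ⧸ H) = base → s ∈ H := by
    intro s hs
    rw [hbase, QuotientGroup.eq, mul_one] at hs
    simpa using H.inv_mem hs
  have hWfix : ∀ q₀ : G ⧸ H, (∀ w ∈ W, w • q₀ = q₀) → q₀ = base := by
    intro q₀ hfix
    obtain ⟨s, hs⟩ : ∃ s : G, (s : G ⧸ H) = q₀ := ⟨q₀.out, QuotientGroup.out_eq' _⟩
    have h1 : ∀ w ∈ W, s⁻¹ * w * s ∈ H := by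
      intro w hw
      have h2 := hfix w hw
      rw [← hs, MulAction.Quotient.smul_mk, smul_eq_mul, eq_comm, QuotientGroup.eq] at h2
      rwa [← mul_assoc] at h2
    have hR'p : IsPGroup p ↥(W.map (MulAut.conj s⁻¹).toMonoidHom) := (P.2.to_le hWP).map _
    have hR'H : W.map (MulAut.conj s⁻¹).toMonoidHom ≤ H := by
      rw [Subgroup.map_le_iff_le_comap]
      intro w hw
      show (MulAut.conj s⁻¹) w ∈ H
      rw [MulAut.conj_apply, inv_inv]
      exact h1 w hw
    obtain ⟨m, hmH, hm⟩ := exists_conj_mem_of_relIndex P.2 hPidx hR'p hR'H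
    have h3 : m * s⁻¹ ∈ H := by
      apply hwc
      rintro _ ⟨w, hw, rfl⟩
      have h4 := hm (s⁻¹ * w * s) ⟨w, hw, by simp⟩
      show MulAut.conj (m * s⁻¹) w ∈ (P : Subgroup G)
      rw [MulAut.conj_apply]
      have e : m * s⁻¹ * w * (m * s⁻¹)⁻¹ = m * (s⁻¹ * w * s) * m⁻¹ := by group
      rw [e]
      exact h4
    have h5 : s ∈ H := by
      have h6 := H.mul_mem (H.inv_mem hmH) h3
      rw [inv_mul_cancel_left] at h6
      simpa using H.inv_mem h6
    rw [← hs, hbase, QuotientGroup.eq, mul_one]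
    exact H.inv_mem h5
  have key : ∀ n : ℕ, ∀ t ∈ (P : Subgroup G), orderOf t = n → ∀ g : G,
      g⁻¹ * t * g ∈ (P : Subgroup G) → ϑ (g⁻¹ * t * g) = ϑ t := by
    intro n
    induction n using Nat.strong_induction_on with
    | _ n ih =>
      have hτϑ : ∀ u ∈ (P : Subgroup G), orderOf u = n → τ u = ϑ u := by
        intro u hu hun
        have huH := hPH hu
        have hfree : ∀ q : G ⧸ H, ∀ m : ℕ, p ∣ m → u ^ m • q = q →
            trc H ϑ (u ^ m) q = 1 := by
          intro q m hpm hfix
          rw [trc_fixed H ϑ _ q hfix]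
          obtain ⟨s, hs⟩ : ∃ s : G, s = q.out := ⟨_, rfl⟩
          rw [← hs]
          have hsH : s⁻¹ * u ^ m * s ∈ H := by
            have h1 := trc_mem H (u ^ m) q
            rw [hfix, ← hs] at h1
            exact h1
          by_cases hv1 : u ^ m = 1
          · rw [hv1, mul_one, inv_mul_cancel, hϑ1]
          · have hvP : u ^ m ∈ (P : Subgroup G) := (P : Subgroup G).pow_mem hu m
            have hR'p : IsPGroup p
                ↥((Subgroup.zpowers (u ^ m)).map (MulAut.conj s⁻¹).toMonoidHom) :=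
              (P.2.to_le (Subgroup.zpowers_le.mpr hvP)).map _
            have hR'H : (Subgroup.zpowers (u ^ m)).map (MulAut.conj s⁻¹).toMonoidHom ≤ H := by
              rw [Subgroup.map_le_iff_le_comap, Subgroup.zpowers_le]
              show (MulAut.conj s⁻¹) (u ^ m) ∈ H
              rw [MulAut.conj_apply, inv_inv]
              exact hsH
            obtain ⟨c, hcH, hc⟩ := exists_conj_mem_of_relIndex P.2 hPidx hR'p hR'H
            have h2 := hc (s⁻¹ * u ^ m * s) ⟨u ^ m, Subgroup.mem_zpowers _, by simp⟩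
            have e : c * (s⁻¹ * u ^ m * s) * c⁻¹ = (s * c⁻¹)⁻¹ * u ^ m * (s * c⁻¹) := by group
            rw [e] at h2
            have hlt : orderOf (u ^ m) < n := by
              obtain ⟨k, hk⟩ := P.2 ⟨u, hu⟩
              have hk' : u ^ p ^ k = 1 := by simpa using congrArg Subtype.val hk
              obtain ⟨j, hj, hoj⟩ := (Nat.dvd_prime_pow hp).mp (orderOf_dvd_of_pow_eq_one hk')
              rw [← hun, hoj]
              rcases Nat.eq_zero_or_pos j with rfl | hjpos
              · exfalso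
                apply hv1
                rw [pow_zero, orderOf_eq_one_iff] at hoj
                rw [hoj, one_pow]
              · obtain ⟨m', hm'⟩ := hpm
                have h5 : (u ^ m) ^ p ^ (j - 1) = 1 := by
                  rw [← pow_mul, hm', mul_comm p m', mul_assoc, ← pow_succ',
                    Nat.sub_add_cancel hjpos, mul_comm, pow_mul, ← hoj, pow_orderOf_eq_one,
                    one_pow]
                have h6 := Nat.le_of_dvd (pow_pos hp.pos _) (orderOf_dvd_of_pow_eq_one h5)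
                exact lt_of_le_of_lt h6 (Nat.pow_lt_pow_right hp.one_lt (by omega))
            have h3 := ih (orderOf (u ^ m)) hlt (u ^ m) hvP rfl (s * c⁻¹) h2
            have h4 := hHconj c⁻¹ (H.inv_mem hcH) (s⁻¹ * u ^ m * s) hsH
            have e2 : c⁻¹⁻¹ * (s⁻¹ * u ^ m * s) * c⁻¹ = (s * c⁻¹)⁻¹ * u ^ m * (s * c⁻¹) := by
              group
            rw [e2, h3, hϑpow u huH] at h4
            rw [← h4]
            obtain ⟨m', rfl⟩ := hpm
            rw [pow_mul, hA, one_pow]
        obtain ⟨Y, hYdef⟩ : ∃ Y : Subgroup G, Y = Subgroup.zpowers u ⊔ W := ⟨_, rfl⟩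
        have hYP : Y ≤ (P : Subgroup G) := by
          rw [hYdef]
          exact sup_le (Subgroup.zpowers_le.mpr hu) hWP
        have hWY : W ≤ Y := by
          rw [hYdef]
          exact le_sup_right
        have huY : u ∈ Y := by
          rw [hYdef]
          exact (le_sup_left : Subgroup.zpowers u ≤ _) (Subgroup.mem_zpowers u)
        have hgen : ∀ M : Subgroup G, W ≤ M → u ∈ M → Y ≤ M := by
          intro M hWM huM
          rw [hYdef]
          exact sup_le (Subgroup.zpowers_le.mpr huM) hWM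
        have hYp : IsPGroup p Y := P.2.to_le hYP
        have hclaim : ∀ S : Finset (G ⧸ H), (∀ y ∈ Y, ∀ q, y • q ∈ S ↔ q ∈ S) → base ∉ S →
            ∏ q ∈ S, trc H ϑ u q = 1 := by
          intro S
          induction S using Finset.strongInduction with
          | H S ihS =>
            intro hSinv hbS
            rcases S.eq_empty_or_nonempty with rfl | ⟨q₀, hq₀⟩
            · exact Finset.prod_empty
            · obtain ⟨Ω, hΩdef⟩ : ∃ Ω : Finset (G ⧸ H),
                  Ω = S.filter (fun q => ∃ y ∈ Y, y • q₀ = q) := ⟨_, rfl⟩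
              have hΩ : ∀ q, q ∈ Ω ↔ ∃ y ∈ Y, y • q₀ = q := by
                intro q
                rw [hΩdef, Finset.mem_filter]
                constructor
                · exact fun h => h.2
                · rintro ⟨y, hy, rfl⟩
                  exact ⟨(hSinv y hy q₀).mpr hq₀, y, hy, rfl⟩
              have hΩS : Ω ⊆ S := by
                rw [hΩdef]
                exact Finset.filter_subset _ _
              have hq₀Ω : q₀ ∈ Ω := (hΩ q₀).mpr ⟨1, Y.one_mem, one_smul _ _⟩
              have hne : ∃ y ∈ Y, y • q₀ ≠ q₀ := by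
                by_contra hcon
                have hcon' : ∀ y ∈ Y, y • q₀ = q₀ := fun y hy =>
                  Classical.byContradiction (fun h => hcon ⟨y, hy, h⟩)
                have h1 := hWfix q₀ (fun w hw => hcon' w (hWY hw))
                rw [h1] at hq₀
                exact hbS hq₀
              have hΩprod := trc_orbit H ϑ hϑ Y W hYp hWY u huY hgen
                (fun P₁ hP₁Y hn hi => hstar Y P₁ hWY hYP hP₁Y hn hi) hfree q₀ hne Ω hΩ
              have hS' := ihS (S \ Ω) (by
                  refine ⟨Finset.sdiff_subset, fun hsub => ?_⟩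
                  have := hsub hq₀
                  exact (Finset.mem_sdiff.mp this).2 hq₀Ω) (by
                  intro y hy q
                  rw [Finset.mem_sdiff, Finset.mem_sdiff, hSinv y hy q, hΩ, hΩ,
                    tr_orbit_mem_iff Y q₀ hy q]) (fun h => hbS (Finset.mem_sdiff.mp h).1)
              rw [← Finset.prod_sdiff hΩS, hS', hΩprod, one_mul]
        have hbase_val : trc H ϑ u base = ϑ u := by
          rw [trc_fixed H ϑ u base (hbfix u huH)]
          have hsH : base.out ∈ H := hbfix' _ (QuotientGroup.out_eq' base)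
          exact hHconj _ hsH u huH
        rw [hτdef]
        show ∏ q : G ⧸ H, trc H ϑ u q = ϑ u
        rw [← Finset.mul_prod_erase Finset.univ _ (Finset.mem_univ base), hbase_val,
          hclaim (Finset.univ.erase base) ?_ (Finset.notMem_erase base _), mul_one]
        intro y hy q
        rw [Finset.mem_erase, Finset.mem_erase]
        simp only [Finset.mem_univ, and_true]
        constructor
        · intro h hq
          apply h
          rw [hq]
          exact hbfix y (hPH (hYP hy))
        · intro h hq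
          apply h
          have h8 := congrArg (fun x => y⁻¹ • x) hq
          simp only [inv_smul_smul] at h8
          rw [h8]
          exact hbfix y⁻¹ (H.inv_mem (hPH (hYP hy)))
      intro t ht htn g hg
      have h1 : orderOf (g⁻¹ * t * g) = n := by
        rw [← htn]
        have h9 := (MulAut.conj g⁻¹).orderOf_eq t
        rw [MulAut.conj_apply, inv_inv] at h9
        exact h9
      rw [← hτϑ _ hg h1, hτconj, hτϑ t ht htn]
  intro t ht g hg
  exact key _ t ht rfl g hg

end Cfsg.Agent.Lib.Helper17
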