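import Mathlib
import Cfsg.Agent.Lib.Helper14.WreathImage
import Cfsg.Agent.Lib.Helper1.Cores
import Cfsg.Agent.S0012
import Cfsg.Agent.Lib.Helper17.TrCore

set_option autoImplicit false

namespace Cfsg.Agent.Lib.Helper17

open Finset
open scoped commutatorElement

theorem tr_frattini_ker {Q : Type*} [Group Q] [Finite Q] {p : ℕ} [Fact p.Prime]
    {A : Type*} [CommGroup A] (hA : ∀ a : A, a ^ p = 1) (θ : Q →* A) (x : Q)
    (hx : x ∈ frattini Q) : θ x = 1 := by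
  have hp : p.Prime := Fact.out
  by_contra hne
  obtain ⟨Hs, hHs, hxHs⟩ := Cfsg.Agent.Lib.Helper14.exists_index_p_not_mem p hA (θ x) hne
  have hMne : Hs.comap θ ≠ ⊤ := by
    intro htop
    apply hxHs
    have h1 : x ∈ Hs.comap θ := by
      rw [htop]
      exact Subgroup.mem_top x
    exact h1
  obtain ⟨M', hM', hle⟩ := (eq_top_or_exists_le_coatom _).resolve_left hMne
  have hidx : (Hs.comap θ).index ∣ p := by
    rw [Subgroup.index_comap, ← hHs]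
    exact Subgroup.relIndex_dvd_index_of_normal Hs θ.range
  have h1 := Subgroup.relIndex_mul_index hle
  have hd : M'.index ≠ 1 := fun h => hM'.1 (Subgroup.index_eq_one.mp h)
  have h2 : M'.index ∣ p := dvd_trans (Dvd.intro_left _ h1) hidx
  have h3 : M'.index = p := ((Nat.dvd_prime hp).mp h2).resolve_left hd
  have h4 : (Hs.comap θ).index = p := by
    rcases (Nat.dvd_prime hp).mp hidx with h | h
    · exact absurd (Subgroup.index_eq_one.mp h) hMne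
    · exact h
  have h5 : (Hs.comap θ).relIndex M' = 1 := by
    rw [h3, h4] at h1
    exact Nat.eq_of_mul_eq_mul_right hp.pos (by rw [h1, one_mul])
  have h6 : M' ≤ Hs.comap θ := Subgroup.relIndex_eq_one.mp h5
  exact hxHs (h6 (frattini_le_coatom hM' hx))

theorem hw_engel_prod' {A : Type*} [CommGroup A] {p : ℕ} (hp : p.Prime)
    (hA : ∀ a : A, a ^ p = 1) (b : ℕ → ℕ → A) (hb : ∀ i j, b (i + 1) j = b i j * b i (j + 1)) :
    ∏ i ∈ range p, b i 0 = b 0 (p - 1) := by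
  have e : p - 1 + 1 = p := by have := hp.pos; omega
  have h1 : ∀ i ∈ range p, b i 0 = ∏ k ∈ range p, b 0 k ^ (i.choose k) := by
    intro i hi
    have hi' := mem_range.mp hi
    have h2 := hw_binom b hb (p - 1) i (by omega) 0
    rw [e] at h2
    rw [h2]
    simp
  rw [prod_congr rfl h1, prod_comm]
  rw [Finset.prod_eq_single (p - 1)]
  · rw [prod_pow_eq_pow_sum, hw_sum_choose, e, Nat.choose_self, pow_one]
  · intro k hk hkne
    rw [prod_pow_eq_pow_sum, hw_sum_choose]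
    have hk' := mem_range.mp hk
    have hkp : k + 1 < p := by omega
    obtain ⟨c, hc⟩ := hp.dvd_choose_self (Nat.succ_ne_zero k) hkp
    rw [hc, pow_mul, hA, one_pow]
  · intro h
    exact absurd (mem_range.mpr (by have := hp.pos; omega)) h

open scoped IsMulCommutative in
theorem tr_yoshida_star {G : Type*} [Group G] [Finite G] {p : ℕ} [Fact p.Prime]
    (Y P₁ : Subgroup G) (hY : IsPGroup p Y) (hP₁Y : P₁ ≤ Y)
    (hnorm : ∀ y ∈ Y, ∀ a ∈ P₁, y⁻¹ * a * y ∈ P₁) (hidx : P₁.relIndex Y = p)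
    {A : Type*} [CommGroup A] (hA : ∀ a : A, a ^ p = 1) (σ : G → A)
    (hσ : ∀ a ∈ P₁, ∀ b ∈ P₁, σ (a * b) = σ a * σ b) (y : G) (hy : y ∈ P₁) (z : G)
    (hz : z ∈ Y) (hne : ∏ i ∈ range p, σ ((z ^ i)⁻¹ * y * z ^ i) ≠ 1) :
    ∃ (Q : Sylow p (Equiv.Perm (Fin (p ^ 2))))
      (f : ↥Y →* ↥(Q : Subgroup (Equiv.Perm (Fin (p ^ 2))))), Function.Surjective f := by
  have hp : p.Prime := Fact.out
  obtain ⟨P₁', hP₁'def⟩ : ∃ P₁' : Subgroup ↥Y, P₁' = P₁.subgroupOf Y := ⟨_, rfl⟩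
  have hN : P₁'.Normal := by
    rw [hP₁'def]
    constructor
    intro n hn g
    rw [Subgroup.mem_subgroupOf] at hn ⊢
    have h1 := hnorm ((g⁻¹ : ↥Y) : G) (g⁻¹).2 n hn
    simpa using h1
  have hmem : ∀ a : ↥Y, a ∈ P₁' ↔ (a : G) ∈ P₁ := by
    intro a
    rw [hP₁'def]
    exact Subgroup.mem_subgroupOf
  have hidx' : P₁'.index = p := by
    rw [hP₁'def]
    exact hidx
  have hP₁p : IsPGroup p ↥P₁' := hY.to_subgroup P₁'
  let σ' : ↥P₁' →* A :=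
    { toFun := fun a => σ ((a : ↥Y) : G)
      map_one' := by
        have h1 := hσ 1 P₁.one_mem 1 P₁.one_mem
        rw [mul_one] at h1
        exact mul_eq_left.mp h1.symm
      map_mul' := fun a b => hσ _ ((hmem a.1).mp a.2) _ ((hmem b.1).mp b.2) }
  obtain ⟨K, hKdef⟩ : ∃ K : Subgroup ↥Y, K = (frattini ↥P₁').map P₁'.subtype := ⟨_, rfl⟩
  have hKn : K.Normal := by
    rw [hKdef]
    exact ConjAct.normal_of_characteristic_of_normal
  have hKle : K ≤ P₁' := by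
    rw [hKdef]
    exact Subgroup.map_subtype_le _
  have hS12 := Cfsg.Agent.S0012.result p (G := ↥P₁') hP₁p
  have hKmem : ∀ a : ↥P₁', a ∈ frattini ↥P₁' → (a : ↥Y) ∈ K := by
    intro a ha
    rw [hKdef]
    exact ⟨a, ha, rfl⟩
  obtain ⟨π, hπdef⟩ : ∃ π : ↥Y →* ↥Y ⧸ K, π = QuotientGroup.mk' K := ⟨_, rfl⟩
  have hπsurj : Function.Surjective π := by
    rw [hπdef]
    exact QuotientGroup.mk'_surjective K
  have hπker : π.ker = K := by
    rw [hπdef]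
    exact QuotientGroup.ker_mk' K
  have hπone : ∀ a : ↥Y, π a = 1 ↔ a ∈ K := by
    intro a
    constructor
    · intro h
      have h' : a ∈ π.ker := MonoidHom.mem_ker.mpr h
      rw [hπker] at h'
      exact h'
    · intro h
      have h' : a ∈ π.ker := by
        rw [hπker]
        exact h
      exact MonoidHom.mem_ker.mp h'
  have hAn : (P₁'.map π).Normal := Subgroup.Normal.map hN π hπsurj
  have hAcomm : IsMulCommutative ↥(P₁'.map π) := by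
    refine ⟨⟨?_⟩⟩
    rintro ⟨_, a, ha, rfl⟩ ⟨_, b, hb, rfl⟩
    apply Subtype.ext
    show π a * π b = π b * π a
    have h1 : ⁅(⟨a, ha⟩ : ↥P₁'), ⟨b, hb⟩⁆ ∈ frattini ↥P₁' :=
      hS12.1 (Subgroup.commutator_mem_commutator (Subgroup.mem_top _) (Subgroup.mem_top _))
    have h2 := (hπone _).mpr (hKmem _ h1)
    have h3 : π (a * b * a⁻¹ * b⁻¹) = 1 := h2
    rw [map_mul, map_mul, map_mul, map_inv, map_inv] at h3
    have h4 := mul_inv_eq_one.mp h3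
    exact mul_inv_eq_iff_eq_mul.mp h4
  have hexp : ∀ a ∈ P₁'.map π, a ^ p = 1 := by
    rintro _ ⟨a, ha, rfl⟩
    rw [← map_pow, hπone]
    exact hKmem (⟨a, ha⟩ ^ p) (hS12.2 ⟨a, ha⟩)
  have hidxA : (P₁'.map π).index = p := by
    rw [Subgroup.index_map_eq P₁' hπsurj (by rw [hπker]; exact hKle)]
    exact hidx'
  obtain ⟨yy, hyy⟩ : ∃ yy : ↥Y, yy = ⟨y, hP₁Y hy⟩ := ⟨_, rfl⟩
  obtain ⟨zz, hzz⟩ : ∃ zz : ↥Y, zz = ⟨z, hz⟩ := ⟨_, rfl⟩
  have hyyP : yy ∈ P₁' := by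
    rw [hmem, hyy]
    exact hy
  have hcmem : ∀ i : ℕ, (zz ^ i)⁻¹ * yy * zz ^ i ∈ P₁' := by
    intro i
    have h1 := hN.conj_mem yy hyyP (zz ^ i)⁻¹
    rwa [inv_inv] at h1
  have hprod : ((List.range p).map (fun i => (π zz ^ i)⁻¹ * π yy * π zz ^ i)).prod ≠ 1 := by
    intro h1
    apply hne
    have hgen : ∀ n : ℕ, ∃ L : ↥P₁', π (L : ↥Y) =
        ((List.range n).map (fun i => (π zz ^ i)⁻¹ * π yy * π zz ^ i)).prod ∧
        σ' L = ∏ i ∈ range n, σ ((z ^ i)⁻¹ * y * z ^ i) := by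
      intro n
      induction n with
      | zero => exact ⟨1, by simp, by simp⟩
      | succ n ih =>
        obtain ⟨L, hL1, hL2⟩ := ih
        refine ⟨L * ⟨_, hcmem n⟩, ?_, ?_⟩
        · rw [List.range_succ, List.map_append, List.prod_append, ← hL1]
          simp
        · rw [map_mul, hL2, Finset.prod_range_succ]
          congr 1
          show σ (((zz ^ n)⁻¹ * yy * zz ^ n : ↥Y) : G) = σ ((z ^ n)⁻¹ * y * z ^ n)
          rw [hyy, hzz]
          rfl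
    obtain ⟨L, hL1, hL2⟩ := hgen p
    rw [h1, hπone, hKdef] at hL1
    obtain ⟨k, hk, hkL⟩ := hL1
    have hkL' : k = L := Subtype.ext hkL
    rw [← hL2, ← hkL']
    exact tr_frattini_ker hA σ' k hk
  obtain ⟨Q, f, hf⟩ := Cfsg.Agent.Lib.Helper14.exists_surj_sylow_perm (hY.to_quotient K)
    (P₁'.map π) hexp hidxA (π yy) (π zz) (Subgroup.mem_map_of_mem π hyyP) hprod
  exact ⟨Q, f.comp π, hf.comp hπsurj⟩

theorem tr_glauberman_star {G : Type*} [Group G] [Finite G] {p : ℕ} [Fact p.Prime]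
    (S W : Subgroup G) (hWn : ∀ s ∈ S, ∀ w ∈ W, s⁻¹ * w * s ∈ W)
    (hneg : ∀ x ∈ S, ∀ z ∈ W, ∀ W₀ : Subgroup ↥W, IsCoatom W₀ →
      (fun y : G => y⁻¹ * z⁻¹ * y * z)^[p - 1] x ∈ W₀.map W.subtype →
      (fun y : G => y⁻¹ * z⁻¹ * y * z)^[p - 1] x ∈
        ((frattini ↥W₀).map W₀.subtype).map W.subtype)
    (Y P₁ : Subgroup G) (hWY : W ≤ Y) (hYS : Y ≤ S) (hP₁Y : P₁ ≤ Y)
    (hnorm : ∀ y ∈ Y, ∀ a ∈ P₁, y⁻¹ * a * y ∈ P₁) (hidx : P₁.relIndex Y = p)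
    {A : Type*} [CommGroup A] (hA : ∀ a : A, a ^ p = 1) (σ : G → A)
    (hσ : ∀ a ∈ P₁, ∀ b ∈ P₁, σ (a * b) = σ a * σ b) (y : G) (hy : y ∈ P₁) (z : G)
    (hzW : z ∈ W) (hzP : z ∉ P₁) : ∏ i ∈ range p, σ ((z ^ i)⁻¹ * y * z ^ i) = 1 := by
  have hp : p.Prime := Fact.out
  have hzY := hWY hzW
  obtain ⟨δ, hδ⟩ : ∃ δ : G → G, δ = fun v => v⁻¹ * z⁻¹ * v * z := ⟨_, rfl⟩
  have hδP : ∀ v ∈ P₁, δ v ∈ P₁ := by
    intro v hv
    rw [hδ]
    show v⁻¹ * z⁻¹ * v * z ∈ P₁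
    have h1 := P₁.mul_mem (P₁.inv_mem hv) (hnorm z hzY v hv)
    have e : v⁻¹ * (z⁻¹ * v * z) = v⁻¹ * z⁻¹ * v * z := by group
    rwa [e] at h1
  have hδW : ∀ v ∈ S, δ v ∈ W := by
    intro v hv
    rw [hδ]
    show v⁻¹ * z⁻¹ * v * z ∈ W
    exact W.mul_mem (hWn v hv z⁻¹ (W.inv_mem hzW)) hzW
  have hδiP : ∀ j : ℕ, δ^[j] y ∈ P₁ := by
    intro j
    induction j with
    | zero => exact hy
    | succ j ih =>
      rw [Function.iterate_succ_apply']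
      exact hδP _ ih
  have hzi : ∀ i : ℕ, z ^ i ∈ Y := fun i => Y.pow_mem hzY i
  have hb : ∏ i ∈ range p, σ ((z ^ i)⁻¹ * δ^[0] y * z ^ i) =
      σ ((z ^ 0)⁻¹ * δ^[p - 1] y * z ^ 0) :=
    hw_engel_prod' hp hA (fun i j => σ ((z ^ i)⁻¹ * δ^[j] y * z ^ i)) (by
      intro i j
      show σ _ = σ _ * σ _
      rw [← hσ _ (hnorm _ (hzi i) _ (hδiP j)) _ (hnorm _ (hzi i) _ (hδiP (j + 1)))]
      congr 1
      rw [Function.iterate_succ_apply', hδ]
      generalize (fun v => v⁻¹ * z⁻¹ * v * z)^[j] y = v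
      show _ = (z ^ i)⁻¹ * v * z ^ i * ((z ^ i)⁻¹ * (v⁻¹ * z⁻¹ * v * z) * z ^ i)
      rw [pow_succ]
      group)
  rw [pow_zero, inv_one, one_mul, mul_one] at hb
  have hb' : ∏ i ∈ range p, σ ((z ^ i)⁻¹ * y * z ^ i) = σ (δ^[p - 1] y) := hb
  rw [hb']
  have hp1 : p - 1 = (p - 2) + 1 := by have := hp.two_le; omega
  have hdP : δ^[p - 1] y ∈ P₁ := hδiP _
  have hdW : δ^[p - 1] y ∈ W := by
    rw [hp1, Function.iterate_succ_apply']
    exact hδW _ (hYS (hP₁Y (hδiP _)))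
  obtain ⟨W₀, hW₀def⟩ : ∃ W₀ : Subgroup ↥W, W₀ = P₁.subgroupOf W := ⟨_, rfl⟩
  have hW₀mem : ∀ w : ↥W, w ∈ W₀ ↔ (w : G) ∈ P₁ := by
    intro w
    rw [hW₀def]
    exact Subgroup.mem_subgroupOf
  have hcoatom : IsCoatom W₀ := by
    constructor
    · intro htop
      apply hzP
      rw [← hW₀mem ⟨z, hzW⟩, htop]
      exact Subgroup.mem_top _
    · intro M' hlt
      obtain ⟨w, hwM, hwW₀⟩ := SetLike.exists_of_lt hlt
      rw [hW₀mem] at hwW₀
      obtain ⟨hrep, _⟩ := tr_coset_rep Y P₁ hnorm hidx (w : G) (hWY w.2) hwW₀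
      rw [eq_top_iff]
      intro w' _
      obtain ⟨i, _, hi⟩ := hrep (w' : G) (hWY w'.2)
      have h1 : (w ^ i)⁻¹ * w' ∈ W₀ := by
        rw [hW₀mem]
        exact hi
      have h2 := M'.mul_mem (M'.pow_mem hwM i) (hlt.le h1)
      rwa [mul_inv_cancel_left] at h2
  have h1 : δ^[p - 1] y ∈ W₀.map W.subtype := ⟨⟨_, hdW⟩, (hW₀mem _).mpr hdP, rfl⟩
  have h2 := hneg y (hYS (hP₁Y hy)) z hzW W₀ hcoatom (by rw [hδ] at h1; exact h1)
  obtain ⟨w, ⟨k, hk, hkw⟩, hwd⟩ := h2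
  let σ'' : ↥W₀ →* A :=
    { toFun := fun a => σ (((a : ↥W) : G))
      map_one' := by
        have h1 := hσ 1 P₁.one_mem 1 P₁.one_mem
        rw [mul_one] at h1
        exact mul_eq_left.mp h1.symm
      map_mul' := fun a b => hσ _ ((hW₀mem a.1).mp a.2) _ ((hW₀mem b.1).mp b.2) }
  have h3 := tr_frattini_ker hA σ'' k hk
  have h4 : δ^[p - 1] y = ((k : ↥W) : G) := by
    rw [hδ, ← hwd, ← hkw]
    rfl
  rw [h4]
  exact h3

end Cfsg.Agent.Lib.Helper17
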