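import Mathlib
import Cfsg.Prelude.Def_Transfer
import Cfsg.Prelude.Def_BaumannBlocks
import Cfsg.Agent.Lib.Helper1.Tate
import Cfsg.Agent.S0078
import Cfsg.Agent.S0012
import Cfsg.Agent.Lib.Helper17.HWTate

set_option autoImplicit false

namespace Cfsg.Agent.Lib.Helper17

open Cfsg Cfsg.Agent.Lib.Helper1 Cfsg.Agent.Lib.Helper14
open scoped commutatorElement

universe u

theorem tr_key {G : Type u} [Group G] [Finite G] {p : ℕ} [Fact p.Prime] (P : Sylow p G)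
    (H : Subgroup G) (hPH : (P : Subgroup G) ≤ H) {A : Type*} [CommGroup A]
    (hfus : ∀ ϑ : G → A, (∀ x ∈ H, ∀ y ∈ H, ϑ (x * y) = ϑ x * ϑ y) →
      ∀ t ∈ (P : Subgroup G), ∀ g : G, g⁻¹ * t * g ∈ (P : Subgroup G) →
        ϑ (g⁻¹ * t * g) = ϑ t)
    (θ : ↥H →* A) (v : G) (hvP : v ∈ (P : Subgroup G))
    (hvK : v ∈ Cfsg.pResidual p G) (hvH : v ∈ H) :
    θ ⟨v, hvH⟩ = 1 := by
  classical
  obtain ⟨ϑ, hϑdef⟩ : ∃ ϑ : G → A, ϑ = fun x =>
      if hx : x ∈ H then θ ⟨x, hx⟩ else 1 := ⟨_, rfl⟩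
  have hϑ_mem : ∀ x (hx : x ∈ H), ϑ x = θ ⟨x, hx⟩ := by
    intro x hx
    rw [hϑdef]
    exact dif_pos hx
  have hϑ : ∀ x ∈ H, ∀ y ∈ H, ϑ (x * y) = ϑ x * ϑ y := by
    intro x hx y hy
    rw [hϑ_mem x hx, hϑ_mem y hy, hϑ_mem _ (Subgroup.mul_mem _ hx hy), ← map_mul]
    rfl
  have hfus' := hfus ϑ hϑ
  have h1 : Cfsg.pResidual p G ≤ (P : Subgroup G).transferFocal.ker :=
    pResidual_le_ker p _ (P.2.to_quotient _)
  have h2 := Subgroup.ker_transferFocal_inf_eq_focalSubgroup P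
  have h3 : v ∈ (P : Subgroup G).focalSubgroup := by
    rw [← h2]
    exact Subgroup.mem_inf.mpr ⟨h1 hvK, hvP⟩
  have h4 : (P : Subgroup G).focalSubgroup ≤ θ.ker.map H.subtype := by
    rw [Subgroup.focalSubgroup_def, Subgroup.closure_le]
    rintro g ⟨hgP, x, hxP, u, rfl⟩
    have hc : u⁻¹⁻¹ * x⁻¹ * u⁻¹ ∈ (P : Subgroup G) := by
      have h5 := (P : Subgroup G).mul_mem (inv_mem hxP) hgP
      rw [commutatorElement_def] at h5
      have e : x⁻¹ * (x * u * x⁻¹ * u⁻¹) = u⁻¹⁻¹ * x⁻¹ * u⁻¹ := by group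
      rw [e] at h5
      exact h5
    have h5 := hfus' x⁻¹ (inv_mem hxP) u⁻¹ hc
    refine ⟨⟨⁅x, u⁆, hPH hgP⟩, ?_, rfl⟩
    show θ ⟨⁅x, u⁆, hPH hgP⟩ = 1
    rw [← hϑ_mem]
    have e : ⁅x, u⁆ = x * (u⁻¹⁻¹ * x⁻¹ * u⁻¹) := by
      rw [commutatorElement_def]
      group
    rw [e, hϑ x (hPH hxP) _ (hPH hc), h5, ← hϑ x (hPH hxP) _ (hPH (inv_mem hxP)),
      mul_inv_cancel, hϑ_mem 1 (one_mem _)]
    exact map_one θ
  obtain ⟨v', hv', hv'eq⟩ := h4 h3
  have e : v' = ⟨v, hvH⟩ := Subtype.ext hv'eq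
  rw [← e]
  exact hv'

theorem tr_residual {G : Type u} [Group G] [Finite G] {p : ℕ} [Fact p.Prime] (P : Sylow p G)
    (H : Subgroup G) (hPH : (P : Subgroup G) ≤ H)
    (hfus : ∀ (A : Type u) [CommGroup A], (∀ a : A, a ^ p = 1) → ∀ ϑ : G → A,
      (∀ x ∈ H, ∀ y ∈ H, ϑ (x * y) = ϑ x * ϑ y) →
      ∀ t ∈ (P : Subgroup G), ∀ g : G, g⁻¹ * t * g ∈ (P : Subgroup G) →
        ϑ (g⁻¹ * t * g) = ϑ t) :
    (Cfsg.pResidual p ↥H).map H.subtype = Cfsg.pResidual p G ⊓ H := by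
  have hp : p.Prime := Fact.out
  obtain ⟨K, hKdef⟩ : ∃ K : Subgroup G, K = Cfsg.pResidual p G := ⟨_, rfl⟩
  obtain ⟨W, hWdef⟩ : ∃ W : Subgroup G, W = (Cfsg.pResidual p ↥H).map H.subtype := ⟨_, rfl⟩
  rw [← hKdef, ← hWdef]
  have hKn : K.Normal := hKdef ▸ pResidual_normal p
  have hW'n : (Cfsg.pResidual p ↥H).Normal := pResidual_normal p
  have hWK : W ≤ K := by
    rw [hWdef, hKdef]
    unfold Cfsg.pResidual
    rw [MonoidHom.map_closure, Subgroup.closure_le]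
    rintro _ ⟨v, hv, rfl⟩
    apply Subgroup.subset_closure
    show Nat.Coprime (orderOf (H.subtype v)) p
    rw [Subgroup.coe_subtype, Subgroup.orderOf_coe]
    exact hv
  have hWH : W ≤ H := by
    rw [hWdef]
    exact Subgroup.map_subtype_le _
  obtain ⟨T, hTdef⟩ : ∃ T : Subgroup ↥H, T = (P : Subgroup G).subgroupOf H := ⟨_, rfl⟩
  have hTidx : ¬ p ∣ T.index := by
    rw [hTdef]
    intro hd
    exact P.not_dvd_index (dvd_trans hd (Subgroup.relIndex_dvd_index_of_le hPH))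
  have hfact : ∀ v : (P : Subgroup G), (v : G) ∈ K →
      ∃ c ∈ frattini (P : Subgroup G), ∃ w : (P : Subgroup G), (w : G) ∈ W ∧ v = c * w := by
    intro v hvK
    have hA : ∀ a : Abelianization ↥H ⧸
        (powMonoidHom p : Abelianization ↥H →* Abelianization ↥H).range, a ^ p = 1 := by
      intro a
      obtain ⟨b, rfl⟩ := QuotientGroup.mk'_surjective _ a
      rw [← map_pow, QuotientGroup.mk'_apply, QuotientGroup.eq_one_iff]
      exact ⟨b, rfl⟩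
    have hθ := tr_key P H hPH (hfus _ hA)
      ((QuotientGroup.mk' (powMonoidHom p : Abelianization ↥H →* Abelianization ↥H).range).comp
        Abelianization.of) (v : G) v.2 (hKdef ▸ hvK) (hPH v.2)
    rw [MonoidHom.comp_apply, QuotientGroup.mk'_apply, QuotientGroup.eq_one_iff] at hθ
    obtain ⟨b, hb⟩ := hθ
    obtain ⟨x, hx⟩ := QuotientGroup.mk_surjective (s := commutator ↥H) b
    have hb' : Abelianization.of x ^ p = Abelianization.of (⟨(v : G), hPH v.2⟩ : ↥H) := by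
      rw [← hb, powMonoidHom_apply, ← hx]
      rfl
    have hcomm : (x ^ p)⁻¹ * (⟨(v : G), hPH v.2⟩ : ↥H) ∈ commutator ↥H := by
      rw [← Abelianization.ker_of, MonoidHom.mem_ker, map_mul, map_inv, map_pow, ← hb',
        inv_mul_cancel]
    obtain ⟨u, huT, hux⟩ := hw_sylow_mul_residual T hTidx x
    obtain ⟨y, hy, hyc⟩ := Cfsg.Agent.S0078.comm_mod_residual T hTidx hcomm
    have hW1 : (u ^ p * y)⁻¹ * (⟨(v : G), hPH v.2⟩ : ↥H) ∈ Cfsg.pResidual p ↥H := by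
      rw [← QuotientGroup.eq]
      have e1 : ((u : ↥H) : ↥H ⧸ Cfsg.pResidual p ↥H) = x := QuotientGroup.eq.mpr hux
      have e2 : ((y : ↥H) : ↥H ⧸ Cfsg.pResidual p ↥H) =
          ((x ^ p)⁻¹ * (⟨(v : G), hPH v.2⟩ : ↥H) : ↥H) := QuotientGroup.eq.mpr hyc
      rw [QuotientGroup.mk_mul, QuotientGroup.mk_pow, e1, e2, QuotientGroup.mk_mul,
        QuotientGroup.mk_inv, QuotientGroup.mk_pow]
      group
    have huP : (u : G) ∈ (P : Subgroup G) := by
      rw [hTdef] at huT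
      exact Subgroup.mem_subgroupOf.mp huT
    have hyP : (y : G) ∈ ⁅(P : Subgroup G), (P : Subgroup G)⁆ := by
      have h1 := Subgroup.mem_map_of_mem H.subtype hy
      rw [Subgroup.map_commutator, hTdef, Subgroup.map_subgroupOf_eq_of_le hPH] at h1
      exact h1
    rw [← Subgroup.map_subtype_commutator] at hyP
    obtain ⟨c₁, hc₁, hc₁y⟩ := hyP
    have hS12 := Cfsg.Agent.S0012.result p (G := ↥(P : Subgroup G)) P.2
    refine ⟨(⟨(u : G), huP⟩ : (P : Subgroup G)) ^ p * c₁,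
      (frattini (P : Subgroup G)).mul_mem (hS12.2 _) (hS12.1 hc₁),
      ((⟨(u : G), huP⟩ : (P : Subgroup G)) ^ p * c₁)⁻¹ * v, ?_, by group⟩
    rw [hWdef]
    refine ⟨_, hW1, ?_⟩
    have hc₁y' : (c₁ : G) = (y : G) := hc₁y
    simp only [Subgroup.coe_subtype, Subgroup.coe_mul, Subgroup.coe_inv, Subgroup.coe_pow,
      hc₁y']
  have hKgen : K ≤ Subgroup.closure {g : G | g ∈ K ∧ (orderOf g).Coprime p} := by
    conv_lhs => rw [hKdef]
    unfold Cfsg.pResidual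
    apply Subgroup.closure_mono
    intro g hg
    refine ⟨?_, hg⟩
    rw [hKdef]
    exact Subgroup.subset_closure hg
  have hWn : ∀ y, y ∈ W → ∀ t ∈ H, t * y * t⁻¹ ∈ W := by
    intro y hy t ht
    rw [hWdef] at hy ⊢
    obtain ⟨y', hy', rfl⟩ := hy
    exact ⟨⟨t, ht⟩ * y' * ⟨t, ht⟩⁻¹, hW'n.conj_mem y' hy' ⟨t, ht⟩, rfl⟩
  have hBn : (W.subgroupOf (P : Subgroup G)).Normal := by
    constructor
    intro n hn g
    rw [Subgroup.mem_subgroupOf] at hn ⊢
    exact hWn _ hn _ (hPH g.2)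
  have hBA : W.subgroupOf (P : Subgroup G) ≤ K.subgroupOf (P : Subgroup G) := by
    intro x hx
    rw [Subgroup.mem_subgroupOf] at hx ⊢
    exact hWK hx
  have hPKW : (P : Subgroup G) ⊓ K ≤ (P : Subgroup G) ⊓ W := by
    by_contra hcon
    have hnAB : ¬ K.subgroupOf (P : Subgroup G) ≤ W.subgroupOf (P : Subgroup G) := by
      intro hle
      apply hcon
      intro x hx
      obtain ⟨hxP, hxK⟩ := Subgroup.mem_inf.mp hx
      have h1 : (⟨x, hxP⟩ : (P : Subgroup G)) ∈ W.subgroupOf (P : Subgroup G) := hle hxK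
      exact Subgroup.mem_inf.mpr ⟨hxP, h1⟩
    obtain ⟨R, instR, instF, π, hRp, hπcen, hπker, hπB, hπne⟩ :=
      Cfsg.Agent.S0078.exists_central_quotient P.2 (K.subgroupOf (P : Subgroup G))
        (W.subgroupOf (P : Subgroup G)) hBA hnAB
    obtain ⟨HR, ha, hb⟩ := tate_lift P K hKgen hRp π (fun u hu r => hπcen u hu r)
      (fun w hw => hπker w hw)
    have hsup : HR.comap π ⊔ frattini (P : Subgroup G) = ⊤ := by
      rw [eq_top_iff]
      intro u _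
      obtain ⟨v, hvK, hv⟩ := ha u
      obtain ⟨c, hcΦ, w, hwW, hvcw⟩ := hfact v hvK
      have hwX : w * (v⁻¹ * u) ∈ HR.comap π := by
        rw [Subgroup.mem_comap, map_mul, hπB w hwW, one_mul]
        exact hv
      have e : u = c * (w * (v⁻¹ * u)) := by
        rw [← mul_assoc, ← hvcw]
        group
      rw [e, sup_comm]
      exact Subgroup.mul_mem_sup hcΦ hwX
    have hX := frattini_nongenerating hsup
    apply hπne
    intro a haA
    apply hb a haA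
    have h1 : a ∈ HR.comap π := by
      rw [hX]
      exact Subgroup.mem_top a
    exact h1
  apply le_antisymm (le_inf hWK hWH)
  intro x hx
  obtain ⟨hxK, hxH⟩ := Subgroup.mem_inf.mp hx
  obtain ⟨u, huT, hux⟩ := hw_sylow_mul_residual T hTidx ⟨x, hxH⟩
  have huP : (u : G) ∈ (P : Subgroup G) := by
    rw [hTdef] at huT
    exact Subgroup.mem_subgroupOf.mp huT
  have hw : (u : G)⁻¹ * x ∈ W := by
    rw [hWdef]
    exact ⟨_, hux, rfl⟩
  have huK : (u : G) ∈ K := by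
    have h1 := K.mul_mem hxK (K.inv_mem (hWK hw))
    have e : x * ((u : G)⁻¹ * x)⁻¹ = (u : G) := by group
    rw [e] at h1
    exact h1
  have huW : (u : G) ∈ W := (Subgroup.mem_inf.mp (hPKW (Subgroup.mem_inf.mpr ⟨huP, huK⟩))).2
  have h1 := W.mul_mem huW hw
  have e : (u : G) * ((u : G)⁻¹ * x) = x := by group
  rw [e] at h1
  exact h1

theorem tr_commutator {G : Type u} [Group G] [Finite G] {p : ℕ} [Fact p.Prime] (P : Sylow p G)
    (H : Subgroup G) (hPH : (P : Subgroup G) ≤ H)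
    (hfus : ∀ (A : Type u) [CommGroup A], (∀ a : A, a ^ p = 1) → ∀ ϑ : G → A,
      (∀ x ∈ H, ∀ y ∈ H, ϑ (x * y) = ϑ x * ϑ y) →
      ∀ t ∈ (P : Subgroup G), ∀ g : G, g⁻¹ * t * g ∈ (P : Subgroup G) →
        ϑ (g⁻¹ * t * g) = ϑ t) :
    (P : Subgroup G) ⊓ commutator G ≤ ⁅H, H⁆ := by
  have hres := tr_residual P H hPH hfus
  intro x hx
  obtain ⟨hxP, hxc⟩ := Subgroup.mem_inf.mp hx
  obtain ⟨y, hy, hyx⟩ := Cfsg.Agent.S0078.comm_mod_residual (P : Subgroup G) P.not_dvd_index hxc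
  have hPP : ⁅(P : Subgroup G), (P : Subgroup G)⁆ ≤ (P : Subgroup G) := by
    rw [Subgroup.commutator_le]
    intro a ha b hb
    rw [commutatorElement_def]
    exact (P : Subgroup G).mul_mem ((P : Subgroup G).mul_mem ((P : Subgroup G).mul_mem ha hb)
      ((P : Subgroup G).inv_mem ha)) ((P : Subgroup G).inv_mem hb)
  have hyP : y ∈ (P : Subgroup G) := hPP hy
  have hyxP : y⁻¹ * x ∈ (P : Subgroup G) :=
    (P : Subgroup G).mul_mem ((P : Subgroup G).inv_mem hyP) hxP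
  have h1 : y⁻¹ * x ∈ (Cfsg.pResidual p ↥H).map H.subtype := by
    rw [hres]
    exact Subgroup.mem_inf.mpr ⟨hyx, hPH hyxP⟩
  obtain ⟨h', hh', hh'eq⟩ := h1
  have hh'eq' : (h' : G) = y⁻¹ * x := hh'eq
  have h2 : Cfsg.pResidual p ↥H ≤ ((P.subtype hPH : Sylow p ↥H) : Subgroup ↥H).transferFocal.ker :=
    pResidual_le_ker p _ ((P.subtype hPH).2.to_quotient _)
  have h3 := Subgroup.ker_transferFocal_inf_eq_focalSubgroup (P.subtype hPH)
  have h4 : h' ∈ ((P.subtype hPH : Sylow p ↥H) : Subgroup ↥H) := by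
    rw [Sylow.coe_subtype, Subgroup.mem_subgroupOf, hh'eq']
    exact hyxP
  have h5 : h' ∈ ((P.subtype hPH : Sylow p ↥H) : Subgroup ↥H).focalSubgroup := by
    rw [← h3]
    exact Subgroup.mem_inf.mpr ⟨h2 hh', h4⟩
  have h6 : h' ∈ commutator ↥H := Subgroup.focalSubgroup_le_commutator _ h5
  have h7 : y⁻¹ * x ∈ ⁅H, H⁆ := by
    rw [← Subgroup.map_subtype_commutator, ← hh'eq']
    exact Subgroup.mem_map_of_mem H.subtype h6
  have h8 := (⁅H, H⁆).mul_mem (Subgroup.commutator_mono hPH hPH hy) h7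
  rw [mul_inv_cancel_left] at h8
  exact h8

end Cfsg.Agent.Lib.Helper17
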